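import Cfsg.Agent.BN2.RtB
import Cfsg.Agent.BN2.Red
import Cfsg.Agent.BNP.RecC
import Cfsg.Agent.BNP.Simply

/-!
# From Tits systems to `MP` and back; the comparison theorem in rank two (S1144)
-/

set_option autoImplicit false
set_option linter.unusedSectionVars false
set_option linter.unusedVariables false

namespace Cfsg.Agent.BN2

open Cfsg.Agent.St Cfsg.Agent.Chev Cfsg.Agent.BNP
open scoped commutatorElement

theorem cmp_gen {G ι W : Type*} [Group G] [Group W] [Finite W] {T : Tits G ι W} (M : MH T) :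
    (⨆ i, X T (rt T.s 1 i) ⊔ X T (rt T.s 1 i)ᶜ).Normal ∧
      ∀ A, IsRt T.s A → X T A ≤ ⨆ i, X T (rt T.s 1 i) ⊔ X T (rt T.s 1 i)ᶜ := by
  set K := ⨆ i, X T (rt T.s 1 i) ⊔ X T (rt T.s 1 i)ᶜ
  have h1 : ∀ w, ∃ n ∈ K, Mv T n w := fun w => by
    induction w using W_induction T.cox with
    | h1 => exact ⟨1, one_mem _, Mv.one⟩
    | h2 x k _ ih =>
      obtain ⟨n, hn, h⟩ := ih
      obtain ⟨n', hn', h'⟩ := M.exists_mv_gen k
      exact ⟨_, mul_mem hn (Subgroup.mem_iSup_of_mem k hn'), h.mul h'⟩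
  have h2 : ∀ A, IsRt T.s A → X T A ≤ K := by
    rintro _ ⟨w, i, rfl⟩ g hg
    obtain ⟨n, hn, h⟩ := h1 w
    have := Subgroup.mem_iSup_of_mem (S := fun i => X T (rt T.s 1 i) ⊔ X T (rt T.s 1 i)ᶜ) i
      (Subgroup.mem_sup_left (h.conj_mem_X' (A := rt T.s 1 i) (by rwa [tr_rt, mul_one])))
    simpa [mul_assoc] using mul_mem (mul_mem hn this) (inv_mem hn)
  have h3 : ∀ g : G, ∃ k ∈ K, Mv T (k⁻¹ * g) 1 := fun g => by
    obtain ⟨u, hu, e⟩ := M.exists_UU (v := 1) (z := BNP.dist T (ap T 1) (g • ap T 1))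
      (y := g • ap T 1) (by rw [inv_one, one_mul])
    obtain ⟨n, hn, h⟩ := h1 (BNP.dist T (ap T 1) (g • ap T 1))
    have e1 : ((u * n)⁻¹ * g) • ap T 1 = ap T 1 := by
      rw [mul_smul, inv_smul_eq_iff, mul_smul, h, mul_one, e]
    obtain ⟨u', hu', e'⟩ := M.exists_UU (v := 1) (z := w0 T) (y := ((u * n)⁻¹ * g) • ap T (w0 T))
      (by rw [dist_of_fix e1, dist_ap])
    have hK : ∀ z, BNP.UU T 1 z ≤ K := fun z => BNP.UU_le fun A hA _ _ => h2 A hA
    refine ⟨u * n * u', mul_mem (mul_mem (hK _ hu) hn) (hK _ hu'),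
      mv_one_of_top isTop_w0 (x := 1) ?_ ?_⟩
    · rw [mul_inv_rev, mul_assoc, mul_smul, e1, inv_smul_eq_iff]
      exact (UU_le_Fx (S := {1}) (fun A _ h _ => Set.singleton_subset_iff.2 h) hu' _ rfl).symm
    · rw [one_mul, mul_inv_rev, mul_assoc, mul_smul, ← e', inv_smul_smul]
  refine ⟨⟨fun x hx g => ?_⟩, h2⟩
  obtain ⟨k, hk, h⟩ := h3 g
  have : k⁻¹ * g * x * (k⁻¹ * g)⁻¹ ∈ K :=
    (iSup_le fun i => sup_le (fun y hy => h2 _ (isRt_rt 1 i) (conj_mem_X_of_Fx (h.mem_Fx _) hy))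
      (fun y hy => h2 _ ((isRt_rt 1 i).compl T.cox) (conj_mem_X_of_Fx (h.mem_Fx _) hy)) :
      K ≤ K.comap (MulAut.conj (k⁻¹ * g)).toMonoidHom) hx
  simpa [mul_assoc] using mul_mem (mul_mem hk this) (inv_mem hk)

theorem cmp_normal {G V W : Type} [Group G] [MulAction G V] [Finite G] [Finite V] [Group W]
    (S : Tits G (Fin 2) W) (M : MP G V)
    (hB : ∀ g, g ∈ S.B ↔ g • M.x 0 = M.x 0 ∧ g • M.x 1 = M.x 1) : (⨆ i, M.U i).Normal := by
  set K := ⨆ i, M.U i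
  have h3 := MP.three_le' (M := M)
  have hK : ∀ i, M.U i ≤ K := fun i => le_iSup M.U i
  have hBH : S.B ≤ K ⊔ M.T := fun g hg => by
    obtain ⟨a, ha, t, ht, rfl⟩ := MP.stab_edge (M := M) (k := 0) ((hB g).1 hg).1
      (by simpa using ((hB g).1 hg).2)
    exact Subgroup.mul_mem_sup (MP.UU_le (fun k _ _ => hK k) ha) ht
  have key : ∀ y : V, S.B ≤ MulAction.stabilizer G y → (∃ g ∈ K, g • y = y ∧ g ∉ S.B) →
      ∃ i, ∀ g, S.wt g = S.s i → g ∈ K ⊔ M.T ∧ g • y = y := by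
    rintro y hy ⟨g, g1, g2, g3⟩
    have e := S.eq_par (le_inf hBH hy)
    obtain h | ⟨i, hi⟩ := Set.eq_empty_or_nonempty
      {i | ∃ x ∈ (K ⊔ M.T) ⊓ MulAction.stabilizer G y, S.wt x = S.s i}
    · rw [h, S.par_empty] at e
      exact absurd (e.le (Subgroup.mem_inf.2 ⟨Subgroup.mem_sup_left g1, g2⟩)) g3
    · exact ⟨i, fun g hg => Subgroup.mem_inf.1 (e.ge (S.mem_par_of_wt_gen hi hg))⟩
  obtain ⟨i, hi⟩ := key (M.x 0) (fun g hg => ((hB g).1 hg).1) (by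
    obtain ⟨g, hg, h1⟩ := MP.exists_U (M := M) (-M.n)
    refine ⟨g, hK _ hg, MP.U_fix hg (by omega) (by omega), fun h => h1 ?_⟩
    exact MP.U_eq_one' hg (M.line.adj' (by omega)) (M.line.ne' (by omega)) ((hB g).1 h).2)
  obtain ⟨j, hj⟩ := key (M.x 1) (fun g hg => ((hB g).1 hg).2) (by
    obtain ⟨g, hg, h1⟩ := MP.exists_U (M := M) 1
    refine ⟨g, hK _ hg, MP.U_fix hg (by omega) (by omega), fun h => h1 ?_⟩
    exact MP.U_eq_one hg (M.adj_symm (M.line.adj' (by omega))) (M.line.ne' (by omega)).symm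
      ((hB g).1 h).1)
  have hij : i ≠ j := by
    rintro rfl
    obtain ⟨g, hg⟩ := S.wt_surjective (S.s i)
    exact gen_ne_one' S.cox i (hg.symm.trans
      (S.wt_eq_one.2 ((hB g).2 ⟨(hi g hg).2, (hj g hg).2⟩)))
  have hT : K ⊔ M.T = ⊤ := by
    rw [eq_top_iff, ← S.par_univ]
    refine S.par_le hBH fun k _ => ?_
    obtain ⟨g, hg⟩ := S.wt_surjective (S.s k)
    have : k = i ∨ k = j := by omega
    rcases this with rfl | rfl
    exacts [⟨g, (hi g hg).1, hg⟩, ⟨g, (hj g hg).1, hg⟩]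
  have hc : ∀ t ∈ M.T, ∀ u ∈ K, t * u * t⁻¹ ∈ K := fun t ht =>
    (iSup_le fun i u hu => hK i (MP.T_conj_U ht hu) :
      K ≤ K.comap (MulAut.conj t).toMonoidHom)
  rw [← Subgroup.normalizer_eq_top_iff, eq_top_iff, ← hT]
  exact sup_le Subgroup.le_normalizer fun t ht => Subgroup.mem_normalizer_iff.2 fun u =>
    ⟨hc t ht u, fun h => by simpa [mul_assoc] using hc _ (inv_mem ht) _ h⟩

/-- `exists_sp` gives `P, x, Dict`; take `M = (⟨P, hn, x, ap⟩ : MP G V).rev n`, so `M.U l = P.X x (-l)`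
(`U_rev`) `= X S (bt S.s a b l)` (`Dict.X_eq`); `MH` is `(rank_two ..).1`; cardinalities:
`MH.card_X`, `bt_zero`, `bt_last`.  `U ≤ A (x 0) (x 1)` (`A_max`, as in `rank_two`) and
`A (x 0) (x 1) = M.UU 0 (n-1)` (`A_eq (n-1)`, `A_symm`).
Generation in `Good`: copy the proof of `MH.gen_top` (`BNP/Comm`): `K = ⨆ i, X (rt 1 i) ⊔ X (rt 1 i)ᶜ` is
normal and contains `X A` for every root `A` (`isRt_bt`), so it contains `UU 0 (n-1) ≥ U`; `hn`.
`Gen`: let `K = ⨆ i, M.U i`, `H = K ⊔ M.T`.  `B ≤ H` (`B_iff`, `stab_edge`).  For `y ∈ {x 0, x 1}`,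
`H ⊓ stabilizer y ≥ B` is `par J_y` (`Tits.eq_par`), `J_y ≠ ∅` because some root group fixes `y` but
not the other vertex (`exists_U`, `U_fix`, `U_eq_one`), and `J_0 ∩ J_1 = ∅` because the intersection
of the two stabilisers is `B` (`par {i} ≤ B` is impossible: `wt_eq_one`, `mem_of_par_le`, `par ∅`).
So `J_0 ∪ J_1 = univ` in `Fin 2` and `H = par J` with `J = univ`, `H = ⊤` (`par_univ` or so).  `T`
normalises `K` (`T_conj_U`), so `K` is normal; it contains `U`; `hn`. -/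
theorem exists_good {G W : Type} [Group G] [Group W] [Finite G] [Finite W]
    (S : Tits G (Fin 2) W) {a b : Fin 2} (hab : a ≠ b) (hc : S.s a * S.s b ≠ S.s b * S.s a)
    (hf : Faith S) {U : Subgroup G} (hU : Spl S U)
    (hn : Subgroup.normalClosure (U : Set G) = ⊤) :
    ∃ (V : Type) (_ : MulAction G V) (_ : Finite V) (M : MP G V), M.Good ∧ M.Gen ∧
      M.n = orderOf (S.s a * S.s b) ∧ Nat.card (M.U 0) = qq S a ∧
      Nat.card (M.U (M.n - 1)) = qq S b ∧ U ≤ M.UU 0 (M.n - 1) := by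
  have hι : ∀ k, k = a ∨ k = b := fun k => by omega
  obtain ⟨V, _, _, P, x, hD, h4⟩ := exists_sp S hab hι hc hf hU
  have hM := (rank_two S hab hι hc hf hU).1
  have h3 := P.three_le
  let M₀ : MP G V := ⟨P, h4, x, hD.ap⟩
  let M := M₀.rev P.n
  have hX : ∀ l : ℕ, l < M.n → X S (bt S.s a b l) = M.U l := fun l hl => by
    rw [hD.X_eq h4 hl, MP.U_rev]
    exact congrArg (P.X x) (by change _ = (P.n : ℤ) - P.n - l; ring)
  have hUU : U ≤ M.UU 0 (M.n - 1) := by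
    have e := MP.A_eq (M := M) (M.n - 1)
    rw [show (M.n : ℤ) - 1 + 1 - M.n = 0 by ring] at e
    rw [← e, MP.rev_x, MP.rev_x, show (P.n : ℤ) - (M.n - 1) = 1 by change _ - ((P.n : ℤ) - 1) = _; ring,
      show (P.n : ℤ) - (M.n - 1 + 1) = 0 by change _ - ((P.n : ℤ) - 1 + 1) = _; ring]
    refine le_trans ?_ (P.A_symm _ _).le
    exact P.A_max U (hD.ap.1.adj' (by simp)) (fun u hu => (hD.B_iff u).1 (hU.le hu))
      (fun g h0 h1 => hU.conj g ((hD.B_iff g).2 ⟨h0, h1⟩)) hU.nil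
  have top : ∀ K : Subgroup G, K.Normal → (∀ l : ℕ, l < M.n → M.U l ≤ K) → K = ⊤ := by
    intro K hK h
    rw [eq_top_iff, ← hn]
    refine Subgroup.normalClosure_le_normal (hUU.trans (MP.UU_le fun k k0 k1 => ?_))
    lift k to ℕ using k0
    exact h k (by omega)
  have e : M.n = P.n := rfl
  refine ⟨V, _, inferInstance, M, ⟨W, _, inferInstance, S, a, b, hab, hM, ?_, hD.n_eq, hX⟩, ?_,
    hD.n_eq, ?_, ?_, hUU⟩
  · exact top _ (cmp_gen hM).1 fun l hl => hX l hl ▸ (cmp_gen hM).2 _ (isRt_bt a b l)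
  · refine top _ ?_ fun l _ => le_iSup M.U l
    have := cmp_normal S M₀ hD.B_iff
    convert this using 1
    refine le_antisymm (iSup_le fun i => ?_) (iSup_le fun i => ?_)
    · rw [MP.U_rev]
      exact le_iSup M₀.U _
    · refine le_iSup_of_le (-i) ?_
      rw [MP.U_rev]
      exact le_of_eq (congrArg M₀.U (by change _ = (P.n : ℤ) - P.n - -i; ring))
  · rw [← Nat.cast_zero, ← hX 0 (by omega), bt_zero, hM.card_X]
  · rw [show (M.n : ℤ) - 1 = (M.n - 1 : ℕ) by omega, ← hX _ (by omega), e, hD.n_eq, bt_last,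
      hM.card_X]

namespace MP

variable {G V : Type} [Group G] [MulAction G V] [Finite G] [Finite V] {M : MP G V}
  {G' V' : Type} [Group G'] [MulAction G' V'] [Finite G'] [Finite V'] {M' : MP G' V'}

/-- swap `a, b`: `U_rev`, `bt_symm`, `ord_comm`. -/
theorem Good.rev (h : M.Good) : (M.rev (2 * M.n - 1)).Good := by
  obtain ⟨W, _, _, S, a, b, hab, hM, hg, hn, hX⟩ := h
  refine ⟨W, _, inferInstance, S, b, a, hab.symm, hM, hg, hn.trans (ord_comm S.cox a b).symm,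
    fun l hl => ?_⟩
  rw [rev_n] at hl
  rw [U_rev, bt_symm S.cox (l := M.n - 1 - l) (by omega), hX _ (by omega)]
  congr 1
  omega

theorem Good.std (h : M.Good) : ∃ (W : Type) (_ : Group W) (_ : Finite W) (S : Tits G (Fin 2) W),
    MH S ∧ (⨆ i, X S (rt S.s 1 i) ⊔ X S (rt S.s 1 i)ᶜ = ⊤) ∧
    (∀ i j, orderOf (S.s i * S.s j) = if i = j then 1 else M.n) ∧
    ∀ l : ℕ, l < M.n → X S (bt S.s 0 1 l) = M.U l := by
  obtain ⟨W, _, _, S, a, b, hab, hM, hg, hn, hX⟩ := h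
  obtain ⟨e, e0, e1⟩ : ∃ e : Fin 2 ≃ Fin 2, e 0 = a ∧ e 1 = b :=
    ⟨Equiv.swap 0 a, by clear hn hX; revert a b; decide⟩
  subst e0 e1
  have hav : ∀ k a b, av (titsRx S e).s a b k = av S.s (e a) (e b) k := fun k => by
    induction k with
    | zero => intro a b; rfl
    | succ k ih => intro a b; rw [av_succ, av_succ, ih]; rfl
  refine ⟨W, _, inferInstance, titsRx S e, ⟨hM.faith, fun i => ?_, fun i y hy => ?_⟩, ?_,
    fun i j => ?_, fun l hl => ?_⟩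
  · obtain ⟨j, hj⟩ := hM.nb (e i)
    obtain ⟨j, rfl⟩ := e.surjective j
    exact ⟨j, hj⟩
  · rw [X_rx, rt_rx, ap_rx]
    exact hM.mouf (e i) y ((congrArg (BNP.dist S · y) (ap_rx S e 1)).symm.trans
      ((dist_rx S e _ y).symm.trans hy))
  · simp only [X_rx, rt_rx]
    exact (e.iSup_comp (g := fun i => X S (rt S.s 1 i) ⊔ X S (rt S.s 1 i)ᶜ)).trans hg
  · split_ifs with h
    · subst h
      rw [(titsRx S e).cox.sq, orderOf_one]
    · have : i = 0 ∧ j = 1 ∨ i = 1 ∧ j = 0 := by omega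
      rcases this with ⟨rfl, rfl⟩ | ⟨rfl, rfl⟩
      · exact hn.symm
      · exact (ord_comm S.cox _ _).trans hn.symm
  · rw [← hX l hl, X_rx, bt, bt, rt_rx, hav, lt, lt, apply_ite e]

/-- In a simple group the root groups generate: their join `K` is normalised by `T`...; use the Tits
system of `Good`?  Not needed: `exists_good` gives `Gen`.  Here: `n = 3`.  Reindex the Tits system
(`titsRx`, `X_rx`, ...) or case on `a, b`; the Coxeter matrix is `mA 2`; copy `EH.recog_A`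
(`BNP/SimplyA`, with `MH.eh` of `BNP/Simply`) for `n = 2`: `exists_hom_SL` and
`Class.PSL_isSimpleGroup` for `Fin 3`. -/
theorem Good.tri [IsSimpleGroup G] (h : M.Good) (hn : M.n = 3) : Cfsg.IsPSL G := by
  obtain ⟨W, _, _, S, hM, hg, ho, -⟩ := h.std
  obtain ⟨F, _, _, φ, hr, hE, hG⟩ := hM.eh.coherent 0 (fun _ => 0) (fun i => i) (fun i hi => by
    rw [ho, if_neg hi.symm]
    exact ⟨hn, by omega⟩) 1 (by rw [ho, if_neg (by decide), hn])
  obtain ⟨Φ, hΦ⟩ := CT.L.exists_hom_SL (φ := fun i => if h : i < 2 then φ ⟨i, h⟩ else 1) (n := 2)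
    le_rfl (fun i hi => by
      obtain rfl : i = 0 := by omega
      exact hE 1 (by decide)) fun i j a b g k => by omega
  have := Class.PSL_isSimpleGroup (ι := Fin (2 + 1)) (F := F) (by simp)
  refine ⟨F, inferInstance, inferInstance, 2 + 1, by omega, by omega,
    CT.L.nonempty_equiv_quot hG Φ (QuotientGroup.mk' _)
    (MonoidHom.range_eq_top.1 (top_le_iff.1 (hg.ge.trans (iSup_le fun i => ?_))))
    (QuotientGroup.mk'_surjective _) (QuotientGroup.ker_mk' _).le⟩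
  have := hΦ i i.2
  rwa [dif_pos i.2, hr] at this

variable (M M') in
/-- `Γ k` (`i ≤ k ≤ j`) are graphs of partial isomorphisms `U k ⇀ U' k`, closed under commutators. -/
structure PFam (i j : ℤ) (Γ : ℤ → Subgroup (G × G')) : Prop where
  fst : ∀ k, i ≤ k → k ≤ j → ∀ g ∈ Γ k, g.1 ∈ M.U k
  snd : ∀ k, i ≤ k → k ≤ j → ∀ g ∈ Γ k, g.2 ∈ M'.U k
  iff : ∀ k, i ≤ k → k ≤ j → ∀ g ∈ Γ k, g.1 = 1 ↔ g.2 = 1
  cm : ∀ k r, i ≤ k → k < r → r ≤ j → ∀ x ∈ Γ k, ∀ y ∈ Γ r,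
    ⁅x, y⁆ ∈ ⨆ (l : ℤ) (_ : k < l ∧ l < r), Γ l

/-- Induction on `j - i`: `Γ i` normalises `Δ = ⨆_{i < l ≤ j} Γ l` (`x y x⁻¹ = ⁅x,y⁆ y`), so an element
of the join is `a * b`, `a ∈ Γ i`, `b ∈ Δ` (`Subgroup.mem_sup_of_normal..`, or
`PLocal.Amb.mem_sup_of_le_normalizer_left`); `U_inf_UU`. -/
theorem PFam.sup_iff {i j : ℤ} {Γ : ℤ → Subgroup (G × G')} (h : PFam M M' i j Γ)
    (hj : j < i + M.n) (hn : M'.n = M.n) {g : G × G'}
    (hg : g ∈ ⨆ (l : ℤ) (_ : i ≤ l ∧ l ≤ j), Γ l) :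
    g.1 ∈ M.UU i j ∧ g.2 ∈ M'.UU i j ∧ (g.1 = 1 ↔ g.2 = 1) := by
  obtain ⟨d, hd⟩ : ∃ d : ℕ, j - i < d := ⟨(j - i + 1).toNat, by omega⟩
  induction d generalizing i g with
  | zero =>
    obtain rfl : g = 1 := Subgroup.mem_bot.1
      ((iSup₂_le fun l hl => by omega : _ ≤ (⊥ : Subgroup (G × G'))) hg)
    exact ⟨one_mem _, one_mem _, by simp⟩
  | succ d ih =>
    by_cases hij : j < i
    · obtain rfl : g = 1 := Subgroup.mem_bot.1
        ((iSup₂_le fun l hl => by omega : _ ≤ (⊥ : Subgroup (G × G'))) hg)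
      exact ⟨one_mem _, one_mem _, by simp⟩
    set Δ := ⨆ (l : ℤ) (_ : i + 1 ≤ l ∧ l ≤ j), Γ l
    have hΔ : ∀ l, i + 1 ≤ l → l ≤ j → Γ l ≤ Δ := fun l a b =>
      le_iSup₂_of_le (f := fun l (_ : i + 1 ≤ l ∧ l ≤ j) => Γ l) l ⟨a, b⟩ le_rfl
    have hc : ∀ x ∈ Γ i, ∀ y ∈ Δ, x * y * x⁻¹ ∈ Δ := fun x hx =>
      (iSup₂_le fun l hl y hy => by
        have : ⁅x, y⁆ ∈ Δ := (iSup₂_le fun k hk => hΔ k (by omega) (by omega) : _ ≤ Δ)
          (h.cm i l le_rfl (by omega) hl.2 x hx y hy)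
        simpa [commutatorElement_def] using mul_mem this (hΔ l hl.1 hl.2 hy) :
        Δ ≤ Δ.comap (MulAut.conj x).toMonoidHom)
    have hN : Γ i ≤ Subgroup.normalizer Δ := fun x hx => Subgroup.mem_normalizer_iff.2 fun u =>
      ⟨hc x hx u, fun h => by simpa [mul_assoc] using hc _ (inv_mem hx) _ h⟩
    have hg' : g ∈ Δ ⊔ Γ i := (iSup₂_le fun l hl => by
      rcases hl.1.eq_or_lt with rfl | h1
      · exact le_sup_right
      · exact le_sup_of_le_left (hΔ l (by omega) hl.2) : _ ≤ Δ ⊔ Γ i) hg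
    rw [← SetLike.mem_coe, Subgroup.coe_mul_of_right_le_normalizer_left _ _ hN] at hg'
    obtain ⟨b, hb, a, ha, rfl⟩ := hg'
    obtain ⟨b1, b2, b3⟩ := ih (i := i + 1) ⟨fun k a => h.fst k (by omega),
      fun k a => h.snd k (by omega), fun k a => h.iff k (by omega),
      fun k r a => h.cm k r (by omega)⟩ (by omega) hb (by omega)
    have a1 := h.fst i le_rfl (by omega) a ha
    have a2 := h.snd i le_rfl (by omega) a ha
    have a3 := h.iff i le_rfl (by omega) a ha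
    refine ⟨mul_mem (UU_mono (by omega) le_rfl b1) (U_le_UU le_rfl (by omega) a1),
      mul_mem (UU_mono (by omega) le_rfl b2) (U_le_UU le_rfl (by omega) a2), fun e => ?_,
      fun e => ?_⟩
    · have e' : b.1 * a.1 = 1 := e
      have := U_inf_UU a1 (eq_inv_of_mul_eq_one_right e' ▸ inv_mem b1) hj
      rw [this, mul_one] at e'
      change b.2 * a.2 = 1
      rw [a3.1 this, b3.1 e', mul_one]
    · have e' : b.2 * a.2 = 1 := e
      have := U_inf_UU a2 (eq_inv_of_mul_eq_one_right e' ▸ inv_mem b2) (by omega)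
      rw [this, mul_one] at e'
      change b.1 * a.1 = 1
      rw [a3.2 this, b3.2 e', mul_one]

variable (M M') in
/-- a family of isomorphisms for the window starting at `c` -/
structure FFam (c : ℤ) (Γ : ℤ → Subgroup (G × G')) : Prop where
  pf : PFam M M' c (c + M.n - 1) Γ
  e1 : ∀ k, c ≤ k → k < c + M.n → ∀ x ∈ M.U k, ∃ y, (x, y) ∈ Γ k
  e2 : ∀ k, c ≤ k → k < c + M.n → ∀ y ∈ M'.U k, ∃ x, (x, y) ∈ Γ k

theorem FFam.move {c c' d : ℤ} {Γ : ℤ → Subgroup (G × G')} (H : FFam M M' c Γ) {φ : ℤ → ℤ}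
    (hφ : (c = c' + d ∧ ∀ k, φ k = k + d) ∨ (c = d - (c' + M.n - 1) ∧ ∀ k, φ k = d - k))
    {m : G × G'} (h1 : ∀ k, ∀ u ∈ M.U (φ k), m.1 * u * m.1⁻¹ ∈ M.U k)
    (h2 : ∀ k, ∀ u ∈ M'.U (φ k), m.2 * u * m.2⁻¹ ∈ M'.U k)
    (h3 : ∀ k, ∀ u ∈ M.U k, m.1⁻¹ * u * m.1⁻¹⁻¹ ∈ M.U (φ k))
    (h4 : ∀ k, ∀ u ∈ M'.U k, m.2⁻¹ * u * m.2⁻¹⁻¹ ∈ M'.U (φ k)) : ∃ Γ', FFam M M' c' Γ' := by
  have w : ∀ k, c' ≤ k → k ≤ c' + M.n - 1 → c ≤ φ k ∧ φ k ≤ c + M.n - 1 := fun k a b => by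
    rcases hφ with ⟨e, h⟩ | ⟨e, h⟩ <;> rw [h] <;> omega
  refine ⟨fun k => (Γ (φ k)).map (MulAut.conj m).toMonoidHom, ⟨?_, ?_, ?_, ?_⟩,
    fun k a b x hx => ?_, fun k a b x hx => ?_⟩
  · rintro k a b _ ⟨g, hg, rfl⟩
    exact h1 k _ (H.pf.fst _ (w k a b).1 (w k a b).2 g hg)
  · rintro k a b _ ⟨g, hg, rfl⟩
    exact h2 k _ (H.pf.snd _ (w k a b).1 (w k a b).2 g hg)
  · rintro k a b _ ⟨g, hg, rfl⟩
    simpa [mul_inv_eq_iff_eq_mul] using H.pf.iff _ (w k a b).1 (w k a b).2 g hg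
  · rintro k r a b e _ ⟨x, hx, rfl⟩ _ ⟨y, hy, rfl⟩
    rw [← map_commutatorElement]
    have key : ∀ l, k < l → l < r → Γ (φ l) ≤ (⨆ (l : ℤ) (_ : k < l ∧ l < r),
        (Γ (φ l)).map (MulAut.conj m).toMonoidHom).comap (MulAut.conj m).toMonoidHom :=
      fun l l1 l2 => Subgroup.map_le_iff_le_comap.1 (le_iSup₂_of_le
        (f := fun l (_ : k < l ∧ l < r) => (Γ (φ l)).map (MulAut.conj m).toMonoidHom) l ⟨l1, l2⟩
        le_rfl)
    have wk := w k a (by omega)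
    have wr := w r (by omega) e
    rcases hφ with ⟨-, h⟩ | ⟨-, h⟩
    · refine Subgroup.mem_comap.1 (SetLike.le_def.1 (iSup₂_le fun l hl => ?_)
        (H.pf.cm _ _ wk.1 (by rw [h, h]; omega) wr.2 x hx y hy))
      rw [h, h] at hl
      have := key (l - d) (by omega) (by omega)
      rwa [h, sub_add_cancel] at this
    · rw [← commutatorElement_inv, map_inv]
      refine inv_mem (Subgroup.mem_comap.1 (SetLike.le_def.1 (iSup₂_le fun l hl => ?_)
        (H.pf.cm _ _ wr.1 (by rw [h, h]; omega) wk.2 y hy x hx)))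
      rw [h, h] at hl
      have := key (d - l) (by omega) (by omega)
      rwa [h, sub_sub_cancel] at this
  · obtain ⟨y, hy⟩ := H.e1 _ (w k a (by omega)).1 (by have := w k a (by omega); omega) _ (h3 k x hx)
    exact ⟨m.2 * y * m.2⁻¹, _, hy, by ext <;> simp [mul_assoc]⟩
  · obtain ⟨y, hy⟩ := H.e2 _ (w k a (by omega)).1 (by have := w k a (by omega); omega) _ (h4 k x hx)
    exact ⟨m.1 * y * m.1⁻¹, _, hy, by ext <;> simp [mul_assoc]⟩

theorem FFam.iso (h : M.Good) (h' : M'.Good) (hn : M'.n = M.n) {Γ : ℤ → Subgroup (G × G')}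
    (H : FFam M M' 0 Γ) : Nonempty (G ≃* G') := by
  obtain ⟨W, _, _, S, hM, hg, ho, hX⟩ := h.std
  obtain ⟨W', _, _, S', hM', hg', ho', hX'⟩ := h'.std
  have e : orderOf (S.s 0 * S.s 1) = M.n := by rw [ho, if_neg (by decide)]
  have L : Loc S S' 0 1 fun k : ℕ => Γ k := by
    refine ⟨fun k hk => ?_, fun k r h1 h2 x hx y hy => ?_⟩
    · rw [e] at hk
      rw [hX k hk, hX' k (by omega)]
      exact ⟨H.pf.fst _ (by omega) (by omega), H.pf.snd _ (by omega) (by omega),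
        H.pf.iff _ (by omega) (by omega), H.e1 _ (by omega) (by omega),
        H.e2 _ (by omega) (by omega)⟩
    · refine (iSup₂_le fun l hl => ?_ : _ ≤ ⨆ (l : ℕ) (_ : k < l ∧ l < r), Γ l)
        (H.pf.cm k r (by omega) (by omega) (by omega) x hx y hy)
      lift l to ℕ using by omega
      exact le_iSup₂_of_le (f := fun (l : ℕ) (_ : k < l ∧ l < r) => Γ l) l
        ⟨by omega, by omega⟩ le_rfl
  refine nonempty_equiv_of_locP hM hM' (fun i j => by rw [ho, ho', hn]) hg hg'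
    (fun i => if i = 0 then Γ (0 : ℕ) else Γ (orderOf (S.s 0 * S.s 1) - 1 : ℕ)) fun a b hab => ?_
  have : a = 0 ∧ b = 1 ∨ a = 1 ∧ b = 0 := by omega
  rcases this with ⟨rfl, rfl⟩ | ⟨rfl, rfl⟩
  · exact Or.inl ⟨_, L, rfl, rfl⟩
  · exact Or.inr ⟨_, L, rfl, rfl⟩

/-- The comparison theorem.  For `c = 0`: reindex the second Tits system (`titsRx` with the
permutation of `Fin 2` sending `a ↦ a'`, `b ↦ b'`; `MH` and generation transfer by `X_rx, rt_rx,
dist_rx, ap_rx`), `Loc` is `gr`/`cm` for `fun k : ℕ => Γ k`, and apply `nonempty_equiv_of_locP` with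
`i ↦ if i = a then Γ 0 else Γ (n-1)` (`LocP` for `(a,b)` gives both orders).
For even `c` conjugate all `Γ k` by `(g, g')`, `Rot (-c) g`, `Rot (-c) g'` (`exists_rot`,
`Graph.conj`).  For odd `c` and even `n` first conjugate by `(m, m')` with `Rf 0 m`, `Rf 0 m'`
(`exists_U`, `exists_mu`): `Γ' k = (m,m') Γ (-n-k) (m,m')⁻¹` is a family for the window starting at
`1 - c - 2n` (`⁅x,y⁆ = ⁅y,x⁆⁻¹`). -/
theorem Good.iso (h : M.Good) (h' : M'.Good) (hn : M'.n = M.n) (he : M.n % 2 = 0) {c : ℤ}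
    {Γ : ℤ → Subgroup (G × G')} (H : PFam M M' c (c + M.n - 1) Γ)
    (e1 : ∀ k, c ≤ k → k < c + M.n → ∀ x ∈ M.U k, ∃ y, (x, y) ∈ Γ k)
    (e2 : ∀ k, c ≤ k → k < c + M.n → ∀ y ∈ M'.U k, ∃ x, (x, y) ∈ Γ k) : Nonempty (G ≃* G') := by
  have ev : ∀ c Γ, c % 2 = 0 → FFam M M' c Γ → Nonempty (G ≃* G') := fun c Γ hc H => by
    obtain ⟨g, hg⟩ := exists_rot (M := M) hc
    obtain ⟨g', hg'⟩ := exists_rot (M := M') hc
    obtain ⟨Γ', H'⟩ := H.move (c' := 0) (d := c) (φ := fun k => k + c) (m := (g⁻¹, g'⁻¹))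
      (Or.inl ⟨by ring, fun _ => rfl⟩) (fun k u hu => hg.inv.conj_U hu (by ring))
      (fun k u hu => hg'.inv.conj_U hu (by ring))
      (fun k u hu => by simpa using hg.conj_U hu rfl)
      (fun k u hu => by simpa using hg'.conj_U hu rfl)
    exact H'.iso h h' hn
  by_cases hc : c % 2 = 0
  · exact ev c Γ hc ⟨H, e1, e2⟩
  obtain ⟨g, hg⟩ : ∃ g, M.Rf 0 g := Pol.exists_refl (P := M.toPol) M.ap rfl
  obtain ⟨g', hg'⟩ : ∃ g, M'.Rf 0 g := Pol.exists_refl (P := M'.toPol) M'.ap rfl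
  obtain ⟨Γ', H'⟩ := FFam.move ⟨H, e1, e2⟩ (c' := 1 - c - 2 * M.n) (d := -M.n)
    (φ := fun k => -M.n - k) (m := (g, g')) (Or.inr ⟨by ring, fun _ => rfl⟩)
    (fun k u hu => hg.conj_U hu (by ring)) (fun k u hu => hg'.conj_U hu (by rw [hn]; ring))
    (fun k u hu => hg.inv.conj_U hu (by ring)) (fun k u hu => hg'.inv.conj_U hu (by rw [hn]; ring))
  exact ev _ _ (by omega) H'

end MP

end Cfsg.Agent.BN2
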