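import Cfsg.Agent.BN2.Base

/-!
# Geometry of the vertices at distance `< n` from an edge (S1144, for `BN2/Rt2`)
-/

set_option autoImplicit false
set_option linter.unusedSectionVars false
set_option linter.unusedVariables false

namespace Cfsg.Agent.BN2

namespace Pol

variable {G V : Type*} [Group G] [MulAction G V] {P : Pol G V}

variable (P) in
/-- `v` is at distance `< n` from `a` or `b` -/
def Near (a b v : V) : Prop :=
  ∃ p, P.Line p ∧ (p 0 = a ∨ p 0 = b) ∧ ∃ k : ℤ, 0 ≤ k ∧ k < P.n ∧ p k = v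

theorem near_far {r : ℤ → V} (hr : P.Line r) {y : V} (hy : P.adj (r 0) y) :
    ∃ q, P.Line q ∧ q 0 = y ∧ q (P.n - 1) = r P.n := by
  by_cases h1 : y = r 1
  · refine ⟨fun i => r (i + 1), hr.shift 1, by simp [h1], by simp⟩
  · obtain ⟨r', hr', e1, e2⟩ := exists_turn' hr (k := 0) hy (by simpa using h1)
    obtain ⟨z, hz, e3⟩ := exists_ap hr' (-1)
    have h3 : (3 : ℤ) ≤ P.n := by exact_mod_cast P.three_le
    refine ⟨fun i => z (-1 - i), IsLine.rev hz.1 (-1), ?_, ?_⟩
    · change z (-1 - 0) = y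
      rw [show (-1 - 0 : ℤ) = -1 by ring, e3 (-1) le_rfl (by omega), ← e2]
      rfl
    · change z (-1 - (P.n - 1)) = _
      rw [← hz.per (j := P.n) (by ring), e3 _ (by omega) (by omega), e1 _ (by omega)]

theorem Near.step {a b v w : V} (hab : P.adj a b) (h : P.Near a b v) (hw : P.adj v w) :
    P.Near a b w := by
  obtain ⟨p, hp, h0, k, k0, kn, rfl⟩ := h
  have h3 : (3 : ℤ) ≤ P.n := by exact_mod_cast P.three_le
  by_cases hk : k = 0
  · subst hk
    obtain ⟨q, hq, e0, e1⟩ := exists_line_edge hw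
    exact ⟨q, hq, by rw [e0]; exact h0, 1, by omega, by omega, e1⟩
  by_cases h1 : w = p (k - 1)
  · exact ⟨p, hp, h0, k - 1, by omega, by omega, h1.symm⟩
  obtain ⟨r, hr, e1, e2⟩ := exists_turn hp hw h1
  have e0 : r 0 = p 0 := e1 0 k0
  by_cases h2 : k + 1 < P.n
  · exact ⟨r, hr, by rw [e0]; exact h0, k + 1, by omega, h2, e2⟩
  have e3 : r P.n = w := by rw [← e2]; congr 1; omega
  rcases h0 with h0 | h0
  · obtain ⟨q, hq, f0, f1⟩ := near_far hr (y := b) (by rw [e0, h0]; exact hab)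
    exact ⟨q, hq, Or.inr f0, P.n - 1, by omega, by omega, f1.trans e3⟩
  · obtain ⟨q, hq, f0, f1⟩ := near_far hr (y := a) (by rw [e0, h0]; exact P.adj_symm hab)
    exact ⟨q, hq, Or.inl f0, P.n - 1, by omega, by omega, f1.trans e3⟩

theorem near_of_conn {a b v : V} (hab : P.adj a b) (h : Relation.ReflTransGen P.adj a v) :
    P.Near a b v := by
  induction h with
  | refl =>
    obtain ⟨p, hp, e⟩ := exists_line (P := P) a
    have h3 : (3 : ℤ) ≤ P.n := by exact_mod_cast P.three_le
    exact ⟨p, hp, Or.inl e, 0, le_rfl, by omega, e⟩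
  | tail _ h ih => exact ih.step hab h

theorem conn_symm {a b : V} (h : Relation.ReflTransGen P.adj a b) :
    Relation.ReflTransGen P.adj b a := by
  induction h with
  | refl => exact .refl
  | tail _ h ih => exact .head (P.adj_symm h) ih

theorem conn_smul (g : G) {a b : V} (h : Relation.ReflTransGen P.adj a b) :
    Relation.ReflTransGen P.adj (g • a) (g • b) := by
  induction h with
  | refl => exact .refl
  | tail _ h ih => exact .tail ih (P.adj_smul g h)

theorem conn_line {p : ℤ → V} (hp : P.Line p) (i j : ℤ) :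
    Relation.ReflTransGen P.adj (p i) (p j) := by
  have h0 : ∀ j, Relation.ReflTransGen P.adj (p 0) (p j) := fun j => by
    induction j using Int.induction_on with
    | zero => exact .refl
    | succ j ih => exact .tail ih (hp.1 _)
    | pred j ih => exact .tail ih (IsLine.adj_pred hp (by ring))
  exact (conn_symm (h0 i)).trans (h0 j)

variable (P) in
/-- the stabiliser of the connected component of `a` -/
def Cmp (a : V) : Subgroup G where
  carrier := {g | Relation.ReflTransGen P.adj a (g • a)}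
  one_mem' := by
    change Relation.ReflTransGen P.adj a ((1 : G) • a)
    rw [one_smul]
  mul_mem' {g h} hg hh := by
    change Relation.ReflTransGen P.adj a ((g * h) • a)
    rw [mul_smul]
    exact hg.trans (conn_smul g hh)
  inv_mem' {g} hg := by
    have := conn_smul g⁻¹ hg
    rw [inv_smul_smul] at this
    exact conn_symm this

theorem eq_of_fix_A {a b z : V} (hab : P.adj a b) (hz : P.adj a z)
    (hf : ∀ u ∈ P.A a b, u • z = z) : z = b := by
  by_contra hne
  obtain ⟨d, hd, h1, h2⟩ := P.thick a b z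
  obtain ⟨g, hg, e⟩ := tr_A hab z d hz hd hne h1
  exact h2 (e.symm.trans (hf g hg))

theorem eq_of_fix_line {p : ℤ → V} (hp : P.Line p) {b : V} (hab : P.adj (p 0) b) {k : ℤ}
    (k0 : 0 ≤ k) (kn : k < P.n) (hf : ∀ u ∈ P.A (p 0) b, u • p k = p k) : p k = p 0 ∨ p k = b := by
  by_cases h0 : k = 0
  · exact Or.inl (by rw [h0])
  have hfx : ∀ j, 0 ≤ j → j ≤ k → ∀ u ∈ P.A (p 0) b, u • p j = p j := fun j j0 jk u hu =>
    fix_between hp (i := 0) (j := k) (by omega) (P.A_fix hu) (hf u hu) j0 jk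
  have h1 : p 1 = b := eq_of_fix_A hab (hp.adj' (by ring)) (hfx 1 (by omega) (by omega))
  by_cases h2 : k = 1
  · exact Or.inr (by rw [h2, h1])
  exfalso
  refine hp.ne' (i := 0) (j := 2) (by ring) (eq_of_fix_A (P.adj_symm hab) ?_ fun u hu => ?_)
  · rw [← h1]; exact hp.adj' (by ring)
  · exact hfx 2 (by omega) (by omega) u (by rw [P.A_symm]; exact hu)

theorem Near.eq_of_fix {a b v : V} (hab : P.adj a b) (h : P.Near a b v)
    (hf : ∀ u ∈ P.A a b, u • v = v) : v = a ∨ v = b := by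
  obtain ⟨p, hp, h0, k, k0, kn, rfl⟩ := h
  rcases h0 with rfl | rfl
  · exact eq_of_fix_line hp hab k0 kn hf
  · exact (eq_of_fix_line hp (P.adj_symm hab) k0 kn (by rw [P.A_symm]; exact hf)).symm

theorem Near.line {a b v : V} (hab : P.adj a b) (h : P.Near a b v) :
    ∃ q, P.Line q ∧ q 0 = a ∧ ∃ k : ℤ, 0 ≤ k ∧ k ≤ P.n ∧ q k = v := by
  obtain ⟨p, hp, h0, k, k0, kn, rfl⟩ := h
  have h3 : (3 : ℤ) ≤ P.n := by exact_mod_cast P.three_le
  rcases h0 with rfl | rfl
  · exact ⟨p, hp, rfl, k, k0, kn.le, rfl⟩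
  by_cases h1 : a = p 1
  · by_cases hk : k = 0
    · exact ⟨fun i => p (1 - i), IsLine.rev hp 1, by simp [h1], 1, by omega, by omega, by simp [hk]⟩
    · exact ⟨fun i => p (i + 1), hp.shift 1, by simp [h1], k - 1, by omega, by omega, by simp⟩
  · obtain ⟨r, hr, e1, e2⟩ := exists_turn' hp (k := 0) (P.adj_symm hab) (by simpa using h1)
    refine ⟨fun i => r (i + -1), hr.shift (-1), ?_, k + 1, by omega, by omega, ?_⟩
    · rw [← e2]; rfl
    · change r (k + 1 + -1) = _
      rw [show k + 1 + -1 = k by ring, e1 k k0]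

theorem dvd_of_eq {x : ℤ → V} (hx : P.Ap x) {i j : ℤ} (h : x j = x i) : (2 * P.n : ℤ) ∣ j - i := by
  have h3 : (3 : ℤ) ≤ P.n := by exact_mod_cast P.three_le
  by_contra hd
  have hp : (0 : ℤ) < 2 * P.n := by omega
  have h1 := Int.emod_nonneg (j - i) hp.ne'
  have h2 := Int.emod_lt_of_pos (j - i) hp
  have h4 : (j - i) % (2 * P.n) ≠ 0 := fun e => hd (Int.dvd_of_emod_eq_zero e)
  have h5 := Int.emod_add_mul_ediv (j - i) (2 * P.n)
  refine girth' hx.1 (i := i) (j := i + (j - i) % (2 * P.n)) (by omega) (by omega) ?_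
  rw [← h, ← hx.per_mul (i + (j - i) % (2 * P.n)) ((j - i) / (2 * P.n))]
  congr 1
  linear_combination h5

end Pol

/-! ### a dihedral quotient -/

section Dih

variable {G : Type*} [Group G] {H : Subgroup G} {a b : G}

theorem dih_flip (ha : a ∈ Subgroup.normalizer (H : Set G)) (hb : b ∈ Subgroup.normalizer (H : Set G))
    (a2 : a * a ∈ H) (b2 : b * b ∈ H) (k : ℤ) : a⁻¹ * (a * b) ^ k * a * (a * b) ^ k ∈ H := by
  have hr : a * b ∈ Subgroup.normalizer (H : Set G) := mul_mem ha hb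
  have c1 : a⁻¹ * (a * b) * a * (a * b) ∈ H := by
    have := mul_mem ((Subgroup.mem_normalizer_iff.1 hb _).1 a2) b2
    convert this using 1
    group
  generalize a * b = r at hr c1
  have st : ∀ k : ℤ, a⁻¹ * r ^ k * a * r ^ k ∈ H ↔ a⁻¹ * r ^ (k + 1) * a * r ^ (k + 1) ∈ H :=
    fun k => by
      rw [Subgroup.mem_normalizer_iff''.1 hr, ← H.mul_mem_cancel_left c1]
      exact iff_of_eq (congrArg (· ∈ H) (by group))
  induction k using Int.induction_on with
  | zero => simp
  | succ k ih => exact (st k).1 ih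
  | pred k ih => exact (st _).2 (by simpa using ih)

variable (H a b) in
/-- the set `⟨a, b⟩ H` in normal form -/
def Dih : Set G := {g | ∃ k : ℤ, ∃ t ∈ H, g = (a * b) ^ k * t ∨ g = (a * b) ^ k * a * t}

theorem Dih.one : (1 : G) ∈ Dih H a b := ⟨0, 1, one_mem _, Or.inl (by simp)⟩

theorem Dih.mulH (ha : a ∈ Subgroup.normalizer (H : Set G))
    (hb : b ∈ Subgroup.normalizer (H : Set G)) {g s : G} (hs : s ∈ H) (hg : g ∈ Dih H a b) :
    s * g ∈ Dih H a b := by
  obtain ⟨k, t, ht, e⟩ := hg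
  have hr := zpow_mem (mul_mem ha hb) k
  rcases e with rfl | rfl
  · exact ⟨k, _, mul_mem ((Subgroup.mem_normalizer_iff''.1 hr _).1 hs) ht, Or.inl (by group)⟩
  · exact ⟨k, _, mul_mem ((Subgroup.mem_normalizer_iff''.1 (mul_mem hr ha) _).1 hs) ht,
      Or.inr (by group)⟩

theorem Dih.mula (ha : a ∈ Subgroup.normalizer (H : Set G))
    (hb : b ∈ Subgroup.normalizer (H : Set G)) (a2 : a * a ∈ H) (b2 : b * b ∈ H) {g : G}
    (hg : g ∈ Dih H a b) : a * g ∈ Dih H a b := by
  obtain ⟨k, t, ht, e⟩ := hg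
  have hc := dih_flip ha hb a2 b2 k
  rcases e with rfl | rfl
  · refine ⟨-k, _, mul_mem hc ht, Or.inr ?_⟩
    generalize a * b = r
    group
  · refine ⟨-k, _, mul_mem (mul_mem ((Subgroup.mem_normalizer_iff.1 ha _).1 hc) a2) ht, Or.inl ?_⟩
    generalize a * b = r
    group

theorem Dih.mulb (ha : a ∈ Subgroup.normalizer (H : Set G))
    (hb : b ∈ Subgroup.normalizer (H : Set G)) (a2 : a * a ∈ H) (b2 : b * b ∈ H) {g : G}
    (hg : g ∈ Dih H a b) : b * g ∈ Dih H a b := by
  have h1 : a * b * g ∈ Dih H a b := by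
    obtain ⟨k, t, ht, e⟩ := hg
    refine ⟨1 + k, t, ht, ?_⟩
    rw [zpow_one_add]
    rcases e with rfl | rfl
    · exact Or.inl (by simp only [mul_assoc])
    · exact Or.inr (by simp only [mul_assoc])
  have := Dih.mula ha hb a2 b2 (Dih.mulH ha hb (inv_mem a2) h1)
  convert this using 1
  group

/-- left stabiliser of a subset of a finite group -/
def LStab [Finite G] (X : Set G) : Subgroup G where
  carrier := {g | ∀ x ∈ X, g * x ∈ X}
  one_mem' x hx := by rwa [one_mul]
  mul_mem' hg hh x hx := by rw [mul_assoc]; exact hg _ (hh _ hx)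
  inv_mem' {g} hg := by
    have h1 : ∀ k : ℕ, ∀ x ∈ X, g ^ k * x ∈ X := fun k => by
      induction k with
      | zero => intro x hx; rwa [pow_zero, one_mul]
      | succ k ih => intro x hx; rw [pow_succ, mul_assoc]; exact ih _ (hg _ hx)
    have h2 : g⁻¹ = g ^ (orderOf g - 1) := by
      rw [inv_eq_iff_mul_eq_one, ← pow_succ', Nat.sub_add_cancel (orderOf_pos g),
        pow_orderOf_eq_one]
    rw [Set.mem_ofPred_eq, h2]
    exact h1 _

end Dih

end Cfsg.Agent.BN2
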