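import Cfsg.Agent.BN2.RtB
import Cfsg.Agent.BN2.Rt2a

/-!
# Consequences of generation by the root groups (S1144)
-/

set_option autoImplicit false
set_option linter.unusedSectionVars false
set_option linter.unusedVariables false

namespace Cfsg.Agent.BN2

open scoped commutatorElement

namespace MP

variable {G V : Type} [Group G] [MulAction G V] [Finite G] [Finite V] {M : MP G V}

/-- Every vertex is at distance `< n` from `x c` or `x (c+1)`.
WLOG `c = 0` (`shift`).  Let `S` be the set of such `v`.  (1) `S` is closed under adjacency: `v = p k`,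
`w` adjacent to `v`.  If `k > 0` and `w = p (k-1)` fine; if `k = 0` use `exists_line_edge`
(`1 < n`); otherwise `exists_turn` gives a line `r` agreeing with `p` on `≤ k`, `r (k+1) = w`; fine if
`k + 1 < n`.  If `k + 1 = n`: say `p 0 = x 0` and let `y = x 1` (or conversely).  If `r 1 = y`, shift `r`
by one.  Otherwise `exists_turn'` gives a line `r'` with `r' (-1) = y` agreeing with `r` on `≥ 0`;
`exists_ap r' (-1)` is an apartment `z` with `z (-1) = y`, `z n = w = z (-n)`; the reversed line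
`i ↦ z (-1 - i)` reaches `w` at `i = n - 1`.  (2) `S` is the connected component of `x 0`
(`Relation.ReflTransGen adj (x 0)`; every `x i` is in it), so the stabiliser of the set `S` contains
every `U i` (it fixes `x i ∈ S`), hence is `⊤`; `exists_smul_of_ty` finishes. -/
theorem reach (h : M.Gen) (c : ℤ) (v : V) : ∃ p, M.Line p ∧ (p 0 = M.x c ∨ p 0 = M.x (c + 1)) ∧
    ∃ k : ℤ, 0 ≤ k ∧ k < M.n ∧ p k = v := by
  have h0 : ∀ g : G, Relation.ReflTransGen M.adj (M.x c) (g • M.x c) := fun g => by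
    have : (⊤ : Subgroup G) ≤ M.toPol.Cmp (M.x c) := by
      rw [← h]
      refine iSup_le fun i u hu => ?_
      have h1 := Pol.conn_smul u (Pol.conn_line (line (M := M)) i c)
      rw [U_fix hu le_rfl (by have := three_le' (M := M); omega)] at h1
      exact (Pol.conn_line line c i).trans h1
    exact this (Subgroup.mem_top g)
  refine Pol.near_of_conn (line.1 c) ?_
  by_cases ht : M.ty (M.x c) = M.ty v
  · obtain ⟨g, rfl⟩ := Pol.exists_smul_of_ty ht
    exact h0 g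
  · have ht' : M.ty (M.x (c + 1)) = M.ty v := by
      rw [Pol.ty_succ line]
      revert ht
      cases M.ty (M.x c) <;> cases M.ty v <;> simp
    obtain ⟨g, rfl⟩ := Pol.exists_smul_of_ty ht'
    exact (h0 g).tail (M.adj_smul g (line.1 c))

/-- Two vertices can be moved into the standard apartment.  Move `v` to `x i`, `i ∈ {0,1}`
(`exists_smul_of_ty`); by `reach` the image of `w` is `p k` with `p 0 = x i`, `k < n`, or
`p 0 = x (i+1)` (if `p 1 = x i` shift, else glue `x i` in front: `exists_turn'`), so there is a line `q`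
with `q 0 = x i`, `q k = w`, `0 ≤ k ≤ n`; `exists_smul_line q (x (· + i))`. -/
theorem exists_pos (h : M.Gen) (v w : V) : ∃ (g : G) (i k : ℤ), (i = 0 ∨ i = 1) ∧ 0 ≤ k ∧ k ≤ M.n ∧
    g • v = M.x i ∧ g • w = M.x (i + k) := by
  obtain ⟨i, hi, g, hg⟩ : ∃ i : ℤ, (i = 0 ∨ i = 1) ∧ ∃ g : G, g • v = M.x i := by
    by_cases ht : M.ty v = M.ty (M.x 0)
    · exact ⟨0, Or.inl rfl, Pol.exists_smul_of_ty ht⟩
    · refine ⟨1, Or.inr rfl, Pol.exists_smul_of_ty (P := M.toPol) ?_⟩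
      have := Pol.ty_succ (line (M := M)) 0
      rw [zero_add] at this
      rw [this]
      revert ht
      cases M.ty (M.x 0) <;> cases M.ty v <;> simp
  obtain ⟨q, hq, q0, k, k0, kn, e⟩ := Pol.Near.line (line.1 i) (reach h i (g • w))
  obtain ⟨g', hg'⟩ := Pol.exists_smul_line hq ((line (M := M)).shift i) (by simp [q0]) 0
  refine ⟨g' * g, i, k, hi, k0, kn, ?_, ?_⟩
  · rw [mul_smul, hg, ← q0, hg' 0 le_rfl (by omega), zero_add, q0]
  · rw [mul_smul, ← e, hg' k k0 (by omega), add_comm]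

/-- A subgroup `H` fixing `x k, x (k+1)` and moving all other neighbours of these two vertices
fixes no other vertex: `reach`, `fix_between`. In particular for `H = A (x k) (x (k+1))`
(`tr_A`, `thick`): an element normalising `A` fixes `x k` and `x (k+1)` (types!). -/
theorem fix_of_norm_A (h : M.Gen) {k : ℤ} {g : G}
    (hg : ∀ a ∈ M.A (M.x k) (M.x (k + 1)), g⁻¹ * a * g ∈ M.A (M.x k) (M.x (k + 1))) :
    g • M.x k = M.x k ∧ g • M.x (k + 1) = M.x (k + 1) := by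
  have key : ∀ v, (∀ a ∈ M.A (M.x k) (M.x (k + 1)), a • v = v) →
      g • v = M.x k ∨ g • v = M.x (k + 1) := fun v hv =>
    Pol.Near.eq_of_fix (line.1 k) (reach h k _) fun a ha => by
      have := hv _ (hg a ha)
      rw [mul_smul, mul_smul, inv_smul_eq_iff] at this
      exact this
  have ht := M.ty_adj (line.1 k)
  constructor
  · refine (key _ fun a ha => M.A_fix ha).resolve_right fun e => ht ?_
    rw [← e, M.ty_smul]
  · refine (key _ fun a ha => Pol.A_fix' ha).resolve_left fun e => ht ?_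
    rw [← e, M.ty_smul]

/-- If the torus is trivial, `A` is self-normalising (`fix_of_norm_A`, `stab_edge`), hence a Sylow
`p`-subgroup (a proper subgroup of a `p`-group is properly contained in its normaliser). -/
theorem card_of_T (h : M.Gen) (hT : M.T = ⊥) :
    ¬ M.p * Nat.card (M.UU 0 (M.n - 1)) ∣ Nat.card G := by
  intro hd
  have := Fact.mk M.prime
  have h3 := three_le' (M := M)
  obtain ⟨k, hk⟩ := (isPGroup_UU (M := M) (i := 0) (j := M.n - 1) (by omega)).exists_card_eq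
  have hA : M.A (M.x (M.n - 1)) (M.x (M.n - 1 + 1)) = M.UU 0 (M.n - 1) := by
    rw [A_eq]; congr 1; ring
  rw [hk, ← pow_succ'] at hd
  have h1 := Sylow.prime_pow_dvd_card_normalizer hd hk
  have h2 : Subgroup.normalizer (M.UU 0 (M.n - 1) : Set G) ≤ M.UU 0 (M.n - 1) := fun g hg => by
    obtain ⟨e1, e2⟩ := fix_of_norm_A h (k := M.n - 1) (g := g) fun a ha => by
      rw [hA] at ha ⊢
      exact (Subgroup.mem_normalizer_iff''.1 hg a).1 ha
    obtain ⟨a, ha, t, ht, rfl⟩ := stab_edge e1 e2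
    rw [hT, Subgroup.mem_bot] at ht
    rw [ht, mul_one]
    exact UU_mono (by omega) le_rfl ha
  have h4 := h1.trans (Subgroup.card_dvd_of_le h2)
  rw [hk, Nat.pow_dvd_pow_iff_le_right M.prime.one_lt] at h4
  omega


theorem conj_TL {j : ℤ} {t s : G} (ht : t ∈ M.T) (hs : s ∈ M.T ⊓ M.L j) :
    t * s * t⁻¹ ∈ M.T ⊓ M.L j :=
  Subgroup.mem_inf.2 ⟨mul_mem (mul_mem ht (Subgroup.mem_inf.1 hs).1) (inv_mem ht),
    T_conj_L ht (Subgroup.mem_inf.1 hs).2⟩

variable (M) in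
/-- `T° = T₀ T₁` -/
def T01 : Subgroup G where
  carrier := {t | ∃ s ∈ M.T ⊓ M.L 0, ∃ s' ∈ M.T ⊓ M.L 1, t = s * s'}
  one_mem' := ⟨1, one_mem _, 1, one_mem _, by simp⟩
  mul_mem' := by
    rintro _ _ ⟨s, hs, s', hs', rfl⟩ ⟨u, hu, u', hu', rfl⟩
    exact ⟨s * (s' * u * s'⁻¹), mul_mem hs (conj_TL hs'.1 hu), s' * u', mul_mem hs' hu', by group⟩
  inv_mem' := by
    rintro _ ⟨s, hs, s', hs', rfl⟩
    exact ⟨s'⁻¹ * s⁻¹ * s'⁻¹⁻¹, conj_TL (inv_mem hs').1 (inv_mem hs), s'⁻¹, inv_mem hs', by group⟩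

theorem T01_le : M.T01 ≤ M.T := by
  rintro _ ⟨s, hs, s', hs', rfl⟩
  exact mul_mem hs.1 hs'.1

theorem le_T01 : M.T ⊓ M.L 0 ≤ M.T01 := fun s hs => ⟨s, hs, 1, one_mem _, by simp⟩

theorem le_T01' : M.T ⊓ M.L 1 ≤ M.T01 := fun s hs => ⟨1, one_mem _, s, hs, by simp⟩

theorem norm_T01 {j c : ℤ} {s : G} (hj : M.T ⊓ M.L j ≤ M.T01) (hs : s ∈ M.L j) (hr : M.Rf c s) :
    s ∈ Subgroup.normalizer (M.T01 : Set G) := by
  refine Subgroup.mem_normalizer_fintype fun t ht => ?_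
  have h1 := T01_le ht
  have h2 : s * (t * s⁻¹ * t⁻¹) ∈ M.T01 := hj (Subgroup.mem_inf.2 ⟨by
    have := mul_mem (hr.conj_T h1) (inv_mem h1)
    convert this using 1
    group, mul_mem hs (T_conj_L h1 (inv_mem hs))⟩)
  rw [show s * t * s⁻¹ = s * (t * s⁻¹ * t⁻¹) * t by group]
  exact mul_mem h2 ht

theorem exists_rf_L (j : ℤ) : ∃ s ∈ M.L j, M.Rf (2 * j) s := by
  obtain ⟨a, ha, h1⟩ := exists_U (M := M) j
  obtain ⟨l, hl, r, hr, e⟩ := exists_mu ha h1
  exact ⟨_, mul_mem (mul_mem (U_le_L' j hl) (U_le_L j ha)) (U_le_L' j hr), e⟩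

theorem Rot.zpow {c : ℤ} {g : G} (h : M.Rot c g) (k : ℤ) : M.Rot (c * k) (g ^ k) := by
  induction k using Int.induction_on with
  | zero => intro i; simp
  | succ k ih => rw [zpow_add_one, mul_add, mul_one]; exact ih.mul h
  | pred k ih => rw [zpow_sub_one, mul_sub, mul_one, sub_eq_add_neg]; exact ih.mul h.inv

theorem U_per_mul (i m : ℤ) : M.U (i + m * (2 * M.n)) = M.U i := by
  induction m using Int.induction_on with
  | zero => simp
  | succ m ih => rw [← ih]; exact U_per (by ring)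
  | pred m ih => rw [← ih]; exact (U_per (by ring)).symm

theorem U_pos (k : ℤ) : M.U k ≤ M.UU (1 - M.n) 0 ∨
    (M.U (k + M.n) ≤ M.UU (1 - M.n) 0 ∧ M.U (k - M.n) ≤ M.UU (1 - M.n) 0) := by
  have h3 := three_le' (M := M)
  have hp : (0 : ℤ) < 2 * M.n := by omega
  have h1 := Int.emod_nonneg (k + M.n - 1) hp.ne'
  have h2 := Int.emod_lt_of_pos (k + M.n - 1) hp
  have h5 := Int.emod_add_mul_ediv (k + M.n - 1) (2 * M.n)
  generalize (k + M.n - 1) % (2 * M.n) = r at h1 h2 h5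
  generalize (k + M.n - 1) / (2 * M.n) = m at h5
  by_cases hr : r < M.n
  · left
    rw [show k = r + 1 - M.n + m * (2 * M.n) by linear_combination -h5, U_per_mul]
    exact U_le_UU (by omega) (by omega)
  · right
    have e : M.U (k - M.n) ≤ M.UU (1 - M.n) 0 := by
      rw [show k - M.n = r + 1 - 2 * M.n + m * (2 * M.n) by linear_combination -h5, U_per_mul]
      exact U_le_UU (by omega) (by omega)
    exact ⟨(U_per (i := k - M.n) (by ring)).le.trans e, e⟩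

theorem conj_pos {c : ℤ} {ν : G} (hν : M.Rot c ν ∨ M.Rf c ν) (j : ℤ) :
    (∀ u ∈ M.U j, ν⁻¹ * u * ν ∈ M.UU (1 - M.n) 0) ∨
      ∀ u ∈ M.U (j + M.n), ν⁻¹ * u * ν ∈ M.UU (1 - M.n) 0 := by
  rcases hν with hν | hν
  · rcases U_pos (M := M) (j + -c) with h | ⟨h, -⟩
    · exact Or.inl fun u hu => h (by simpa using hν.inv.conj_U hu rfl)
    · exact Or.inr fun u hu => h (by simpa using hν.inv.conj_U hu (j := j + -c + M.n) (by ring))
  · rcases U_pos (M := M) (c - M.n - j) with h | ⟨-, h⟩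
    · exact Or.inl fun u hu => h (by simpa using hν.inv.conj_U hu rfl)
    · exact Or.inr fun u hu => h (by
        simpa using hν.inv.conj_U hu (j := c - M.n - j - M.n) (by ring))

variable (M) in
/-- the double cosets `A D A` -/
def ADA (D : Set G) : Set G :=
  {g | ∃ β ∈ M.UU (1 - M.n) 0, ∃ ν ∈ D, ∃ β' ∈ M.UU (1 - M.n) 0, g = β * ν * β'}

theorem ADA.mulA {D : Set G} : M.UU (1 - M.n) 0 ≤ LStab (M.ADA D) := by
  rintro g hg _ ⟨β, hβ, ν, hν, β', hβ', rfl⟩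
  exact ⟨g * β, mul_mem hg hβ, ν, hν, β', hβ', by group⟩

theorem ADA.muls {D : Set G} (hD : ∀ ν ∈ D, ∃ c, M.Rot c ν ∨ M.Rf c ν)
    (hH : ∀ t ∈ M.T01, ∀ ν ∈ D, t * ν ∈ D) {α : ℤ} {s : G} (hα : M.U α ≤ M.UU (1 - M.n) 0)
    (hL : M.T ⊓ M.L α ≤ M.T01) (hs : s ∈ M.L α) (hr : M.Rf (2 * α) s) (hsD : ∀ ν ∈ D, s * ν ∈ D)
    (hQ : ∀ g ∈ M.UU (1 - M.n) 0, ∃ q, ∃ u ∈ M.U α, g = q * u ∧ s * q * s⁻¹ ∈ M.UU (1 - M.n) 0) :
    s ∈ LStab (M.ADA D) := by
  rintro _ ⟨β, hβ, ν, hν, β', hβ', rfl⟩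
  obtain ⟨q, u, hu, rfl, hq⟩ := hQ β hβ
  obtain ⟨c, hc⟩ := hD ν hν
  rcases conj_pos hc α with h1 | h1
  · exact ⟨_, hq, s * ν, hsD ν hν, _, mul_mem (h1 u hu) hβ', by group⟩
  by_cases h2 : u = 1
  · exact ⟨_, hq, s * ν, hsD ν hν, β', hβ', by rw [h2]; group⟩
  have cj : ∀ {s : G}, M.Rf (2 * α) s → ∀ u ∈ M.U α, s * u * s⁻¹ ∈ M.U (α + M.n) :=
    fun hr u hu => by
      rw [U_per (i := α - M.n) (by ring)]
      exact hr.conj_U hu (by ring)
  obtain ⟨l, hl, r, hr', hm⟩ := exists_mu' (cj hr u hu) (by simpa using h2)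
  have h3 : l * (s * u * s⁻¹) * r * s ∈ M.T01 := hL ⟨hm.mul_mem_T hr, mul_mem (mul_mem (mul_mem
    (U_le_L α hl) (U_le_L' α (cj hr u hu))) (U_le_L α hr')) hs⟩
  exact ⟨_, mul_mem hq (inv_mem (hα hl)), _, hH _ h3 ν hν, _,
    mul_mem (h1 _ (cj hr.inv _ (inv_mem hr'))) hβ', by group⟩

theorem T_le_T01 (h : M.Gen) (hn : M.n % 2 = 0) : M.T ≤ M.T01 := by
  have h3 := three_le' (M := M)
  obtain ⟨a, haL, ha⟩ := exists_rf_L (M := M) 0
  obtain ⟨b, hbL, hb⟩ := exists_rf_L (M := M) 1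
  have na := norm_T01 le_T01 haL ha
  have nb := norm_T01 le_T01' hbL hb
  have a2 : a * a ∈ M.T01 := le_T01 ⟨ha.mul_mem_T ha, mul_mem haL haL⟩
  have b2 : b * b ∈ M.T01 := le_T01' ⟨hb.mul_mem_T hb, mul_mem hbL hbL⟩
  have hr : M.Rot (-2) (a * b) := by simpa using ha.mul_Rf hb
  -- the braid relation
  have hrn : (a * b) ^ (M.n : ℤ) ∈ M.T01 := by
    obtain ⟨e, he⟩ : ∃ e : ℤ, (M.n : ℤ) = 2 * e := ⟨M.n / 2, by omega⟩
    have h1 : M.Rot (-M.n) ((a * b) ^ e) := by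
      have := hr.zpow e
      rwa [show -2 * e = -M.n by omega] at this
    have h2 : M.L 0 ≤ (M.L 0).comap (MulAut.conj ((a * b) ^ e)).toMonoidHom := by
      refine sup_le (fun u hu => U_le_L' 0 ?_) fun u hu => U_le_L 0 (h1.conj_U hu (by ring))
      rw [U_per (i := -M.n) (by ring)]
      exact h1.conj_U hu (by ring)
    have h4 : a⁻¹ * ((a * b) ^ e * a * ((a * b) ^ e)⁻¹) ∈ M.T01 :=
      le_T01 (Subgroup.mem_inf.2 ⟨ha.inv.mul_mem_T ((h1.conj_Rf ha).per (Or.inl (by ring))),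
        mul_mem (inv_mem haL) (h2 haL)⟩)
    have h5 := mul_mem (inv_mem h4) (dih_flip na nb a2 b2 e)
    rw [he]
    convert h5 using 1
    generalize a * b = r
    group
  set D := Dih M.T01 a b with hDdef
  have hD : ∀ ν ∈ D, ∃ k : ℤ, (M.Rot (-2 * k) ν ∧ ∃ t ∈ M.T01, ν = (a * b) ^ k * t) ∨
      M.Rf (-2 * k) ν := by
    rintro _ ⟨k, t, ht, rfl | rfl⟩
    · refine ⟨k, Or.inl ⟨fun i => ?_, t, ht, rfl⟩⟩
      rw [mul_smul, T01_le ht i, hr.zpow k i]
    · refine ⟨k, Or.inr fun i => ?_⟩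
      rw [mul_smul, mul_smul, T01_le ht i, ha i, hr.zpow k]
      congr 1
      ring
  have hD' : ∀ ν ∈ D, ∃ c, M.Rot c ν ∨ M.Rf c ν := fun ν hν => by
    obtain ⟨k, hk⟩ := hD ν hν
    exact ⟨_, hk.imp_left And.left⟩
  have hH : ∀ t ∈ M.T01, ∀ ν ∈ D, t * ν ∈ D := fun t ht ν hν => Dih.mulH na nb ht hν
  have sa : a ∈ LStab (M.ADA D) :=
    ADA.muls hD' hH (U_le_UU (by omega) le_rfl) le_T01 haL ha
      (fun ν hν => Dih.mula na nb a2 b2 hν) fun g hg => by
        obtain ⟨q, hq, u, hu, rfl⟩ := dec' hg (by omega) (by omega)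
        exact ⟨q, u, hu, rfl, UU_mono le_rfl (by omega)
          (ha.conj_UU hq (i' := 1 - M.n) (j' := -1) (by ring) (by ring))⟩
  have eL : M.L 1 = M.L (1 - M.n) := L_per (by ring)
  have sb : b ∈ LStab (M.ADA D) :=
    ADA.muls hD' hH (α := 1 - M.n) (U_le_UU le_rfl (by omega)) (eL ▸ le_T01') (eL ▸ hbL)
      (hb.per (Or.inr (by ring))) (fun ν hν => Dih.mulb na nb a2 b2 hν) fun g hg => by
        obtain ⟨u, hu, q, hq, e⟩ := dec (inv_mem hg) (by omega) (by omega)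
        refine ⟨q⁻¹, u⁻¹, inv_mem hu, by rw [← mul_inv_rev, ← e, inv_inv], UU_mono (by omega) le_rfl
          (hb.conj_UU (inv_mem hq) (i' := 2 - M.n) (j' := 0) (by ring) (by ring))⟩
  have top : (⊤ : Subgroup G) ≤ LStab (M.ADA D) := by
    rw [← h]
    refine iSup_le fun k u hu => ?_
    have h1 := zpow_mem (mul_mem sa sb) ((k + 1) / 2)
    have h2 : (a * b) ^ ((k + 1) / 2) * u * ((a * b) ^ ((k + 1) / 2))⁻¹ ∈ LStab (M.ADA D) :=
      ADA.mulA (U_le_UU (by omega) (by omega) ((hr.zpow ((k + 1) / 2)).conj_U hu rfl))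
    rwa [Subgroup.mul_mem_cancel_right _ (inv_mem h1), Subgroup.mul_mem_cancel_left _ h1] at h2
  intro t ht
  obtain ⟨β, hβ, ν, hν, β', hβ', e⟩ := top (Subgroup.mem_top t) 1
    ⟨1, one_mem _, 1, Dih.one, 1, one_mem _, by simp⟩
  rw [mul_one] at e
  have hf : ∀ i, 0 ≤ i → i ≤ 1 → ν • M.x i = M.x i := fun i i0 i1 => by
    have e1 := ht i
    rw [e, mul_smul, mul_smul, UU_fix hβ' i0 (by omega), smul_eq_iff_eq_inv_smul,
      UU_fix (inv_mem hβ) i0 (by omega)] at e1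
    exact e1
  have hν' : ν ∈ M.T01 := by
    obtain ⟨k, ⟨hk, s, hs, rfl⟩ | hk⟩ := hD ν hν
    · obtain ⟨m, hm⟩ := Pol.dvd_of_eq M.ap ((hk 0).symm.trans (hf 0 le_rfl (by omega)))
      refine mul_mem ?_ hs
      rw [show k = M.n * (-m) by linarith, zpow_mul]
      exact zpow_mem hrn _
    · exfalso
      have d1 := Pol.dvd_of_eq M.ap ((hk 0).symm.trans (hf 0 le_rfl (by omega)))
      have d2 := Pol.dvd_of_eq M.ap ((hk 1).symm.trans (hf 1 (by omega) le_rfl))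
      have d3 := dvd_sub d1 d2
      rw [show -2 * k - 0 - 0 - (-2 * k - 1 - 1) = 2 by ring] at d3
      have := Int.le_of_dvd (by norm_num) d3
      omega
  have h1 : t * ν⁻¹ = 1 := T_inf_UU (mul_mem ht (inv_mem (T01_le hν'))) (i := 1 - M.n) (j := 0) (by
    have := mul_mem hβ (T_conj_UU (T01_le hν') hβ')
    convert this using 1
    rw [e]
    group) (by omega)
  rwa [mul_inv_eq_one.1 h1]

/-- The torus is generated by the two rank one tori (`n` even).  WLOG `i = 0` (`shift`).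
`T₀ = T ⊓ L 0`, `T₁ = T ⊓ L 1` are normal in `T` (`T_conj_L`); `T° = T₀ ⊔ T₁` (`= T₀T₁`).
Pick `μ`-elements `a ∈ L 0` (`Rf 0`), `b ∈ L 1` (`Rf 2`).  For `t ∈ T`, `⁅a,t⁆ ∈ T₀`, `⁅b,t⁆ ∈ T₁`, so
`a, b` normalise `T°` and centralise `T` modulo `T°`; `a², b² ∈ T°`.  With `n = 2h`,
`(a b)^h = a c`, where `c = b (a b)^(h-1)` is a palindrome, i.e. `c ≡ g s g⁻¹ (mod T°)` with `s ∈ {a,b}`,
`g ∈ ⟨a,b⟩`; `c` is a reflection `Rf n` or `Rf (-n)` (`Rf.per`), it normalises `L 0` (`Rf.conj_U`: it maps `U 0` to `U 0`,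
`U n` to `U n`), so `⁅a,c⁆ ∈ T ⊓ L 0`, and `(a b)^n = (a c)² ≡ a² c² ≡ 1`.  Hence
`N° = ⟨a, b⟩ T° = {(ab)^k s t : s ∈ {1, a}, t ∈ T°}` and `N° ⊓ T = T°` (an element `(ab)^k s` fixing the
apartment has `s = 1` and `n ∣ k`: `girth'`).  Every element of `N°` is a `Rot` or an `Rf`.
Let `A = A (x n) (x (n+1))`; more conveniently take the edge `(x 0, x 1)`,
`A = UU (1-n) 0`, with simple roots `0` (`A = U 0 ⋉ UU (1-n) (-1)`, reflection `a`) and `1-n`
(reflection `b`, `L (1-n) = L 1`); `B° = A T°`.  The set `X = B° N° B°` is closed under left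
multiplication by `B°` and by `s ∈ {a, b}`: `s` normalises the complement `Q` of the simple root group `U_α`
and `T°`, so it suffices to treat `s u ν`, `u ∈ U_α`, `ν ∈ N°`.  `ν⁻¹ U_α ν = U k` with `k` or `k + n` in
`[1-n, 0]` modulo `2n`.  In the first case `s u ν = (s ν)(ν⁻¹ u ν)`.  In the second, if `u ≠ 1`,
`s u s⁻¹ ∈ U_{-α}` equals `l⁻¹ m r⁻¹` with `l, r ∈ U_α`, `m` a reflection in `L_α`, `m = s t'`, `t' ∈ T°`
(`exists_mu'`), and `s u ν = l⁻¹ (m s ν) ((sν)⁻¹ r⁻¹ (sν))`, the last factor in `A`.  As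
`⟨A, a, b⟩` contains all `U k`, `X = G`.  For `t ∈ T`: `t = β ν β'`, so `ν` fixes `x 0, x 1`, hence
(`Rot`/`Rf` with `girth'`) `ν ∈ T`, `ν ∈ T°`, `t ∈ A T°`, and `T_inf_A`. -/
theorem T_gen (h : M.Gen) (hn : M.n % 2 = 0) (i : ℤ) {t : G} (ht : t ∈ M.T) :
    ∃ s ∈ M.T ⊓ M.L i, ∃ s' ∈ M.T ⊓ M.L (i + 1), t = s * s' := by
  obtain ⟨s, hs, s', hs', e⟩ := T_le_T01 (M := M.shift i) (h.shift i) hn (by rwa [T_shift])
  rw [T_shift, L_shift] at hs hs'
  exact ⟨s, by rwa [zero_add] at hs, s', by rwa [add_comm] at hs', e⟩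

end MP

end Cfsg.Agent.BN2
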