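import Cfsg.Agent.BN2.Typ
import Cfsg.Agent.BN2.Rt2

/-!
# Finite Moufang hexagons in odd characteristic, I: the involution `j = h(-1)` (S1144)
-/

set_option autoImplicit false
set_option linter.unusedSectionVars false
set_option linter.unusedVariables false

namespace Cfsg.Agent.BN2

open scoped commutatorElement

namespace MP

variable {G V : Type} [Group G] [MulAction G V] [Finite G] [Finite V] {M : MP G V}
  {i k : ℤ} {a b g u t : G}

namespace S2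

variable {F : Type} [Field F] [Finite F] (E : M.S2 i F)

/-- the same rank one group seen from the other side: `E.conj (E.w 1) (i + n)` (`rf`, `Rf.conj_U`,
`U_per`), `conj_h`, `w_h` -/
theorem exists_opp : ∃ E' : M.S2 (i + M.n) F, ∀ s, s ≠ 0 → E'.h s = (E.h s)⁻¹ := by
  have r := E.rf one_ne_zero
  refine ⟨E.conj (E.w 1) (i + M.n) (fun u => ⟨fun h => ty_rf r h (by ring), fun h => ?_⟩)
    fun u => ⟨fun h => ?_, fun h => ?_⟩, fun s hs => by rw [conj_h, E.w_h one_ne_zero hs]⟩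
  · simpa [mul_assoc] using ty_rf r.inv h (k := i) (by ring)
  · rw [U_per (i := i) (by ring)]; exact ty_rf r h (by ring)
  · rw [U_per (i := i) (by ring)] at h
    simpa [mul_assoc] using ty_rf r.inv h (k := i + M.n) (by ring)

/-- `h_mul`, `h_one` -/
theorem j_sq : E.h (-1) * E.h (-1) = 1 := by
  rw [← E.h_mul (by simp) (by simp), neg_one_mul, neg_neg, h_one]

/-- `h_x`, `h_y`, `commute_L` -/
theorem j_L (hg : g ∈ M.L i) : Commute (E.h (-1)) g := by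
  refine commute_L (fun u hu => ?_) (fun u hu => ?_) hg
  · obtain ⟨t, rfl⟩ := E.xs u hu
    exact mul_inv_eq_iff_eq_mul.1 (by rw [E.h_x (by simp)]; simp)
  · obtain ⟨t, rfl⟩ := E.ys u hu
    exact mul_inv_eq_iff_eq_mul.1 (by rw [E.h_y (by simp)]; simp)

/-- `semi` -/
theorem j_T (ht : t ∈ M.T) : Commute (E.h (-1)) t := by
  obtain ⟨c, σ, -, -, -, h⟩ := E.semi ht
  exact (mul_inv_eq_iff_eq_mul.1 (by rw [h _ (by simp)]; simp) : t * _ = _ * t).symm

theorem h_w {s : F} (hs : s ≠ 0) : E.h s * (E.w 1 * b * (E.w 1)⁻¹) * (E.h s)⁻¹ =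
    E.w 1 * ((E.h s)⁻¹ * b * E.h s) * (E.w 1)⁻¹ := by
  have e : E.w 1 * (E.h s)⁻¹ * (E.w 1)⁻¹ = E.h s := by
    rw [← conj_inv, E.w_h one_ne_zero hs, inv_inv]
  calc _ = E.w 1 * (E.h s)⁻¹ * (E.w 1)⁻¹ * (E.w 1 * b * (E.w 1)⁻¹) *
        (E.w 1 * (E.h s)⁻¹ * (E.w 1)⁻¹)⁻¹ := by rw [e]
    _ = _ := by group

/-- `h s` acts on `B` as `w h(s⁻¹) w⁻¹`: `s ↦ h(s)⁻¹ b h(s)` is additive modulo `N` (conjugate `h_add` by
`w 1 ∈ L i`, which normalises `N`; `mB`, `w_h`) -/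
theorem h_add' {A B N : Subgroup G} (Q : M.QM i A B N) {s r : F} (hs : s ≠ 0) (hr : r ≠ 0)
    (hsr : s + r ≠ 0) (hb : b ∈ B) : ((E.h (s + r))⁻¹ * b * E.h (s + r))⁻¹ *
      ((E.h s)⁻¹ * b * E.h s * ((E.h r)⁻¹ * b * E.h r)) ∈ N := by
  have := E.h_add Q hs hr hsr (Q.mB _ (E.rf one_ne_zero) b hb)
  rw [E.h_w hs, E.h_w hr, E.h_w hsr, conj_mul, conj_inv, conj_mul] at this
  exact (Subgroup.mem_normalizer_iff.1 (Q.nL (E.w_mem 1)) _).2 this

theorem h_neg' {A B N : Subgroup G} (Q : M.QM i A B N) {r : F} (hr : r ≠ 0) (hb : b ∈ B) :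
    (E.h (-r))⁻¹ * b * E.h (-r) * ((E.h r)⁻¹ * b * E.h r) ∈ N := by
  have := E.h_neg Q hr (Q.mB _ (E.rf one_ne_zero) b hb)
  rw [E.h_w hr, E.h_w (neg_ne_zero.2 hr), conj_mul] at this
  exact (Subgroup.mem_normalizer_iff.1 (Q.nL (E.w_mem 1)) _).2 this

/-- A family `φ s ∈ T` (`s ≠ 0`), `φ 1 = 1`, whose action on `U k` is additive in `s`, acts on `U k`
by scalars, and `s ↦ d s` is additive (`semi`, `lin_of_add`, with `φ 0 := 0`). -/
theorem scalar {K : Type} [Field K] [Finite K] (E' : M.S2 k K) (φ : F → G) (h1 : φ 1 = 1)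
    (hT : ∀ s, s ≠ 0 → φ s ∈ M.T)
    (ha : ∀ s r, s ≠ 0 → r ≠ 0 → s + r ≠ 0 → ∀ a ∈ M.U k,
      φ (s + r) * a * (φ (s + r))⁻¹ = φ s * a * (φ s)⁻¹ * (φ r * a * (φ r)⁻¹))
    (hn : ∀ r, r ≠ 0 → ∀ a ∈ M.U k, φ (-r) * a * (φ (-r))⁻¹ * (φ r * a * (φ r)⁻¹) = 1) :
    ∃ d : F →+ K, d 1 = 1 ∧ (∀ s, s ≠ 0 → d s ≠ 0) ∧
      ∀ s, s ≠ 0 → ∀ u, φ s * E'.x u * (φ s)⁻¹ = E'.x (d s * u) := by
  classical
  choose f hf using fun s (hs : s ≠ 0) u => E'.xs _ (T_conj_U (hT s hs) (E'.xm u))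
  let ψ : F → K → K := fun s u => if hs : s = 0 then 0 else f s hs u
  have ψ0 : ∀ u, ψ 0 u = 0 := fun u => dif_pos rfl
  have hψ : ∀ s, s ≠ 0 → ∀ u, E'.x (ψ s u) = φ s * E'.x u * (φ s)⁻¹ := fun s hs u => by
    rw [show ψ s u = f s hs u from dif_neg hs, hf]
  have ψ1 : ∀ u, ψ 1 u = u := fun u => E'.x_inj (by rw [hψ 1 one_ne_zero, h1]; simp)
  have add : ∀ s r u, ψ (s + r) u = ψ s u + ψ r u := fun s r u => by
    by_cases hs : s = 0
    · rw [hs, zero_add, ψ0, zero_add]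
    by_cases hr : r = 0
    · rw [hr, add_zero, ψ0, add_zero]
    by_cases hsr : s + r = 0
    · obtain rfl := eq_neg_of_add_eq_zero_left hsr
      rw [hsr, ψ0]
      exact (E'.xi _ (by rw [x_add, hψ _ hs, hψ _ hr, hn r hr _ (E'.xm u)])).symm
    · exact E'.x_inj (by rw [x_add, hψ _ hs, hψ _ hr, hψ _ hsr, ha s r hs hr hsr _ (E'.xm u)])
  have l := lin_of_add ψ ψ0 ψ1 add fun s hs => by
    obtain ⟨c, σ, hc, e, -⟩ := E'.semi (hT s hs)
    exact ⟨c, σ, hc, fun u => E'.x_inj ((hψ s hs u).trans (e u))⟩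
  refine ⟨AddMonoidHom.mk' (fun s => ψ s 1) fun s r => add s r 1, ψ1 1, fun s hs e => ?_,
    fun s hs u => by rw [← hψ s hs, l]; rfl⟩
  have := hψ s hs 1
  rw [show ψ s 1 = 0 from e, x_zero] at this
  exact one_ne_zero (E'.xi 1 (conj_eq_one_iff.1 this.symm))

end S2

theorem Hx.red (hn : M.n = 6) (i k : ℤ) :
    ∃ r, 0 ≤ r ∧ r < 12 ∧ (k - i - r) % 12 = 0 ∧ M.U k = M.U (i + r) :=
  ⟨(k - i) % 12, by omega, by omega, by omega, by
    rw [← U_per_mul (i + (k - i) % 12) ((k - i) / 12)]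
    congr 1
    rw [hn]
    push_cast
    omega⟩

theorem Hx.eq_one_of_inv (hp : M.p ≠ 2) (ha : a ∈ M.U i) (h : a = a⁻¹) : a = 1 := by
  obtain ⟨k, hk⟩ := pow_U ha
  exact (pow_eq_one_iff_of_coprime (Nat.Coprime.pow_right k
    ((Nat.coprime_primes Nat.prime_two M.prime).2 hp.symm))).1
      ⟨by rw [sq, mul_eq_one_iff_eq_inv]; exact h, hk⟩

namespace Hx

variable (H : M.Hx) {F K : Type} [Field F] [Finite F] [Field K] [Finite K]
include H

theorem j_inv0 (hi : i % 2 = 0) (E : M.S2 i F) (hk : k = i + 1 ∨ k = i + 2 ∨ k = i + 4 ∨ k = i + 5)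
    (hu : u ∈ M.U k) : E.h (-1) * u * (E.h (-1))⁻¹ = u⁻¹ := by
  have hn := H.n
  have hm := mul_mem (T_conj_U (E.h_T (t := -1) (by simp)) hu) hu
  have ji := inv_eq_of_mul_eq_one_right E.j_sq
  refine eq_inv_of_mul_eq_one_left ?_
  rcases hk with rfl | rfl | rfl | rfl
  · exact U_inf_UU (j := i + 4) hm (UU_mono (i := i + 2) (by omega) le_rfl (by
      simpa [E.h_one] using E.h_neg (H.qm1 hi) one_ne_zero hu)) (by omega)
  · simpa [E.h_one] using E.h_neg (H.qm2 hi) one_ne_zero hu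
  · simpa [E.h_one, ji] using E.h_neg' (H.qm2 hi) one_ne_zero hu
  · exact U_inf_UU' (i := i + 2) hm (UU_mono (j := i + 4) le_rfl (by omega) (by
      simpa [E.h_one, ji] using E.h_neg' (H.qm1 hi) one_ne_zero hu)) (by omega)

/-- `h_neg` (`t = 1`) for `qm2`, `qm1` (`U_inf_UU`) gives `i+1, i+2`, `h_neg'` gives `i+4, i+5`;
`exists_opp` gives `i+7, i+8, i+10, i+11`; `U_per`. -/
theorem j_inv (hi : i % 2 = 0) (E : M.S2 i F) (hk : (k - i) % 3 ≠ 0) (hu : u ∈ M.U k) :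
    E.h (-1) * u * (E.h (-1))⁻¹ = u⁻¹ := by
  have hn := H.n
  obtain ⟨r, h1, h2, h3, e⟩ := red hn i k
  rw [e] at hu
  by_cases h6 : r < 6
  · exact H.j_inv0 hi E (by omega) hu
  obtain ⟨E', e'⟩ := E.exists_opp
  have := H.j_inv0 (by omega) E' (by omega) hu
  rwa [e' _ (by simp), inv_eq_of_mul_eq_one_right E.j_sq] at this

theorem j_cent3 (hi : i % 2 = 0) (E : M.S2 i F) (hu : u ∈ M.U (i + 3)) : Commute (E.h (-1)) u := by
  have hn := H.n
  have jT := E.h_T (t := -1) (by simp)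
  have Q := H.qm1 (i := i + 2) (by omega)
  obtain ⟨a, ha, a1⟩ := exists_U (M := M) (i + 2)
  obtain ⟨l, hl, r, hr, hm⟩ := exists_mu ha a1
  have hv := ty_rf hm.inv hu (k := i + 2 + M.n - 1) (by omega)
  have h1 := comm_first ha hl hr hm hv
  have e1 := H.j_inv hi E (by omega) ha
  have e2 := H.j_inv hi E (by omega) hv
  rw [show l * a * r * ((l * a * r)⁻¹ * u * (l * a * r)⁻¹⁻¹) * (l * a * r)⁻¹ = u by group,
    show i + 2 + M.n - 2 = i + 2 + 4 by omega] at h1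
  rw [show i + 2 + M.n - 1 = i + 2 + 5 by omega] at hv
  generalize (l * a * r)⁻¹ * u * (l * a * r)⁻¹⁻¹ = v at hv h1 e2
  have hu' : u ∈ M.U (i + 2 + 1) := by rwa [add_assoc]
  have h2 := Q.nU _ (inv_mem ha) _ (mul_mem (Q.AB _ (inv_mem hu') _ (inv_mem hv))
    (Q.nB _ (inv_mem hv) _ h1))
  refine mul_inv_eq_iff_eq_mul.1 (uniq (j := i + 2 + 4) (T_conj_U jT hu') hu'
    (UU_mono (by omega) le_rfl (T_conj_UU jT h1)) (UU_mono (by omega) le_rfl h2) (by omega) ?_).1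
  have c := (commute_succ ha hu' rfl).eq
  calc _ = E.h (-1) * a * (E.h (-1))⁻¹ * (E.h (-1) * v * (E.h (-1))⁻¹) *
        (E.h (-1) * a * (E.h (-1))⁻¹)⁻¹ * (E.h (-1) * v * (E.h (-1))⁻¹)⁻¹ := by
        rw [commutatorElement_def]; group
    _ = u * (a * u)⁻¹ * v⁻¹ * a * v := by rw [e1, e2]; group
    _ = _ := by rw [c]; simp only [commutatorElement_def]; group

/-- for `k ≡ i mod 6`: `j_L`.  For `k = i + 3`: every `c ∈ U (i+3)` is the first component of some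
`⁅a, u⁆`, `a ∈ U (i+2)`, `u ∈ U (i+7)` (`comm_first`); modulo `N = UU (i+4) (i+6)` the commutator is
bimultiplicative (`qm1` at `i+2`), so `⁅a⁻¹,u⁻¹⁆ ≡ ⁅a,u⁆`; `j_inv`, `uniq`.  `T_cent_opp` for `i + 9`. -/
theorem j_cent (hi : i % 2 = 0) (E : M.S2 i F) (hk : (k - i) % 3 = 0) (hu : u ∈ M.U k) :
    Commute (E.h (-1)) u := by
  have hn := H.n
  obtain ⟨r, h1, h2, h3, e⟩ := red hn i k
  rw [e] at hu
  have : r = 0 ∨ r = 3 ∨ r = 6 ∨ r = 9 := by omega
  rcases this with rfl | rfl | rfl | rfl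
  · exact E.j_L (U_le_L i (by rwa [add_zero] at hu))
  · exact H.j_cent3 hi E hu
  · exact E.j_L (U_le_L' i (by rwa [hn]))
  · exact T_cent_opp (E.h_T (by simp)) (fun _ => H.j_cent3 hi E) (by omega) u hu

/-- `j_inv`, `pow_U`, `exists_U` -/
theorem j_ne (hp : M.p ≠ 2) (hi : i % 2 = 0) (E : M.S2 i F) : E.h (-1) ≠ 1 := by
  intro e
  obtain ⟨a, ha, a1⟩ := exists_U (M := M) (i + 1)
  have := H.j_inv hi E (by omega) ha
  rw [e, one_mul, inv_one, mul_one] at this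
  exact a1 (eq_one_of_inv hp ha this)

/-- `comm`, `U_per`, `commute_L` -/
theorem L_comm (ha : a ∈ M.L 0) (hb : b ∈ M.L 3) : Commute a b := by
  have hn := H.n
  refine S2.commute_L (fun u hu => ?_) (fun u hu => ?_) hb <;>
    refine (S2.commute_L (fun v hv => ?_) (fun v hv => ?_) ha).symm
  · exact (H.comm (by omega) hv hu (by omega) (by omega)).symm
  · exact (H.comm (by omega) hv hu (by omega) (by omega)).symm
  · rw [U_per (i := -3) (by omega)] at hu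
    exact (H.comm (by omega) hv hu (by omega) (by omega)).symm
  · exact (H.comm (by omega) hv hu (by omega) (by omega)).symm

/-- `t` commutes with all `h s`; these are transitive on `U 2 ∖ 1` (`h_free` for `qm2`, `|U 2| = |F|`), so
`h(α)⁻¹ t` centralises some `1 ≠ a₀ ∈ U 2`, hence `U 2`; it centralises `U 3` (`L_comm`), so it is
trivial (`T_rigid`); `h α` centralises `U 0`, so `α² = 1`. -/
theorem cent_T (E : M.S2 0 F) (ht : t ∈ M.T) (h0 : ∀ u ∈ M.U 0, Commute t u)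
    (h3 : ∀ u ∈ M.U 3, Commute t u) : t = 1 ∨ t = E.h (-1) := by
  classical
  have c1 := (E.lin ht (c := 1) fun u => by rw [one_mul, (h0 _ (E.xm u)).eq, mul_inv_cancel_right]).2
  obtain ⟨a, ha, a1⟩ := exists_U (M := M) (0 + 2)
  let f : F → M.U (0 + 2) := fun s =>
    if hs : s = 0 then 1 else ⟨E.h s * a * (E.h s)⁻¹, T_conj_U (E.h_T hs) ha⟩
  have f0 : f 0 = 1 := dif_pos rfl
  have f1 : ∀ s, s ≠ 0 → (f s : G) = E.h s * a * (E.h s)⁻¹ := fun s hs =>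
    congrArg Subtype.val (dif_neg hs)
  have f2 : ∀ s, f s = 1 → s = 0 := fun s e => by_contra fun hs =>
    a1 (conj_eq_one_iff.1 ((f1 s hs).symm.trans (congrArg Subtype.val e)))
  have inj : Function.Injective f := fun s r e => by
    by_cases hs : s = 0
    · rw [hs, f2 r (by rw [← e, hs, f0])]
    by_cases hr : r = 0
    · exact absurd (f2 s (by rw [e, hr, f0])) hs
    exact (E.h_free (H.qm2 (by omega)) hs hr ha (by
      rw [← f1 s hs, ← f1 r hr, e, inv_mul_cancel]; exact one_mem _)).resolve_right a1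
  have sur : ∀ b ∈ M.U (0 + 2), b ≠ 1 → ∃ s, s ≠ 0 ∧ b = E.h s * a * (E.h s)⁻¹ := fun b hb b1 => by
    obtain ⟨s, e⟩ := (inj.bijective_of_nat_card_le
      ((card_U_even (i := 0) (by omega)).trans E.card.symm).le).2 ⟨b, hb⟩
    have hs : s ≠ 0 := by
      rintro rfl
      exact b1 (congrArg Subtype.val (e.symm.trans f0))
    exact ⟨s, hs, (congrArg Subtype.val e).symm.trans (f1 s hs)⟩
  obtain ⟨α, hα, e⟩ := sur _ (T_conj_U ht ha) (mt conj_eq_one_iff.1 a1)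
  have c2 : Commute ((E.h α)⁻¹ * t) a := mul_inv_eq_iff_eq_mul.1 (by
    calc _ = (E.h α)⁻¹ * (t * a * t⁻¹) * E.h α := by group
      _ = _ := by rw [e]; group)
  have e1 := T_rigid (i := 0 + 2) (mul_mem (inv_mem (E.h_T hα)) ht) (fun u hu => by
    by_cases u1 : u = 1
    · rw [u1]; exact Commute.one_right _
    obtain ⟨s, hs, rfl⟩ := sur u hu u1
    have c3 := (E.h_comm hα hs).inv_left.mul_left (c1 s hs)
    exact (c3.mul_right c2).mul_right c3.inv_right)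
    fun u hu => (H.L_comm (E.h_mem α) (U_le_L 3 hu)).inv_left.mul_left
      (h3 u (by norm_num at hu; exact hu))
  obtain rfl := inv_mul_eq_one.1 e1
  have e2 : α ^ 2 * 1 = 1 :=
    E.x_inj (by rw [← E.h_x hα, (h0 _ (E.xm 1)).eq, mul_inv_cancel_right])
  rw [mul_one, sq, mul_self_eq_one_iff] at e2
  exact e2.imp (fun e => by rw [e, E.h_one]) fun e => by rw [e]

/-- the centre of a central elation is unique: `exists_pos`, `C_inf` -/
theorem centre (hG : M.Gen) {y z : V} (hy : u ∈ M.Ball 3 y) (hz : u ∈ M.Ball 3 z) (h1 : u ≠ 1) :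
    y = z := by
  have hn := H.n
  have hm := SP.N6_m (P := M.toSP) hn
  obtain ⟨g, i, k, -, k0, k1, e1, e2⟩ := exists_pos hG y z
  rcases k0.eq_or_lt with rfl | k0
  · exact smul_left_cancel g (by rw [e1, e2, add_zero])
  have c1 := Pol.Ball_conj g hy
  have c2 := Pol.Ball_conj g hz
  rw [e1, ← hm] at c1
  rw [e2, ← hm] at c2
  exact absurd (conj_eq_one_iff.1 (Pol.C_inf (by omega) line c1 c2 (by omega) (by omega))) h1

/-- `g` fixes the centres `x 3`, `x 9` of `U 0`, `U 6` (`centre`, `Ball_conj`), then `x 4`, `x 2`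
(`fix_of_commute` for `U 3`, `U 9 = U (-3)`), then `x 2, …, x 9` (`fix_between`); `mem_T_of`, `cent_T`. -/
theorem cent (hG : M.Gen) (E : M.S2 0 F) (h0 : ∀ u ∈ M.L 0, Commute g u)
    (h3 : ∀ u ∈ M.L 3, Commute g u) : g = 1 ∨ g = E.h (-1) := by
  have hn := H.n
  have k : ∀ i, i % 2 = 0 → M.U i ≤ M.L 0 → g • M.x (i + 3) = M.x (i + 3) := fun i hi hl => by
    obtain ⟨u, hu, u1⟩ := exists_U (M := M) i
    have := Pol.Ball_conj g (H.ball i hi hu)
    rw [(h0 u (hl hu)).eq, mul_inv_cancel_right] at this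
    exact H.centre hG this (H.ball i hi hu) u1
  have e3 : g • M.x 3 = M.x 3 := k 0 rfl (U_le_L 0)
  have e9 : g • M.x 9 = M.x 9 := k 6 rfl (by simpa [hn] using U_le_L' (M := M) 0)
  obtain ⟨u, hu, u1⟩ := exists_U (M := M) 3
  have e4 : g • M.x 4 = M.x 4 := (fix_of_commute hu u1 (h3 u (U_le_L 3 hu))).1 e3
  obtain ⟨v, hv, v1⟩ := exists_U (M := M) (-3)
  have e2 := (fix_of_commute hv v1 (h3 v (U_le_L' 3 (by rwa [U_per (i := -3) (by omega)])))).2
  rw [show (-3 : ℤ) + M.n = 3 by omega] at e2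
  refine H.cent_T E (mem_T_of (i := 2) fun l l1 l2 => ?_) (fun u hu => h0 u (U_le_L 0 hu))
    fun u hu => h3 u (U_le_L 3 hu)
  by_cases l4 : 4 ≤ l
  · exact Pol.fix_between line (by omega) e4 e9 l4 (by omega)
  have : l = 2 ∨ l = 3 := by omega
  rcases this with rfl | rfl
  exacts [e2 e3, e3]

/-- `j' = E'.h (-1) = w²`, `w = E'.w 1` (`w_sq`), centralises `L 0`, `L 3`.  If `j' = 1`: `w` is `Rf 6`, centralises
`U 0`; for `1 ≠ a ∈ U (-2)`, `b = w a w⁻¹ ∈ U 2`, `w b w⁻¹ = a`, so `⁅a,b⁆ = ⁅b,a⁆ ∈ U 0` (`comm4`) has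
order `≤ 2`, and is trivial as `p` is odd; `nondeg`. -/
theorem j_eq (hG : M.Gen) (hp : M.p ≠ 2) (E : M.S2 0 F) (E' : M.S2 3 K) :
    E'.h (-1) = E.h (-1) := by
  have hn := H.n
  refine (H.cent hG E (fun u hu => (H.L_comm hu (E'.h_mem _)).symm) fun u => E'.j_L).resolve_left
    fun e => ?_
  have w2 := (E'.w_sq one_ne_zero).trans e
  obtain ⟨a, ha, a1⟩ := exists_U (M := M) (-2)
  have hb := (E'.rf one_ne_zero).conj_U ha (j := 2) (by omega)
  have hc : _ ∈ M.U 0 := H.comm4 (by omega) ha hb rfl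
  have c := (H.L_comm (U_le_L 0 hc) (E'.w_mem 1)).eq
  generalize E'.w 1 = w at w2 hb hc c
  have e1 : ⁅a, w * a * w⁻¹⁆ = ⁅a, w * a * w⁻¹⁆⁻¹ := by
    calc _ = w * ⁅a, w * a * w⁻¹⁆ * w⁻¹ := by rw [← c, mul_inv_cancel_right]
      _ = ⁅w * a * w⁻¹, w * w * a * (w * w)⁻¹⁆ := by simp only [commutatorElement_def]; group
      _ = _ := by rw [w2, commutatorElement_inv]; simp
  exact (H.nondeg (by omega) ha hb rfl (commutatorElement_eq_one_iff_commute.1
    (eq_one_of_inv hp hc e1))).elim a1 (mt conj_eq_one_iff.1 a1)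

theorem L_inf (hG : M.Gen) (hp : M.p ≠ 2) (E : M.S2 0 F) (E' : M.S2 3 K) :
    M.L 0 ⊓ M.L 3 = Subgroup.zpowers (E.h (-1)) := by
  refine le_antisymm (fun g hg => ?_)
    (Subgroup.zpowers_le.2 ⟨E.h_mem _, H.j_eq hG hp E E' ▸ E'.h_mem _⟩)
  rcases H.cent hG E (fun u hu => (H.L_comm hu hg.2).symm) fun u => H.L_comm hg.1 with rfl | rfl
  exacts [one_mem _, Subgroup.mem_zpowers _]

end Hx

end MP

end Cfsg.Agent.BN2
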