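import Cfsg.Agent.BN2.HexA
import Cfsg.Prelude.Def_Classification2
import Cfsg.Agent.Grp.Cores

/-!
# Finite Moufang hexagons in odd characteristic, II: `C(j) = L₀ L₃ T`, `O(C(j)) = 1` (S1144)
-/

set_option autoImplicit false
set_option linter.unusedSectionVars false
set_option linter.unusedVariables false

namespace Cfsg.Agent.BN2

open scoped commutatorElement

namespace MP

variable {G V : Type} [Group G] [MulAction G V] [Finite G] [Finite V] {M : MP G V}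
  {i k : ℤ} {a b g u t : G}

theorem L_one {y : V} (hy : M.adj (M.x i) y) : ∃ g ∈ M.L i, g • y = M.x (i + 1) := by
  have k : ∀ {y}, M.adj (M.x i) y → y ≠ M.x (i - 1) → ∃ g ∈ M.L i, g • y = M.x (i + 1) := fun hy e =>
    (rtb_tr_opp i _ _ hy (line.1 i) e (rtb_ne i)).imp fun _ h => ⟨U_le_L' i h.1, h.2⟩
  by_cases e : y = M.x (i - 1)
  · obtain ⟨d, h1, h2, h3⟩ := M.thick (M.x i) (M.x (i + 1)) (M.x (i - 1))
    obtain ⟨u, hu, e1⟩ := U_tr i y d hy h1 (e ▸ (rtb_ne i).symm) h2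
    obtain ⟨g, hg, e2⟩ := k h1 h3
    exact ⟨g * u, mul_mem hg (U_le_L i hu), by rw [mul_smul, e1, e2]⟩
  · exact k hy e

theorem L_adj {y : V} (hg : g ∈ M.L i) (hy : M.adj (M.x i) y) : M.adj (M.x i) (g • y) :=
  (L_fix hg).1 ▸ M.adj_smul g hy

theorem L_std {y z : V} (hy : M.adj (M.x i) y) (hz : M.adj (M.x i) z) (hyz : y ≠ z) :
    ∃ g ∈ M.L i, g • y = M.x (i + 1) ∧ g • z = M.x (i - 1) := by
  obtain ⟨g, hg, e⟩ := L_one hy
  obtain ⟨u, hu, e1⟩ := U_tr i (g • z) _ (L_adj hg hz) (rtb_adj i)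
    (fun a => hyz (smul_left_cancel g (e.trans a.symm))) (rtb_ne i).symm
  have := M.three_le'
  exact ⟨u * g, mul_mem (U_le_L i hu) hg, by rw [mul_smul, e, U_fix hu (by omega) (by omega)],
    by rw [mul_smul, e1]⟩

theorem eq_one_of_sq_odd {H : Type*} [Group H] {a : H} (h : a * a = 1) (ho : Odd (orderOf a)) : a = 1 :=
  orderOf_eq_one_iff.1 (Nat.eq_one_of_dvd_coprimes (Nat.coprime_two_left.2 ho)
    (orderOf_dvd_of_pow_eq_one (by rwa [sq])) dvd_rfl)

/-- `L i` is doubly transitive on `Γ(x i)` (`U_tr i`, and `U_tr'` for `U (i+n) = U (i-n)`) -/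
theorem L_two {y z y' z' : V} (hy : M.adj (M.x i) y) (hz : M.adj (M.x i) z) (hyz : y ≠ z)
    (hy' : M.adj (M.x i) y') (hz' : M.adj (M.x i) z') (hyz' : y' ≠ z') :
    ∃ g ∈ M.L i, g • y = y' ∧ g • z = z' := by
  obtain ⟨g, hg, e1, e2⟩ := L_std hy hz hyz
  obtain ⟨g', hg', e3, e4⟩ := L_std hy' hz' hyz'
  exact ⟨g'⁻¹ * g, mul_mem (inv_mem hg') hg, by rw [mul_smul, e1, ← e3, inv_smul_smul],
    by rw [mul_smul, e2, ← e4, inv_smul_smul]⟩

/-- By `L_two`, `N` is trivial or transitive on `Γ(x i)`, a set of even size `|U i| + 1` (`card_U`, `sz_eq`);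
so `N ≤ K (x i)`.  `n ∈ N` fixes `x (i-1), x i, x (i+1), x (i+n)`, so `n ∈ T` (`fix_between`, `mem_T_of`),
`n = h α` (`T_inf_L`) centralises `U i` (`T_K_iff`), `α² = 1`, `n² = 1` (`j_sq`), `n = 1`. -/
theorem S2.odd_normal {F : Type} [Field F] [Finite F] (E : M.S2 i F) (hp : M.p ≠ 2)
    {N : Subgroup G} (hN : N ≤ M.L i) (hn : ∀ g ∈ M.L i, ∀ n ∈ N, g * n * g⁻¹ ∈ N)
    (ho : Odd (Nat.card N)) : N = ⊥ := by
  have := Fact.mk M.prime
  have h3 := M.three_le'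
  have hK : N ≤ M.K (M.x i) := fun n hn' => ⟨(L_fix (hN hn')).1, fun y hy => by_contra fun e => by
    have o : MulAction.orbit N y = {z | M.adj (M.x i) z} := Set.ext fun z =>
      ⟨by rintro ⟨m, rfl⟩; exact L_adj (hN m.2) hy, fun hz => by
        by_cases e' : y = z
        · exact e' ▸ MulAction.mem_orbit_self y
        obtain ⟨g, hg, e1, e2⟩ := L_two hy (L_adj (hN hn') hy) (Ne.symm e) hy hz e'
        refine ⟨⟨_, hn g hg n hn'⟩, ?_⟩
        change (g * n * g⁻¹) • y = z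
        rw [mul_smul, mul_smul, inv_smul_eq_iff.2 e1.symm, e2]⟩
    have d := (MulAction.stabilizer N y).index_dvd_card
    rw [MulAction.index_stabilizer, o] at d
    obtain ⟨k, hk⟩ := IsPGroup.iff_card.1 (show IsPGroup M.p (M.U i) from
      UU_self (M := M) i ▸ isPGroup_UU (i := i) (j := i) (by omega))
    have o1 := ho.of_dvd_nat d
    have o2 : Odd (M.sz (M.x i)) := by rw [← card_U, hk]; exact (M.prime.odd_of_ne_two hp).pow
    have := M.two_le_sz (M.x i)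
    unfold Pol.sz at o2 this
    rw [Nat.odd_iff] at o1 o2
    omega⟩
  refine (Subgroup.eq_bot_iff_forall N).2 fun n hn' => ?_
  have hT : n ∈ M.T := mem_T_of (i := i - 1) fun k h1 h2 => by
    by_cases e : k ≤ i + 1
    · exact Pol.K_fix line (hK hn') h1 e
    · exact Pol.fix_between line (i := i + 1) (j := i + M.n) (by omega)
        (Pol.K_fix line (hK hn') (by omega) le_rfl) (L_fix (hN hn')).2 (by omega) (by omega)
  obtain ⟨t, t0, e⟩ := E.T_inf_L hT (hN hn')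
  have c := (T_K_iff hT).1 (hK hn') _ (E.xm 1)
  have e1 := E.h_x t0 1
  rw [← e, c.eq, mul_inv_cancel_right, mul_one] at e1
  refine eq_one_of_sq_odd ?_ (ho.of_dvd_nat (N.orderOf_dvd_natCard hn'))
  rw [e, ← E.h_mul t0 t0, ← sq, ← E.x_inj e1, E.h_one]

namespace Hx

variable (H : M.Hx) (hG : M.Gen) (hp : M.p ≠ 2) {F K : Type} [Field F] [Finite F] [Field K]
  [Finite K] (E : M.S2 0 F) (E' : M.S2 3 K)
include H hp

/-- every neighbour of `x k` is `x (k+1)` or `u • x (k-1)`, `u ∈ U k` (`U_tr`); `j` fixes the latter iff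
`u⁻¹ • x (k-1) = u • x (k-1)` (`j_inv`), iff `u² = 1` (`U_eq_one`), iff `u = 1` (`pow_U`) -/
theorem fix_nb (hk : k % 3 ≠ 0) {z : V} (hz : M.adj (M.x k) z) (hf : E.h (-1) • z = z) :
    z = M.x (k + 1) ∨ z = M.x (k - 1) := by
  refine or_iff_not_imp_left.2 fun e => ?_
  obtain ⟨u, hu, rfl⟩ := U_tr k _ z (rtb_adj k) hz (rtb_ne k).symm e
  have h1 := H.j_inv (i := 0) rfl E (k := k) (by omega) hu
  rw [← mul_smul, mul_inv_eq_iff_eq_mul.1 h1, mul_smul, E.h_T (by simp) (k - 1), inv_smul_eq_iff,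
    ← mul_smul] at hf
  obtain ⟨e, he⟩ := pow_U hu
  rw [eq_one_of_sq_odd (U_eq_one (mul_mem hu hu) (rtb_adj k) (rtb_ne k).symm hf.symm)
    ((M.prime.odd_of_ne_two hp).pow.of_dvd_nat (orderOf_dvd_of_pow_eq_one he)), one_smul]

/-- `j_cent`, `T_K_iff` -/
theorem j_K (hk : k % 3 = 0) : E.h (-1) ∈ M.K (M.x k) := by
  exact (T_K_iff (E.h_T (by simp))).2 fun u hu => H.j_cent (i := 0) rfl E (k := k) (by omega) hu

theorem step (hk : k % 3 ≠ 0) (hg : Commute g (E.h (-1))) (h0 : g • M.x k = M.x k) :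
    g • M.x (k - 1) = M.x (k - 1) ↔ g • M.x (k + 1) = M.x (k + 1) := by
  have f : ∀ l, M.adj (M.x k) (M.x l) → g • M.x l = M.x (k + 1) ∨ g • M.x l = M.x (k - 1) := fun l hl =>
    H.fix_nb hp E hk (h0 ▸ M.adj_smul g hl) (by rw [← mul_smul, ← hg.eq, mul_smul, E.h_T (by simp) l])
  exact ⟨fun e => (f _ (line.1 k)).resolve_right fun a => rtb_ne k (smul_left_cancel g (a.trans e.symm)),
    fun e => (f _ (rtb_adj k)).resolve_left fun a => rtb_ne k (smul_left_cancel g (e.trans a.symm))⟩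

omit hp in
theorem L_le_Y (hk : k % 3 = 0) : M.L k ≤ M.L 0 ⊔ M.L 3 := by
  have h : ∀ i m : ℤ, M.L (i + 6 * m) = M.L i := fun i m => by
    induction m using Int.induction_on with
    | zero => simp
    | succ m ih => rw [← ih]; exact L_per (by rw [H.n]; push_cast; ring)
    | pred m ih => rw [← ih]; exact (L_per (by rw [H.n]; push_cast; ring)).symm
  rcases (by omega : k = 0 + 6 * (k / 6) ∨ k = 3 + 6 * (k / 6)) with e | e <;> rw [e, h]
  exacts [le_sup_left, le_sup_right]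

include hG E'

theorem cY (hg : g ∈ M.L 0 ⊔ M.L 3) : Commute (E.h (-1)) g :=
  (Subgroup.mem_centralizer_singleton_iff.1 (sup_le (c := Subgroup.centralizer {E.h (-1)})
    (fun _ h => Subgroup.mem_centralizer_singleton_iff.2 (E.j_L h).symm)
    (fun _ h => Subgroup.mem_centralizer_singleton_iff.2 (H.j_eq hG hp E E' ▸ (E'.j_L h).symm)) hg)).symm

/-- `Y = L 0 ⊔ L 3` centralises `j` (`j_L`, `j_eq`).  The set `{y • x k}` is closed under passing to
`j`-fixed neighbours (`fix_nb`; for `3 ∣ k`, `L k ∈ {L 0, L 3}` by `L_per`, `L_two`).  A fixed vertex is joined to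
`x 0` or `x 1` by a path of length `< n` (`reach`) of fixed vertices (`fix_between`). -/
theorem fix_eq {v : V} (hf : E.h (-1) • v = v) : ∃ y ∈ M.L 0 ⊔ M.L 3, ∃ k, v = y • M.x k := by
  have st : ∀ {w z : V}, (∃ y ∈ M.L 0 ⊔ M.L 3, ∃ k, w = y • M.x k) → M.adj w z → E.h (-1) • z = z →
      ∃ y ∈ M.L 0 ⊔ M.L 3, ∃ k, z = y • M.x k := by
    rintro _ z ⟨y, hy, k, rfl⟩ hz hf
    have a : M.adj (M.x k) (y⁻¹ • z) := by simpa using M.adj_smul y⁻¹ hz
    by_cases hk : k % 3 = 0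
    · obtain ⟨g, hg, e⟩ := L_one a
      exact ⟨y * g⁻¹, mul_mem hy (inv_mem (H.L_le_Y hk hg)), k + 1, by simp [← e, mul_smul]⟩
    · rcases H.fix_nb hp E hk a (by
        rw [← mul_smul, (H.cY hG hp E E' (inv_mem hy)).eq, mul_smul, hf]) with e | e
      exacts [⟨y, hy, _, inv_smul_eq_iff.1 e⟩, ⟨y, hy, _, inv_smul_eq_iff.1 e⟩]
  obtain ⟨p, hp', h0, k, k0, k1, rfl⟩ := reach hG 0 v
  have f0 : E.h (-1) • p 0 = p 0 := by rcases h0 with e | e <;> rw [e, E.h_T (by simp)]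
  have : ∀ l : ℕ, l ≤ k → ∃ y ∈ M.L 0 ⊔ M.L 3, ∃ k, p l = y • M.x k := fun l => by
    induction l with
    | zero => exact fun _ => by rcases h0 with e | e <;> exact ⟨1, one_mem _, _, by simpa using e⟩
    | succ l ih =>
      exact fun hl => st (ih (by omega)) (hp'.adj' (by omega))
        (Pol.fix_between hp' (i := 0) (j := k) (by omega) f0 hf (by omega) hl)
  lift k to ℕ using k0
  exact this k le_rfl

/-- `g • x 0 = y • x k` (`fix_eq`), `j ∈ K (g • x 0)` forces `3 ∣ k` (`fix_nb`, `thick`), types force `k` even;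
`E'.w 1` (`Rf 6`) sends `x 0` to `x 6`; so WLOG `g` fixes `x 0`, by `L_two` also `x (±1)`, then
`x (±2)`, `x (±3)` (`fix_nb`); an element of `U (-3) = U 9 ≤ L 3` (`U_tr'`) corrects `x 4`; `mem_T_of`. -/
theorem C_dec (hg : Commute g (E.h (-1))) : ∃ y ∈ M.L 0 ⊔ M.L 3, ∃ t ∈ M.T, g = y * t := by
  have jT := E.h_T (t := -1) (by simp)
  have n6 : (M.n : ℤ) = 6 := by rw [H.n]; rfl
  obtain ⟨y, hy, e⟩ : ∃ y ∈ M.L 0 ⊔ M.L 3, g • M.x 0 = y • M.x 0 := by
    obtain ⟨y, hy, k, e⟩ := H.fix_eq hG hp E E' (v := g • M.x 0)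
      (by rw [← mul_smul, ← hg.eq, mul_smul, jT 0])
    have k3 : k % 3 = 0 := by_contra fun hk => by
      have a := Pol.K_conj (y⁻¹ * g) (H.j_K hp E (k := 0) rfl)
      rw [((H.cY hG hp E E' (inv_mem hy)).symm.mul_left hg).eq, mul_inv_cancel_right, mul_smul, e,
        inv_smul_smul] at a
      obtain ⟨d, h1, h2, h3⟩ := M.thick (M.x k) (M.x (k + 1)) (M.x (k - 1))
      exact (H.fix_nb hp E hk h1 (a.2 d h1)).elim h2 h3
    have k2 : k % 2 = 0 := by_contra fun hk => Pol.ty_odd (P := M.toPol) line (i := 0) (j := k) (by omega)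
      (by rw [← M.ty_smul y, ← e, M.ty_smul])
    have per : ∀ i m : ℤ, M.x (i + m * 12) = M.x i := fun i m => by
      simpa [n6] using M.ap.per_mul i m
    rcases (by omega : k = 0 + k / 12 * 12 ∨ k = 6 + k / 12 * 12) with a | a <;> rw [a, per] at e
    · exact ⟨y, hy, e⟩
    · exact ⟨y * E'.w 1, mul_mem hy (le_sup_right (a := M.L 0) (E'.w_mem 1)), by
        rw [e, mul_smul, E'.rf one_ne_zero 0]; rfl⟩
  have e0 : (y⁻¹ * g) • M.x 0 = M.x 0 := by rw [mul_smul, e, inv_smul_smul]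
  obtain ⟨l, hl, e1, e2⟩ := L_std (i := 0) (e0 ▸ M.adj_smul (y⁻¹ * g) (line.1 0))
    (e0 ▸ M.adj_smul (y⁻¹ * g) (rtb_adj 0)) fun a => rtb_ne 0 (smul_left_cancel _ a)
  have lY := le_sup_left (b := M.L 3) hl
  have c : Commute (l * (y⁻¹ * g)) (E.h (-1)) := (H.cY hG hp E E' lY).symm.mul_left
    ((H.cY hG hp E E' (inv_mem hy)).symm.mul_left hg)
  have e0' : (l * (y⁻¹ * g)) • M.x 0 = M.x 0 := by rw [mul_smul, e0, (L_fix hl).1]
  rw [← mul_smul] at e1 e2
  have a2 := (H.step hp E (k := 1) (by decide) c e1).1 e0'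
  have a3 := (H.step hp E (k := 2) (by decide) c a2).1 e1
  have e2 : (l * (y⁻¹ * g)) • M.x (-1) = M.x (-1) := by simpa using e2
  have b2 : (l * (y⁻¹ * g)) • M.x (-2) = M.x (-2) := by
    simpa using (H.step hp E (k := -1) (by decide) c e2).2 (by simpa using e0')
  have b3 : (l * (y⁻¹ * g)) • M.x (-3) = M.x (-3) := by
    simpa using (H.step hp E (k := -2) (by decide) c b2).2 (by simpa using e2)
  obtain ⟨u, hu, t, ht, e3⟩ := stab_root (i := -3) (g := l * (y⁻¹ * g)) fun k h1 h2 => by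
    rw [n6] at h2
    interval_cases k
    exacts [b3, b2, e2, e0', e1, a2, a3]
  refine ⟨y * l⁻¹ * u, mul_mem (mul_mem hy (inv_mem lY)) (H.L_le_Y (by decide) (U_le_L _ hu)), t, ht, ?_⟩
  rw [mul_assoc, ← e3]
  group

/-- `C_dec`, `L_comm`, `T_conj_L` -/
theorem C_norm (hg : Commute g (E.h (-1))) :
    (∀ a ∈ M.L 0, g * a * g⁻¹ ∈ M.L 0) ∧ ∀ a ∈ M.L 3, g * a * g⁻¹ ∈ M.L 3 := by
  obtain ⟨y, hy, t, ht, rfl⟩ := H.C_dec hG hp E E' hg
  have k : ∀ {A B : Subgroup G}, (∀ a ∈ A, ∀ b ∈ B, Commute a b) → B ≤ Subgroup.normalizer (A : Set G) :=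
    fun h b hb => Subgroup.mem_normalizer_fintype fun a ha => by
      rw [← (h a ha b hb).eq, mul_inv_cancel_right]; exact ha
  have r : ∀ a, y * t * a * (y * t)⁻¹ = y * (t * a * t⁻¹) * y⁻¹ := fun a => by group
  exact ⟨fun a ha => r a ▸ (Subgroup.mem_normalizer_iff.1 (sup_le Subgroup.le_normalizer
      (k fun a ha b hb => H.L_comm ha hb) hy) _).1 (T_conj_L ht ha),
    fun a ha => r a ▸ (Subgroup.mem_normalizer_iff.1 (sup_le (k fun a ha b hb => (H.L_comm hb ha).symm)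
      Subgroup.le_normalizer hy) _).1 (T_conj_L ht ha)⟩

/-- Let `O` be the image in `G`.  `O ⊓ L 0 = O ⊓ L 3 = ⊥` (`odd_normal`), `⁅O, L i⁆ ≤ O ⊓ L i`
(`C_norm`), so `O ≤ {1, j}` (`cent`), and `|O|` is odd. -/
theorem oddCore_C : Cfsg.oddCore (Subgroup.centralizer ({E.h (-1)} : Set G)) = ⊥ := by
  set C := Subgroup.centralizer ({E.h (-1)} : Set G)
  have mC : ∀ {g}, g ∈ C ↔ Commute g (E.h (-1)) := Subgroup.mem_centralizer_singleton_iff
  have ho : Odd (Nat.card ((Cfsg.oddCore C).map C.subtype)) := by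
    rw [Subgroup.card_map_of_injective C.subtype_injective]
    exact Nat.coprime_two_right.1 (Grp.pPrimeCore_coprime 2 C)
  have hn : ∀ g ∈ M.L 0 ⊔ M.L 3, ∀ o ∈ (Cfsg.oddCore C).map C.subtype,
      g * o * g⁻¹ ∈ (Cfsg.oddCore C).map C.subtype := by
    rintro g hg _ ⟨o, h, rfl⟩
    exact ⟨_, (inferInstance : (Cfsg.oddCore C).Normal).conj_mem o h
      ⟨g, mC.2 (H.cY hG hp E E' hg).symm⟩, rfl⟩
  rw [← Subgroup.map_eq_bot_iff_of_injective _ C.subtype_injective]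
  have hle := Subgroup.map_subtype_le (Cfsg.oddCore C)
  generalize (Cfsg.oddCore C).map C.subtype = O at ho hn hle
  have k : ∀ {i : ℤ} {F : Type} [Field F] [Finite F] (D : M.S2 i F), M.L i ≤ M.L 0 ⊔ M.L 3 → ∀ o ∈ O,
      (∀ a ∈ M.L i, o * a * o⁻¹ ∈ M.L i) → ∀ a ∈ M.L i, Commute o a := fun {i F} _ _ D l o h1 h2 a ha => by
    have b := D.odd_normal hp (N := O ⊓ M.L i) inf_le_right
      (fun g hg n h => Subgroup.mem_inf.2 ⟨hn g (l hg) n h.1,
        mul_mem (mul_mem hg (Subgroup.mem_inf.1 h).2) (inv_mem hg)⟩)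
      (ho.of_dvd_nat (Subgroup.card_dvd_of_le inf_le_left))
    exact commutatorElement_eq_one_iff_commute.1 (Subgroup.mem_bot.1 (b ▸ Subgroup.mem_inf.2
      ⟨by simpa [commutatorElement_def, mul_assoc] using mul_mem h1 (hn a (l ha) _ (inv_mem h1)),
        mul_mem (h2 a ha) (inv_mem ha)⟩))
  refine eq_bot_iff.2 fun o h => ?_
  have c := H.C_norm hG hp E E' (mC.1 (hle h))
  rcases H.cent hG E (k E le_sup_left o h c.1) (k E' le_sup_right o h c.2) with e | e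
  · exact e
  · exact eq_one_of_sq_odd (e ▸ E.j_sq) (ho.of_dvd_nat (O.orderOf_dvd_natCard h))

end Hx

end MP

end Cfsg.Agent.BN2
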