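import Cfsg.Agent.BN2.Rank2
import Cfsg.Agent.RootSub.Steinberg2

/-!
# Finite Moufang polygons with a fixed apartment (definitions for S1144)

`M : MP G V` is an `SP` with `n ∈ {3,4,6,8}` and an apartment `x`.  `U i` is the root group of the
root `(x i, …, x (i+n))`, `UU i j` the group generated by `U i, …, U j`, `T` the torus,
`Rf c g` says that `g` acts on the apartment as the reflection `i ↦ c - i`.
-/

set_option autoImplicit false

namespace Cfsg.Agent.BN2

open Cfsg.Agent.St Cfsg.Agent.Chev Cfsg.Agent.BNP Cfsg.Agent.RootSub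

/-- A split polygon with an apartment. -/
structure MP (G V : Type) [Group G] [MulAction G V] extends SP G V where
  hn : n = 3 ∨ n = 4 ∨ n = 6 ∨ n = 8
  x : ℤ → V
  ap : IsAp adj n x

namespace MP

variable {G V : Type} [Group G] [MulAction G V] (M : MP G V)

/-- root groups -/
def U (i : ℤ) : Subgroup G := M.toPol.X M.x i

/-- the group generated by `U i, …, U j` -/
def UU (i j : ℤ) : Subgroup G := ⨆ (k : ℤ) (_ : i ≤ k ∧ k ≤ j), M.U k

/-- the torus: pointwise stabiliser of the apartment -/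
def T : Subgroup G where
  carrier := {g | ∀ i, g • M.x i = M.x i}
  one_mem' _ := one_smul _ _
  mul_mem' ha hb i := by rw [mul_smul, hb i, ha i]
  inv_mem' ha i := inv_smul_eq_iff.2 (ha i).symm

/-- `g` acts on the apartment as the reflection `i ↦ c - i` -/
def Rf (c : ℤ) (g : G) : Prop := ∀ i, g • M.x i = M.x (c - i)

/-- the rank one group `⟨U i, U (i+n)⟩` -/
def L (i : ℤ) : Subgroup G := M.U i ⊔ M.U (i + M.n)

/-- the root groups generate -/
def Gen : Prop := ⨆ i, M.U i = ⊤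

/-- shifted apartment -/
def shift (c : ℤ) : MP G V := { M with x := fun i => M.x (i + c), ap := M.ap.shift c }

/-- reversed apartment -/
def rev (c : ℤ) : MP G V := { M with x := fun i => M.x (c - i), ap := IsAp.rev (P := M.toPol) M.ap c }

/-- `SL₂(F)`-coordinates for the rank one group `L i` -/
structure S2 (i : ℤ) (F : Type) [Field F] where
  x : F → G
  y : F → G
  st : StRel x y
  xm : ∀ t, x t ∈ M.U i
  xs : ∀ g ∈ M.U i, ∃ t, x t = g
  xi : ∀ t, x t = 1 → t = 0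
  ym : ∀ t, y t ∈ M.U (i + M.n)
  ys : ∀ g ∈ M.U (i + M.n), ∃ t, y t = g
  yi : ∀ t, y t = 1 → t = 0

/-- `M` comes from a Moufang Tits system of rank two, `U 0, …, U (n-1)` being the positive
root groups -/
def Good : Prop :=
  ∃ (W : Type) (_ : Group W) (_ : Finite W) (S : Tits G (Fin 2) W) (a b : Fin 2), a ≠ b ∧ MH S ∧
    (⨆ i, X S (rt S.s 1 i) ⊔ X S (rt S.s 1 i)ᶜ = ⊤) ∧ M.n = orderOf (S.s a * S.s b) ∧
    ∀ l : ℕ, l < M.n → X S (bt S.s a b l) = M.U l

variable {M}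

theorem line : M.toPol.Line M.x := M.ap.1

theorem mem_T {g : G} : g ∈ M.T ↔ ∀ i, g • M.x i = M.x i := Iff.rfl

theorem mem_U {i : ℤ} {g : G} : g ∈ M.U i ↔ ∀ k, i < k → k < i + M.n → g ∈ M.Q (M.x k) :=
  Pol.mem_X

theorem U_shift (c i : ℤ) : (M.shift c).U i = M.U (i + c) := Subgroup.ext fun _ =>
  (Pol.QQ_shift (P := M.toPol) (x := M.x)).trans (by
    rw [U, Pol.X, show i + 1 + c = i + c + 1 by ring]
    exact iff_of_eq (congrArg (fun k => _ ∈ M.QQ M.x (i + c + 1) k) (by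
      change i + (M.n : ℤ) - 1 + c = _; ring)))

theorem U_rev (c i : ℤ) : (M.rev c).U i = M.U (c - M.n - i) := Subgroup.ext fun _ =>
  (Pol.QQ_rev (P := M.toPol) (x := M.x)).trans (by
    rw [U, Pol.X]
    exact iff_of_eq (congrArg₂ (fun k l => _ ∈ M.QQ M.x k l) (by
      change c - (i + (M.n : ℤ) - 1) = _; ring) (by ring)))

theorem shift_n (c : ℤ) : (M.shift c).n = M.n := rfl

theorem rev_n (c : ℤ) : (M.rev c).n = M.n := rfl

theorem shift_p (c : ℤ) : (M.shift c).p = M.p := rfl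

theorem rev_p (c : ℤ) : (M.rev c).p = M.p := rfl

theorem shift_x (c i : ℤ) : (M.shift c).x i = M.x (i + c) := rfl

theorem rev_x (c i : ℤ) : (M.rev c).x i = M.x (c - i) := rfl

theorem U_le_UU {i j k : ℤ} (h1 : i ≤ k) (h2 : k ≤ j) : M.U k ≤ M.UU i j :=
  le_iSup₂_of_le (f := fun k (_ : i ≤ k ∧ k ≤ j) => M.U k) k ⟨h1, h2⟩ le_rfl

theorem UU_le {i j : ℤ} {H : Subgroup G} (h : ∀ k, i ≤ k → k ≤ j → M.U k ≤ H) : M.UU i j ≤ H :=
  iSup₂_le fun k hk => h k hk.1 hk.2

theorem UU_mono {i j i' j' : ℤ} (h1 : i' ≤ i) (h2 : j ≤ j') : M.UU i j ≤ M.UU i' j' :=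
  UU_le fun _ a b => U_le_UU (by omega) (by omega)

theorem UU_bot {i j : ℤ} (h : j < i) {g : G} (hg : g ∈ M.UU i j) : g = 1 :=
  (UU_le (H := ⊥) (fun _ a b => by omega) hg)

theorem UU_self (i : ℤ) : M.UU i i = M.U i :=
  le_antisymm (UU_le fun k a b => by rw [show k = i by omega]) (U_le_UU le_rfl le_rfl)

theorem U_le_L (i : ℤ) : M.U i ≤ M.L i := le_sup_left

theorem U_le_L' (i : ℤ) : M.U (i + M.n) ≤ M.L i := le_sup_right

/-- the Weyl element `w t` -/
def S2.w {i : ℤ} {F : Type} [Field F] (E : M.S2 i F) (t : F) : G := StRel.w E.x E.y t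

/-- the torus element `h t` -/
def S2.h {i : ℤ} {F : Type} [Field F] (E : M.S2 i F) (t : F) : G := StRel.h E.x E.y t

end MP

/-- The conclusion of S1144. -/
def Lie (G : Type*) [Group G] : Prop :=
  Cfsg.IsPSL G ∨ Cfsg.IsPSp G ∨ Cfsg.IsPSU G ∨ Cfsg.IsPOmegaOdd G ∨ Cfsg.IsPOmegaPlus G ∨
    Cfsg.IsPOmegaMinus G ∨ Cfsg.IsExceptionalLieType G

end Cfsg.Agent.BN2
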