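import Cfsg.Agent.BN2.S2
import Cfsg.Agent.BN2.Cmp

/-!
# Finite Moufang octagons (S1144): definitions

`n = 8`, the even vertices are `σ`-vertices.  For even `i`, `Vz i = Zv (x (i+4)) ≤ U i` (central
elations), `Wz i = Wv (x (i+4)) = V (i-2) U (i-1) V i U (i+1) V (i+2)`.
-/

set_option autoImplicit false
set_option linter.unusedSectionVars false

namespace Cfsg.Agent.BN2

open scoped commutatorElement

/-- exponent of `l` in the character of `h₁(l)` on the `i`-th root group -/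
def ocA (i : ℤ) : ℤ := [1, 2, 1, 0, 1, 0, -1, 0, -1, -2, -1, 0, -1, 0, 1, 0].getD (i % 16).toNat 0

/-- exponent of `σ l` in the character of `h₁(l)` on the `i`-th root group -/
def ocB (i : ℤ) : ℤ := [1, 0, 1, 1, 0, 0, 0, -1, -1, 0, -1, -1, 0, 0, 0, 1].getD (i % 16).toNat 0

/-- the character of `h₁(l)` on the `i`-th root group -/
def ocχ {F : Type*} [Field F] (σ : F →+* F) (i : ℤ) (l : F) : F := l ^ ocA i * σ l ^ ocB i

theorem ocχ_congr {F : Type*} [Field F] (σ : F →+* F) {i j : ℤ} (h : i % 16 = j % 16) (l : F) :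
    ocχ σ i l = ocχ σ j l := by simp only [ocχ, ocA, ocB, h]

theorem ocχ_ne {F : Type*} [Field F] (σ : F →+* F) (i : ℤ) {l : F} (h : l ≠ 0) : ocχ σ i l ≠ 0 :=
  mul_ne_zero (zpow_ne_zero _ h) (zpow_ne_zero _ ((map_ne_zero σ).2 h))

namespace MP

variable {G V : Type} [Group G] [MulAction G V] (M : MP G V)

/-- central elations in `U i` (`i` even) -/
def Vz (i : ℤ) : Subgroup G := M.Zv (M.x (i + 4))

/-- the abelian normal subgroup `W` of the stabiliser of `x (i+4)` (`i` even) -/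
def Wz (i : ℤ) : Subgroup G := M.Wv (M.x (i + 4))

/-- oriented octagon -/
structure Oc : Prop where
  n : M.n = 8
  sg : M.Sg (M.x 0)

/-- Coordinates: `x i` parametrises `U i` (`i` odd) and `Vz i` (`i` even). -/
structure OD (F : Type) [Field F] where
  E : M.S2 1 F
  x : ℤ → F → G
  f : G
  m : G
  two : (2 : F) = 0
  x_one : ∀ t, x 1 t = E.x t
  x_nine : ∀ t, x 9 t = E.y t
  x_add : ∀ i s t, x i (s + t) = x i s * x i t
  x_inj : ∀ i t, x i t = 1 → t = 0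
  mem_U : ∀ i t, x i t ∈ M.U i
  mem_V : ∀ i, i % 2 = 0 → ∀ t, x i t ∈ M.Vz i
  surj_U : ∀ i, i % 2 = 1 → ∀ g ∈ M.U i, ∃ t, x i t = g
  surj_V : ∀ i, i % 2 = 0 → ∀ g ∈ M.Vz i, ∃ t, x i t = g
  per : ∀ i t, x (i + 16) t = x i t
  f_mem : f ∈ M.U 0
  m_eq : m = f * x 8 1 * f⁻¹
  rf : M.Rf 0 m
  w_x : ∀ i t, E.w 1 * x i t * (E.w 1)⁻¹ = x (10 - i) t
  m_x : ∀ i t, m * x i t * m⁻¹ = x (8 - i) t
  h_four : ∀ l, l ≠ 0 → ∀ t, E.h l * x 4 t * (E.h l)⁻¹ = x 4 (l * t)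

variable {M}

namespace OD

variable {F : Type} [Field F] (D : M.OD F)

/-- the rotation by `2` -/
def ρ : G := D.E.w 1 * D.m

/-- `g` acts on `x i` as the scalar `c` -/
def Act (g : G) (i : ℤ) (c : F) : Prop := ∀ t, g * D.x i t * g⁻¹ = D.x i (c * t)

/-- The relations. -/
structure Rel (σ : F →+* F) : Prop where
  sq : ∀ l, σ (σ l) = l ^ 2
  act : ∀ l, l ≠ 0 → ∀ i, D.Act (D.E.h l) i (ocχ σ i l)
  r28 : ∀ a b, ⁅D.x 2 a, D.x 8 b⁆ = D.x 4 (σ a * b) * D.x 5 (a * b) * D.x 6 (a * σ b)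
  f3 : ∀ s, D.f⁻¹ * D.x 3 s * D.f = D.x 2 s * D.x 3 s
  f5 : ∀ s, D.f⁻¹ * D.x 5 s * D.f = D.x 2 s * D.x 3 s * D.x 4 (σ s) * D.x 5 s
  f6 : ∀ s, D.f⁻¹ * D.x 6 s * D.f = D.x 2 s * D.x 4 (σ s) * D.x 5 s * D.x 6 s

end OD

variable {G' V' : Type} [Group G'] [MulAction G' V'] (M) (M' : MP G' V')

/-- two coordinatised octagons over the same field -/
structure OP (F : Type) [Field F] where
  D : M.OD F
  D' : M'.OD F
  σ : F →+* F
  oc : M.Oc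
  oc' : M'.Oc
  R : D.Rel σ
  R' : D'.Rel σ

variable {M M'}

namespace OP

variable {F : Type} [Field F] (P : OP M M' F)

/-- pairs of root elements -/
def X (i : ℤ) (t : F) : G × G' := (P.D.x i t, P.D'.x i t)

/-- the graph `x i t ↦ x' i t` -/
def ΓX (i : ℤ) : Subgroup (G × G') :=
  (MonoidHom.mk' (fun t : Multiplicative F => P.X i t.toAdd)
    fun _ _ => Prod.ext (P.D.x_add _ _ _) (P.D'.x_add _ _ _)).range

/-- the graph on `Wz k` -/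
def Θ (k : ℤ) : Subgroup (G × G') := ⨆ (l : ℤ) (_ : k - 2 ≤ l ∧ l ≤ k + 2), P.ΓX l

/-- the graphs on the root groups -/
def Γ (i : ℤ) : Subgroup (G × G') :=
  if i % 2 = 1 then P.ΓX i
  else (M.U i).prod (M'.U i) ⊓ Subgroup.normalizer (P.Θ (i + 4) : Set (G × G'))

/-- joins of the graphs -/
def J (i j : ℤ) : Subgroup (G × G') := ⨆ (l : ℤ) (_ : i ≤ l ∧ l ≤ j), P.Γ l

/-- commutator closure for the pair `k, r` -/
def Cm (k r : ℤ) : Prop := ∀ a ∈ P.Γ k, ∀ b ∈ P.Γ r, ⁅a, b⁆ ∈ P.J (k + 1) (r - 1)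

/-- the pair of rotations -/
def ρ : G × G' := (P.D.ρ, P.D'.ρ)

/-- the pair of reflections `i ↦ 8 - i` -/
def m : G × G' := (P.D.m, P.D'.m)

/-- the pair of reflections `i ↦ 10 - i` -/
def w : G × G' := (P.D.E.w 1, P.D'.E.w 1)

/-- the pair of torus elements -/
def h (l : F) : G × G' := (P.D.E.h l, P.D'.E.h l)

/-- the pair of elements of order four -/
def f : G × G' := (P.D.f, P.D'.f)

theorem mem_ΓX {i : ℤ} {g : G × G'} : g ∈ P.ΓX i ↔ ∃ t, P.X i t = g := Iff.rfl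

theorem X_mem (i : ℤ) (t : F) : P.X i t ∈ P.ΓX i := ⟨t, rfl⟩

theorem ΓX_le_Θ {k l : ℤ} (h1 : k - 2 ≤ l) (h2 : l ≤ k + 2) : P.ΓX l ≤ P.Θ k :=
  le_iSup₂_of_le (f := fun l (_ : k - 2 ≤ l ∧ l ≤ k + 2) => P.ΓX l) l ⟨h1, h2⟩ le_rfl

theorem Θ_le {k : ℤ} {H : Subgroup (G × G')} (h : ∀ l, k - 2 ≤ l → l ≤ k + 2 → ∀ t, P.X l t ∈ H) :
    P.Θ k ≤ H := iSup₂_le fun l hl _ ⟨t, e⟩ => e ▸ h l hl.1 hl.2 t

theorem Γ_le_J {i j l : ℤ} (h1 : i ≤ l) (h2 : l ≤ j) : P.Γ l ≤ P.J i j :=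
  le_iSup₂_of_le (f := fun l (_ : i ≤ l ∧ l ≤ j) => P.Γ l) l ⟨h1, h2⟩ le_rfl

theorem J_le {i j : ℤ} {H : Subgroup (G × G')} (h : ∀ l, i ≤ l → l ≤ j → P.Γ l ≤ H) :
    P.J i j ≤ H := iSup₂_le fun l hl => h l hl.1 hl.2

theorem J_mono {i j i' j' : ℤ} (h1 : i' ≤ i) (h2 : j ≤ j') : P.J i j ≤ P.J i' j' :=
  P.J_le fun _ a b => P.Γ_le_J (by omega) (by omega)

theorem Γ_odd {i : ℤ} (h : i % 2 = 1) : P.Γ i = P.ΓX i := if_pos h

theorem mem_Γ_even {i : ℤ} (h : i % 2 = 0) {g : G × G'} : g ∈ P.Γ i ↔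
    g.1 ∈ M.U i ∧ g.2 ∈ M'.U i ∧ g ∈ Subgroup.normalizer (P.Θ (i + 4) : Set (G × G')) := by
  rw [Γ, if_neg (by omega), Subgroup.mem_inf, Subgroup.mem_prod, and_assoc]

end OP

end MP

end Cfsg.Agent.BN2
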