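import Cfsg.Agent.BN2.Oc0

/-!
# Finite Moufang octagons (S1144): the groups `V` and `W`

Translate `BN2/N8a, N8b, N8c, N8d`, `F3` (stated for a line `x` with `Sg (x 0)`; apply them to the
shifted line `fun j => M.x (j + c)`, `c` even, `IsLine.shift`, `Sg.even`, `QQ_shift`, or to reversed lines).
`U i = QQ x (i+1) (i+7)`.
-/

set_option autoImplicit false
set_option linter.unusedSectionVars false
set_option linter.unusedVariables false

namespace Cfsg.Agent.BN2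

open scoped commutatorElement

namespace MP

variable {G V : Type} [Group G] [MulAction G V] [Finite G] [Finite V] {M : MP G V}
  {i j k c : ℤ} {a b g u v w z t : G}

theorem oca_Z (a c : ℤ) (e : a + c = i + 4) : z ∈ M.Zv (M.x (a + c)) ↔ z ∈ M.Vz i := by
  rw [e]; rfl

theorem oca_W (a c : ℤ) (e : a + c = i + 4) : z ∈ M.Wv (M.x (a + c)) ↔ z ∈ M.Wz i := by
  rw [e]; rfl

theorem oca_U (hn : M.n = 8) {a b : ℤ} (e1 : a = i + 1) (e2 : b = i + 7) :
    g ∈ M.QQ M.x a b ↔ g ∈ M.U i := by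
  rw [U, Pol.X, hn, e1, e2]
  exact iff_of_eq (congrArg (fun k => g ∈ M.QQ M.x (i + 1) k) (by push_cast; ring))

theorem oca_Q (hn : M.n = 8) (a b c : ℤ) (e1 : a + c = i + 1) (e2 : b + c = i + 7) :
    g ∈ M.QQ (fun j => M.x (j + c)) a b ↔ g ∈ M.U i :=
  (Pol.QQ_shift (P := M.toPol) (x := M.x)).trans (oca_U hn e1 e2)

theorem oca_onto {A B : Subgroup G} (hc : Nat.card B = Nat.card A) (hm : ∀ u ∈ A, ⁅u, z⁆ ∈ B)
    (hi : ∀ u ∈ A, Commute u z → u = 1) (hv : v ∈ B) : ∃ u ∈ A, ⁅u, z⁆ = v := by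
  let f : A → B := fun u => ⟨⁅u.1, z⁆, hm _ u.2⟩
  have inj : Function.Injective f := fun u u' e => by
    have e' : ⁅u.1, z⁆ = ⁅u'.1, z⁆ := congrArg Subtype.val e
    have h1 : u.1 * z * u.1⁻¹ = u'.1 * z * u'.1⁻¹ := by
      simpa only [commutatorElement_def, mul_left_inj] using e'
    have := hi (u'.1⁻¹ * u.1) (mul_mem (inv_mem u'.2) u.2) (by
      change u'.1⁻¹ * u.1 * z = z * (u'.1⁻¹ * u.1)
      calc u'.1⁻¹ * u.1 * z = u'.1⁻¹ * (u.1 * z * u.1⁻¹) * u.1 := by group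
        _ = _ := by rw [h1]; group)
    exact Subtype.ext (inv_mul_eq_one.1 this).symm
  obtain ⟨u, hu⟩ := ((Nat.bijective_iff_injective_and_card f).2 ⟨inj, hc.symm⟩).2 ⟨v, hv⟩
  exact ⟨u.1, u.2, congrArg Subtype.val hu⟩

/-- `Zv_conj` -/
theorem Rf.conj_V (hn : M.n = 8) (h : M.Rf c g) (hu : u ∈ M.Vz i) (e : j = c - 8 - i) :
    g * u * g⁻¹ ∈ M.Vz j := by
  have := Pol.Zv_conj (P := M.toPol) g hu
  rw [h (i + 4), show c - (i + 4) = j + 4 by omega] at this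
  exact this

theorem Rot.conj_V (h : M.Rot c g) (hu : u ∈ M.Vz i) (e : j = i + c) : g * u * g⁻¹ ∈ M.Vz j := by
  have := Pol.Zv_conj (P := M.toPol) g hu
  rw [h (i + 4), show i + 4 + c = j + 4 by omega] at this
  exact this

theorem T_conj_V (ht : t ∈ M.T) (hu : u ∈ M.Vz i) : t * u * t⁻¹ ∈ M.Vz i := by
  exact Pol.Zv_conj' (P := M.toPol) hu (ht _)

theorem Rf.conj_W (hn : M.n = 8) (h : M.Rf c g) (hu : u ∈ M.Wz i) (e : j = c - 8 - i) :
    g * u * g⁻¹ ∈ M.Wz j := by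
  have := Pol.Wv_conj (P := M.toPol) g hu
  rw [h (i + 4), show c - (i + 4) = j + 4 by omega] at this
  exact this

theorem Rot.conj_W (h : M.Rot c g) (hu : u ∈ M.Wz i) (e : j = i + c) : g * u * g⁻¹ ∈ M.Wz j := by
  have := Pol.Wv_conj (P := M.toPol) g hu
  rw [h (i + 4), show i + 4 + c = j + 4 by omega] at this
  exact this

theorem V_per (hn : M.n = 8) (e : j = i + 16) : M.Vz j = M.Vz i := by
  rw [Vz, Vz, x_per (i := i + 4) (j := j + 4) (by omega)]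

namespace Oc

variable (H : M.Oc)
include H

theorem oca_sg (hi : i % 2 = 0) : M.Sg (M.x i) := H.sg.even line hi

theorem oca_sg' (hc : c % 2 = 0) : M.Sg ((fun j => M.x (j + c)) 0) := H.oca_sg (by omega)

theorem shift (hc : c % 2 = 0) : (M.shift c).Oc := by
  exact ⟨H.n, H.oca_sg (i := 0 + c) (by omega)⟩

theorem rev (hc : c % 2 = 0) : (M.rev c).Oc := by
  exact ⟨H.n, H.oca_sg (i := c - 0) (by omega)⟩

/-- `N8_Z` -/
theorem V_ball (hi : i % 2 = 0) : M.Vz i ≤ M.Ball 4 (M.x (i + 4)) := by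
  exact fun z hz => Pol.N8_Z H.n (H.oca_sg (by omega)) hz

/-- `QQ_of_ball`, `Zv_le_Q` -/
theorem V_le (hi : i % 2 = 0) : M.Vz i ≤ M.U i := by
  exact fun z hz => (oca_U H.n rfl rfl).1 (SP.QQ_of_ball line (SP.Zv_le_Q _ hz) (H.V_ball hi hz)
    (by omega) (by omega) (by omega))

/-- `Zv_comm`, `UU_le_A` -/
theorem V_comm (hi : i % 2 = 0) (hz : z ∈ M.Vz i) (hu : u ∈ M.U j) (h1 : i - 4 ≤ j)
    (h2 : j ≤ i + 4) : Commute z u := by
  have := H.n
  exact (SP.R_comm_Zv line (U_le_R (i := j) le_rfl le_rfl (by omega) hu) (by omega)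
    (k := i + 4) (by omega) (by omega) hz).symm

/-- `N8_odd`, `card_U`, `card_Zv_of_ty` -/
theorem card_V (hi : i % 2 = 0) (hj : j % 2 = 1) : Nat.card (M.Vz i) = Nat.card (M.U j) := by
  rw [card_U, Pol.sz_of_ty (Pol.ty_even (i := 1) (j := j) line (by omega)),
    (SP.N8_odd H.n line H.sg).2.2.2.2]
  exact Pol.card_Zv_of_ty (Pol.ty_even (i := 0) (j := i + 4) line (by omega))

theorem exists_V (hi : i % 2 = 0) : ∃ z ∈ M.Vz i, z ≠ 1 := by
  exact SP.N8c_ex H.n (H.oca_sg (by omega))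

/-- `N8_odd` -/
theorem U_le_W (hk : k % 2 = 0) (h : j = k - 1 ∨ j = k + 1) : M.U j ≤ M.Wz k := by
  obtain ⟨h1, h2, -⟩ := SP.N8d_odd H.n line H.sg j (j + 1) (j + 3) (j + 5) (j + 7) (j + 8)
  intro g hg
  have hg' := (oca_U H.n rfl rfl).2 hg
  rcases h with h | h
  · exact (oca_W j 5 (by omega)).1 (h2 hg')
  · exact (oca_W j 3 (by omega)).1 (h1 hg')

/-- `Zv_Wv` -/
theorem V_le_W (h : i = k - 2 ∨ i = k ∨ i = k + 2) : M.Vz i ≤ M.Wz k := by
  exact Pol.Zv_Wv line (by omega)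

/-- `N8_W_comm` -/
theorem W_comm (hk : k % 2 = 0) (hu : u ∈ M.Wz k) (hw : w ∈ M.Wz k) : Commute u w := by
  exact SP.N8_W_comm H.n (H.oca_sg (by omega)) hu hw

/-- `Wv_conj'`, `UU_fix` -/
theorem W_conj (hg : g ∈ M.UU (k - 4) (k + 4)) (hw : w ∈ M.Wz k) : g * w * g⁻¹ ∈ M.Wz k := by
  have := H.n
  exact Pol.Wv_conj' (P := M.toPol) hw (UU_fix hg le_rfl (by omega))

/-- `N8_QW`, `Q_eq` -/
theorem QW (hk : k % 2 = 0) (hg : g ∈ M.UU (k - 3) (k + 3)) (hw : w ∈ M.Wz k) :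
    ⁅g, w⁆ ∈ M.Vz k := by
  have := H.n
  refine SP.N8_QW H.n (H.oca_sg (by omega)) ?_ hw
  rw [Q_eq]
  exact UU_mono (by omega) (by omega) hg

/-- `N8_Wdec`, `W_comm` -/
theorem W_dec (hk : k % 2 = 0) (hw : w ∈ M.Wz k) : ∃ a ∈ M.Vz (k - 2), ∃ b ∈ M.U (k - 1),
    ∃ c ∈ M.Vz k, ∃ d ∈ M.U (k + 1), ∃ e ∈ M.Vz (k + 2), w = a * b * c * d * e := by
  obtain ⟨z0, h0, z4, h4, a, ha, b, hb, z2, h2, e⟩ := SP.N8_Wdec H.n (line.shift (k + 2))
    (H.oca_sg' (by omega)) ((oca_W 2 (k + 2) (by ring)).2 hw)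
  replace h0 := (oca_Z (i := k - 2) 0 (k + 2) (by ring)).1 h0
  replace h4 := (oca_Z (i := k + 2) 4 (k + 2) (by ring)).1 h4
  replace h2 := (oca_Z (i := k) 2 (k + 2) (by ring)).1 h2
  replace ha := (oca_Q (i := k - 1) H.n (-2) 4 (k + 2) (by ring) (by ring)).1 ha
  replace hb := (oca_Q (i := k + 1) H.n 0 6 (k + 2) (by ring) (by ring)).1 hb
  have w4 := H.V_le_W (k := k) (by omega) h4
  have w2 := H.V_le_W (k := k) (by omega) h2
  have wa := H.U_le_W hk (by omega) ha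
  have wb := H.U_le_W hk (by omega) hb
  refine ⟨z0, h0, a, ha, z2, h2, b, hb, z4, h4, ?_⟩
  have c1 := (H.W_comm hk w4 (mul_mem (mul_mem wa wb) w2)).eq
  have c2 := (H.W_comm hk wb w2).eq
  calc w = z0 * (z4 * (a * b * z2)) := by rw [e]; group
    _ = z0 * a * (b * z2) * z4 := by rw [c1]; group
    _ = _ := by rw [c2]; group

theorem W_le (hk : k % 2 = 0) : M.Wz k ≤ M.UU (k - 2) (k + 2) := by
  intro w hw
  obtain ⟨a, ha, b, hb, c, hc, d, hd, e, he, rfl⟩ := H.W_dec hk hw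
  exact mul_mem (mul_mem (mul_mem (mul_mem (U_le_UU (by omega) (by omega) (H.V_le (by omega) ha))
    (U_le_UU (by omega) (by omega) hb)) (U_le_UU (by omega) (by omega) (H.V_le hk hc)))
    (U_le_UU (by omega) (by omega) hd)) (U_le_UU (by omega) (by omega) (H.V_le (by omega) he))

theorem oca_four (hi : i % 2 = 1) (ha : a ∈ M.U i) (hb : b ∈ M.U (i + 4)) : Commute a b := by
  have := H.n
  have h1 : ⁅b, a⁆ ∈ M.Vz (i + 1) := H.QW (by omega) (U_le_UU (by omega) (by omega) hb)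
    (H.U_le_W (by omega) (by omega) ha)
  have h2 : ⁅a, b⁆ ∈ M.Vz (i + 3) := H.QW (by omega) (U_le_UU (by omega) (by omega) ha)
    (H.U_le_W (by omega) (by omega) hb)
  rw [← commutatorElement_inv, inv_mem_iff] at h1
  exact commutatorElement_eq_one_iff_commute.1 (U_inf_UU (j := i + 3) (H.V_le (by omega) h1)
    (U_le_UU (by omega) le_rfl (H.V_le (by omega) h2)) (by omega))

/-- distance `0, 2`: `W_comm`; distance `4`: `QW` twice gives `⁅a,b⁆ ∈ V (i+1) ⊓ V (i+3) = 1`. -/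
theorem odd_comm (hi : i % 2 = 1) (hj : j % 2 = 1) (ha : a ∈ M.U i) (hb : b ∈ M.U j)
    (h1 : i - 4 ≤ j) (h2 : j ≤ i + 4) : Commute a b := by
  obtain h | h | h | h : j = i - 4 ∨ (j = i - 2 ∨ j = i) ∨ j = i + 2 ∨ j = i + 4 := by omega
  · exact (H.oca_four hj hb (by rwa [show j + 4 = i by omega])).symm
  · exact H.W_comm (k := i - 1) (by omega) (H.U_le_W (by omega) (by omega) ha)
      (H.U_le_W (by omega) (by omega) hb)
  · exact H.W_comm (k := i + 1) (by omega) (H.U_le_W (by omega) (by omega) ha)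
      (H.U_le_W (by omega) (by omega) hb)
  · exact H.oca_four hi ha (h ▸ hb)

/-- `odd_comm`, `U_per`, `commute_L` -/
theorem L_comm (hi : i % 2 = 1) (ha : a ∈ M.L i) (hb : b ∈ M.L (i + 4)) : Commute a b := by
  have := H.n
  refine (S2.commute_L (fun u hu => ?_) (fun u hu => ?_) ha).symm
  · refine (S2.commute_L (fun v hv => ?_) (fun v hv => ?_) hb).symm
    · exact H.odd_comm hi (by omega) hu hv (by omega) (by omega)
    · rw [U_per (i := i - 4) (by omega)] at hv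
      exact H.odd_comm hi (by omega) hu hv (by omega) (by omega)
  · refine (S2.commute_L (fun v hv => ?_) (fun v hv => ?_) hb).symm
    · exact H.odd_comm (by omega) (by omega) hu hv (by omega) (by omega)
    · exact H.odd_comm (by omega) (by omega) hu hv (by omega) (by omega)

/-- `nb_centre` (for the line or the reversed line), `fix_between` -/
theorem fix_of_V (hi : i % 2 = 0) (hz : z ∈ M.Vz i) (h1 : z ≠ 1) (hc : Commute g z)
    (h2 : i ≤ j) (h3 : j ≤ i + 8) (hf : g • M.x j = M.x j) (h4 : (j ≤ k ∧ k ≤ i + 4) ∨ (i + 4 ≤ k ∧ k ≤ j)) :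
    g • M.x k = M.x k := by
  have hn := H.n
  have hm := Pol.N8_m (P := M.toPol) H.n
  have hb : z ∈ M.Ball M.m (M.x (i + 4)) := by rw [hm]; exact H.V_ball hi hz
  have hc4 : g • M.x (i + 4) = M.x (i + 4) := by
    rcases le_total (i + 4) j with h | h
    · refine Pol.nb_centre (P := M.toPol) (by omega) line hb h1 hc.eq (j - (i + 4)).toNat
        (by omega) ?_
      rwa [show i + 4 + ((j - (i + 4)).toNat : ℤ) = j by omega]
    · have := Pol.nb_centre (P := M.toPol) (by omega) (line.rev (i + 4)) (c := 0) (w := z) (k := g)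
        (by simpa using hb) h1 hc.eq (i + 4 - j).toNat (by omega) (by
          rwa [show i + 4 - (0 + ((i + 4 - j).toNat : ℤ)) = j by omega])
      simpa using this
  rcases h4 with h | h
  · exact Pol.fix_between (P := M.toPol) line (by omega) hf hc4 h.1 h.2
  · exact Pol.fix_between (P := M.toPol) line (by omega) hc4 hf h.1 h.2

/-- `u` fixes `x (j+8)`, hence `x (j+9)` (`fix_of_V`); `U_eq_one'`.  (`5 ≤ i - j ≤ 7`) -/
theorem eq_one_of_V (hi : i % 2 = 0) (hz : z ∈ M.Vz i) (h1 : z ≠ 1) (hu : u ∈ M.U j)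
    (hc : Commute u z) (h : (j + 5 ≤ i ∧ i ≤ j + 8) ∨ (i + 5 ≤ j ∧ j ≤ i + 8)) : u = 1 := by
  have hn := H.n
  rcases h with h | h
  · have := H.fix_of_V (j := j + M.n) (k := j + M.n + 1) hi hz h1 hc (by omega) (by omega)
      (U_fix hu (by omega) le_rfl) (by omega)
    exact U_eq_one' hu (line.1 _) (line.ne' (by ring)) this
  · have := H.fix_of_V (j := j) (k := j - 1) hi hz h1 hc (by omega) (by omega)
      (U_fix hu le_rfl (by omega)) (by omega)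
    exact U_eq_one hu (line.adj_pred (by ring)) (line.ne' (by ring)).symm this

/-- `⁅u,z⁆ ∈ Vv (x (i+8)) = V (i+3) V (i+5)` (`N8_V`, `comm_Vv`) and in `UU (i+1) (i+4)` -/
theorem comm5 (hi : i % 2 = 1) (hu : u ∈ M.U i) (hz : z ∈ M.Vz (i + 5)) : ⁅u, z⁆ ∈ M.Vz (i + 3) := by
  have hn := H.n
  have h1 : z ∈ M.Vv (M.x (1 + (i + 7))) := Pol.Zv_le_Vv (line.adj' (by ring)) hz
  obtain ⟨a, ha, b, hb, e⟩ := SP.N8_V H.n (line.shift (i + 7)) (H.oca_sg' (by omega))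
    (Pol.comm_Vv h1 (U_fix hu (by omega) (by omega))).1
  replace ha := (oca_Z (i := i + 3) 0 (i + 7) (by ring)).1 ha
  replace hb := (oca_Z (i := i + 5) 2 (i + 7) (by ring)).1 hb
  have h2 := comm hu (H.V_le (by omega) hz) (by omega) (by omega)
  rw [e, Subgroup.mul_mem_cancel_left _ (U_le_UU (by omega) (by omega) (H.V_le (by omega) ha))] at h2
  rwa [e, U_inf_UU' (H.V_le (by omega) hb) h2 (by omega), mul_one]

theorem comm5' (hi : i % 2 = 1) (hu : u ∈ M.U i) (hz : z ∈ M.Vz (i - 5)) : ⁅u, z⁆ ∈ M.Vz (i - 3) := by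
  have hn := H.n
  have h1 : z ∈ M.Vv (M.x (1 + (i - 1))) := Pol.Zv_le_Vv (line.adj_pred (by ring)) hz
  obtain ⟨a, ha, b, hb, e⟩ := SP.N8_V H.n (line.shift (i - 1)) (H.oca_sg' (by omega))
    (Pol.comm_Vv h1 (U_fix hu (by omega) (by omega))).1
  replace ha := (oca_Z (i := i - 5) 0 (i - 1) (by ring)).1 ha
  replace hb := (oca_Z (i := i - 3) 2 (i - 1) (by ring)).1 hb
  have h2 := comm (H.V_le (by omega) hz) hu (by omega) (by omega)
  rw [← commutatorElement_inv, inv_mem_iff, e,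
    Subgroup.mul_mem_cancel_right _ (U_le_UU (by omega) (by omega) (H.V_le (by omega) hb))] at h2
  rwa [e, U_inf_UU (H.V_le (by omega) ha) h2 (by omega), one_mul]

/-- `u ↦ ⁅u,z⁆` is an injective homomorphism (`eq_one_of_V`); `card_V` -/
theorem onto5 (hi : i % 2 = 1) (hz : z ∈ M.Vz (i + 5)) (h1 : z ≠ 1) (hv : v ∈ M.Vz (i + 3)) :
    ∃ u ∈ M.U i, ⁅u, z⁆ = v := by
  exact oca_onto (H.card_V (by omega) hi) (fun u hu => H.comm5 hi hu hz)
    (fun u hu hc => H.eq_one_of_V (by omega) hz h1 hu hc (by omega)) hv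

theorem onto5' (hi : i % 2 = 1) (hz : z ∈ M.Vz (i - 5)) (h1 : z ≠ 1) (hv : v ∈ M.Vz (i - 3)) :
    ∃ u ∈ M.U i, ⁅u, z⁆ = v := by
  exact oca_onto (H.card_V (by omega) hi) (fun u hu => H.comm5' hi hu hz)
    (fun u hu hc => H.eq_one_of_V (by omega) hz h1 hu hc (by omega)) hv

theorem qm (hi : i % 2 = 1) : M.QM i (M.Vz (i + 3)) (M.Vz (i + 5)) ⊥ := by
  have hn := H.n
  have nn : ∀ a : G, ∀ n ∈ (⊥ : Subgroup G), a * n * a⁻¹ ∈ (⊥ : Subgroup G) := fun a n hn => by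
    rw [Subgroup.mem_bot.1 hn]; simp
  have cc : ∀ {a b : G}, Commute a b → ⁅a, b⁆ ∈ (⊥ : Subgroup G) := fun h =>
    Subgroup.mem_bot.2 (commutatorElement_eq_one_iff_commute.2 h)
  refine ⟨fun a _ => nn a, fun a _ => nn a, fun a _ => nn a, fun a _ => nn a,
    fun a ha b hb => cc (H.V_comm (by omega) ha (H.V_le (by omega) hb) (by omega) (by omega)),
    fun a ha b hb => cc (H.V_comm (by omega) ha (H.V_le (by omega) hb) (by omega) (by omega)),
    fun a ha b hb => cc (H.V_comm (by omega) ha (H.V_le (by omega) hb) (by omega) (by omega)),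
    fun a ha b hb e => ?_,
    fun u hu a ha => cc (H.V_comm (by omega) ha hu (by omega) (by omega)).symm,
    fun u hu b hb => ⟨_, H.comm5 hi hu hb, Subgroup.mem_bot.2 (inv_mul_cancel _)⟩,
    fun u hu a ha => cc (H.V_comm (by omega) ha hu (by omega) (by omega)).symm,
    fun u hu a ha => ⟨⁅u, a⁆, ?_, Subgroup.mem_bot.2 (inv_mul_cancel _)⟩, fun m hm a ha => ?_, fun m hm a ha => ?_⟩
  · refine Subgroup.mem_bot.2 (U_inf_UU (j := i + 5) (H.V_le (by omega) ha) ?_ (by omega))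
    rw [eq_inv_of_mul_eq_one_left (Subgroup.mem_bot.1 e)]
    exact inv_mem (U_le_UU (by omega) le_rfl (H.V_le (by omega) hb))
  · have := H.comm5' (i := i + M.n) (by omega) hu (z := a)
      (by rwa [show i + M.n - 5 = i + 3 by omega])
    rwa [show i + M.n - 3 = i + 5 by omega] at this
  · rw [V_per (i := i - 11) hn (by omega)]
    exact hm.conj_V hn ha (by omega)
  · rw [V_per (i := i - 13) hn (by omega)]
    exact hm.conj_V hn ha (by omega)

/-- `N8_comm` -/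
theorem VV (hk : k % 2 = 0) (hu : u ∈ M.Vz k) (hw : w ∈ M.Vz (k + 6)) :
    ∃ a ∈ M.Vz (k + 2), ∃ b ∈ M.U (k + 3), ∃ c ∈ M.Vz (k + 4), ⁅u, w⁆ = a * b * c ∧
      (u ≠ 1 → w ≠ 1 → a ≠ 1 ∧ c ≠ 1) := by
  obtain ⟨a, ha, b, hb, c, hc, -, -, e, h⟩ := SP.N8_comm H.n (line.shift (k + 4))
    (H.oca_sg' (by omega)) ((oca_Z 0 (k + 4) (by ring)).2 hu) ((oca_Z 6 (k + 4) (by ring)).2 hw)
  exact ⟨a, (oca_Z 2 (k + 4) (by ring)).1 ha, b, (oca_Q H.n 0 6 (k + 4) (by ring) (by ring)).1 hb,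
    c, (oca_Z 4 (k + 4) (by ring)).1 hc, e, h⟩

/-- `N8_xi` -/
theorem VV_onto (hk : k % 2 = 0) (hu : u ∈ M.Vz k) (h1 : u ≠ 1) (hb : b ∈ M.U (k + 3)) :
    ∃ w ∈ M.Vz (k + 6), ∃ a ∈ M.Vz (k + 2), ∃ c ∈ M.Vz (k + 4), ⁅u, w⁆ = a * b * c := by
  obtain ⟨w, hw, a, ha, c, hc, e⟩ := SP.N8_xi H.n (line.shift (k + 4))
    (H.oca_sg' (by omega)) ((oca_Z 0 (k + 4) (by ring)).2 hu) h1
    ((oca_Q H.n 0 6 (k + 4) (by ring) (by ring)).2 hb)
  exact ⟨w, (oca_Z 6 (k + 4) (by ring)).1 hw, a, (oca_Z 2 (k + 4) (by ring)).1 ha,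
    c, (oca_Z 4 (k + 4) (by ring)).1 hc, e⟩

/-- `N8_mul_left` -/
theorem VV_left (hk : k % 2 = 0) (hu : u ∈ M.Vz k) (hv : v ∈ M.Vz k) (hw : w ∈ M.Vz (k + 6)) :
    ⁅u * v, w⁆ = ⁅u, w⁆ * ⁅v, w⁆ := by
  exact SP.N8_mul_left H.n (line.shift (k + 4)) (H.oca_sg' (by omega))
    ((oca_Z 0 (k + 4) (by ring)).2 hu) ((oca_Z 0 (k + 4) (by ring)).2 hv)
    ((oca_Z 6 (k + 4) (by ring)).2 hw)

/-- `N8_mul_right` -/
theorem VV_right (hk : k % 2 = 0) (hu : u ∈ M.Vz k) (hv : v ∈ M.Vz (k + 6))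
    (hw : w ∈ M.Vz (k + 6)) : ⁅u, v * w⁆ = ⁅u, v⁆ * ⁅u, w⁆ := by
  exact SP.N8_mul_right H.n (line.shift (k + 4)) (H.oca_sg' (by omega))
    ((oca_Z 0 (k + 4) (by ring)).2 hu) ((oca_Z 6 (k + 4) (by ring)).2 hv)
    ((oca_Z 6 (k + 4) (by ring)).2 hw)

end Oc

end MP

end Cfsg.Agent.BN2
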