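import Cfsg.Agent.RootSub.Steinberg2
import Cfsg.Agent.Proj.ArtinZorn

/-!
# Quadratic representations of rank one groups: the ring theoretic part (S1144)
-/

set_option autoImplicit false
set_option linter.unusedSectionVars false
set_option linter.unusedVariables false

namespace Cfsg.Agent.BN2.SL2Q

open Cfsg.Agent.RootSub

variable {Γ R : Type} [Group Γ] [Ring R] {ρ : Γ →* R} {U V : Subgroup Γ} {Rf : Γ → Prop}
  {u u' m : Γ} {φ ψ s t : R}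

/-- `ρ` is a quadratic representation of the rank one group `⟨U, V⟩`. -/
structure Dt (ρ : Γ →* R) (U V : Subgroup Γ) (Rf : Γ → Prop) : Prop where
  nt : (1 : R) ≠ 0
  UU : ∀ u ∈ U, ∀ u' ∈ U, (ρ u - 1) * (ρ u' - 1) = 0
  VV : ∀ u ∈ V, ∀ u' ∈ V, (ρ u - 1) * (ρ u' - 1) = 0
  mu : ∀ u ∈ U, u ≠ 1 → ∃ l ∈ V, ∃ r ∈ V, Rf (l * u * r) ∧
    (ρ u - 1) * (ρ r - 1) + (ρ l - 1) * (ρ u - 1) = -1
  mv : ∀ u ∈ V, u ≠ 1 → ∃ l ∈ U, ∃ r ∈ U, Rf (l * u * r) ∧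
    (ρ u - 1) * (ρ r - 1) + (ρ l - 1) * (ρ u - 1) = -1
  cU : ∀ m, Rf m → ∀ u ∈ U, m * u * m⁻¹ ∈ V
  cV : ∀ m, Rf m → ∀ u ∈ V, m * u * m⁻¹ ∈ U
  inv : ∀ m, Rf m → Rf m⁻¹

theorem inv_eq {a : R} (h : ρ m * a = 1) : ρ m⁻¹ = a := by
  rw [← mul_one (ρ _), ← h, ← mul_assoc, ← map_mul, inv_mul_cancel, map_one, one_mul]

namespace Dt

variable (D : Dt ρ U V Rf)
include D

theorem symm : Dt ρ V U Rf := ⟨D.nt, D.VV, D.UU, D.mv, D.mu, D.cV, D.cU, D.inv⟩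

theorem add (hu : u ∈ U) (hu' : u' ∈ U) : ρ (u * u') = ρ u + ρ u' - 1 := by
  rw [map_mul, ← sub_eq_zero, ← D.UU u hu u' hu']; noncomm_ring

theorem inj (hu : u ∈ U) (hu' : u' ∈ U) (e : ρ u = ρ u') : u = u' := by
  by_contra n
  obtain ⟨l, -, r, -, -, k⟩ := D.mu _ (mul_mem (inv_mem hu) hu') fun k => n (inv_mul_eq_one.1 k)
  rw [map_mul, ← e, ← map_mul, inv_mul_cancel, map_one, sub_self, zero_mul, mul_zero, add_zero] at k
  exact D.nt (neg_eq_zero.1 k.symm)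

theorem mu2 (hu : u ∈ U) (h1 : u ≠ 1) : ∃ l ∈ V, Rf (l * u * l) ∧
    (ρ u - 1) * (ρ l - 1) + (ρ l - 1) * (ρ u - 1) = -1 ∧ ρ (l * u * l) = (ρ u - 1) + (ρ l - 1) := by
  obtain ⟨l, hl, r, hr, h, k⟩ := D.mu u hu h1
  have e := D.VV l hl l hl
  have e1 := congrArg ((ρ l - 1) * ·) k
  have e2 := congrArg (· * (ρ r - 1)) k
  simp only [mul_add, add_mul] at e1 e2
  rw [← mul_assoc (ρ l - 1) (ρ l - 1), e, zero_mul, add_zero] at e1
  rw [mul_assoc, D.VV r hr r hr, mul_zero, zero_add, mul_assoc, e1, mul_neg_one, neg_one_mul] at e2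
  obtain rfl := D.symm.inj hl hr (sub_left_injective (neg_injective e2))
  refine ⟨l, hl, h, k, ?_⟩
  rw [map_mul, map_mul]
  calc _ = 1 + ((ρ u - 1) * (ρ l - 1) + (ρ l - 1) * (ρ u - 1)) + (ρ l - 1) * (ρ l - 1) +
        (ρ l - 1) * ((ρ u - 1) * (ρ l - 1)) + (ρ l - 1) + (ρ u - 1 + (ρ l - 1)) := by noncomm_ring
    _ = _ := by rw [k, e, e1]; noncomm_ring

end Dt

/-- matrix units -/
structure D2 (ρ : Γ →* R) (U V : Subgroup Γ) (Rf : Γ → Prop) (φ ψ : R) : Prop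
    extends Dt ρ U V Rf where
  eU : ∃ e ∈ U, ρ e - 1 = φ
  eV : ∃ e ∈ V, ρ e - 1 = ψ
  one : φ * ψ + ψ * φ = 1
  em : ∃ m, Rf m ∧ ρ m = φ - ψ

theorem Dt.exD2 (D : Dt ρ U V Rf) (hu : u ∈ U) (h1 : u ≠ 1) : ∃ φ ψ, D2 ρ U V Rf φ ψ := by
  obtain ⟨l, hl, h, k, e⟩ := D.mu2 hu h1
  refine ⟨ρ u - 1, -(ρ l - 1), D, ⟨u, hu, rfl⟩, ⟨l⁻¹, inv_mem hl, ?_⟩, ?_, _, h, by rw [e, sub_neg_eq_add]⟩
  · have := D.symm.add hl (inv_mem hl)
    rw [mul_inv_cancel, map_one] at this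
    rw [eq_neg_iff_add_eq_zero, ← sub_self (1 : R)]
    conv_rhs => lhs; rw [this]
    noncomm_ring
  · rw [mul_neg, neg_mul, ← neg_add, k, neg_neg]

/-- the coordinates of `U` -/
def J (ρ : Γ →* R) (U : Subgroup Γ) (φ ψ t : R) : Prop :=
  Commute t φ ∧ Commute t ψ ∧ ∃ u ∈ U, ρ u - 1 = t * φ

namespace D2

variable (D : D2 ρ U V Rf φ ψ)
include D

theorem sq : φ * φ = 0 := by
  obtain ⟨e, he, rfl⟩ := D.eU
  exact D.UU e he e he

theorem sq' : ψ * ψ = 0 := by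
  obtain ⟨e, he, rfl⟩ := D.eV
  exact D.VV e he e he

theorem minv (h : ρ m = φ - ψ) : ρ m⁻¹ = ψ - φ := inv_eq (by
  rw [h, ← D.one, sub_mul, mul_sub, mul_sub, D.sq, D.sq']; noncomm_ring)

theorem symm : D2 ρ V U Rf ψ φ :=
  ⟨D.toDt.symm, D.eV, D.eU, (add_comm _ _).trans D.one,
    D.em.elim fun m h => ⟨_, D.inv m h.1, D.minv h.2⟩⟩

theorem tri : φ * ψ * φ = φ := by
  have := congrArg (· * φ) D.one
  simpa only [add_mul, mul_assoc ψ, D.sq, mul_zero, add_zero, one_mul] using this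

theorem eq0 (h : Commute t ψ) (e : t * φ = 0) : t = 0 := by
  rw [← mul_one t, ← D.one, mul_add, ← mul_assoc, ← mul_assoc, h.eq, mul_assoc ψ, e]; simp

theorem exJ (hu : u ∈ U) : ∃ t, J ρ U φ ψ t ∧ ρ u - 1 = t * φ := by
  obtain ⟨e, he, k⟩ := D.eU
  have h1 : (ρ u - 1) * φ = 0 := k ▸ D.UU u hu e he
  have h2 : φ * (ρ u - 1) = 0 := k ▸ D.UU e he u hu
  have h3 := congrArg ((ρ u - 1) * ·) D.one
  have h4 := congrArg (· * (ρ u - 1)) D.one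
  simp only [mul_add, add_mul, ← mul_assoc, h1, zero_mul, zero_add, mul_one, one_mul] at h3 h4
  rw [mul_assoc ψ, h2, mul_zero, add_zero] at h4
  have e1 : ((ρ u - 1) * ψ + ψ * (ρ u - 1)) * φ = ρ u - 1 := by
    rw [add_mul, h3, mul_assoc, h1, mul_zero, add_zero]
  refine ⟨_, ⟨?_, ?_, u, hu, e1.symm⟩, e1.symm⟩
  · rw [Commute, SemiconjBy, e1, mul_add, ← mul_assoc, ← mul_assoc, h2, h4, zero_mul, zero_add]
  · rw [Commute, SemiconjBy, mul_add, add_mul, mul_assoc, D.sq', ← mul_assoc ψ ψ, D.sq', mul_assoc]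
    simp

theorem JJ (h : J ρ U φ ψ t) : J ρ V ψ φ (-t) := by
  obtain ⟨h1, h2, u, hu, e⟩ := h
  obtain ⟨m, hm, k⟩ := D.em
  refine ⟨h2.neg_left, h1.neg_left, _, D.cU m hm u hu, ?_⟩
  have e1 : ρ m * ρ m⁻¹ = 1 := by rw [← map_mul, mul_inv_cancel, map_one]
  rw [map_mul, map_mul, eq_add_of_sub_eq e, mul_add, add_mul, mul_one, e1, add_sub_cancel_right,
    D.minv k, k, ← mul_assoc, ← (h1.sub_right h2).eq, mul_assoc t, mul_assoc t, sub_mul, D.sq,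
    zero_sub, neg_mul, mul_sub, D.symm.tri, mul_assoc, D.sq]
  simp

theorem Jadd (h : J ρ U φ ψ t) (h' : J ρ U φ ψ s) : J ρ U φ ψ (t + s) := by
  obtain ⟨h1, h2, u, hu, e⟩ := h
  obtain ⟨h1', h2', u', hu', e'⟩ := h'
  refine ⟨h1.add_left h1', h2.add_left h2', _, mul_mem hu hu', ?_⟩
  rw [D.add hu hu', add_mul, ← e, ← e']; noncomm_ring

theorem Jneg (h : J ρ U φ ψ t) : J ρ U φ ψ (-t) := by
  obtain ⟨h1, h2, u, hu, e⟩ := h
  refine ⟨h1.neg_left, h2.neg_left, _, inv_mem hu, ?_⟩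
  have := D.add hu (inv_mem hu)
  rw [mul_inv_cancel, map_one] at this
  rw [neg_mul, ← e, eq_neg_iff_add_eq_zero, ← sub_self (1 : R)]
  conv_rhs => lhs; rw [this]
  noncomm_ring

theorem JV (h : J ρ U φ ψ t) : J ρ V ψ φ t := neg_neg t ▸ D.symm.Jneg (D.JJ h)

theorem ts (h1 : Commute t φ) (h2 : Commute t ψ) (h3 : Commute s φ) (h4 : Commute s ψ)
    (e : t * φ * (s * ψ) + s * ψ * (t * φ) = -1) : t * s = -1 := by
  refine eq_neg_of_add_eq_zero_left (D.eq0 ((h2.mul_left h4).add_left (Commute.one_left _)) ?_)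
  have := congrArg (· * φ) e
  simp only [add_mul] at this
  rw [mul_assoc _ (t * φ), mul_assoc t φ φ, D.sq, mul_zero, mul_zero, add_zero, mul_assoc t,
    ← mul_assoc φ, ← h3.eq, mul_assoc t, mul_assoc s, mul_assoc s, D.tri, ← mul_assoc] at this
  rw [add_mul, this]; simp

theorem Jinv (h : J ρ U φ ψ t) (h0 : t ≠ 0) : ∃ s, J ρ U φ ψ s ∧ t * s = 1 ∧ s * t = 1 := by
  obtain ⟨h1, h2, u, hu, e⟩ := h
  obtain ⟨l, hl, -, k, -⟩ := D.mu2 hu fun k => h0 (D.eq0 h2 (by rw [← e, k, map_one, sub_self]))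
  obtain ⟨s, hs, e'⟩ := D.symm.exJ hl
  rw [e, e'] at k
  refine ⟨-s, D.symm.JV (D.symm.Jneg hs), ?_, ?_⟩
  · rw [mul_neg, D.ts h1 h2 hs.2.1 hs.1 k, neg_neg]
  · rw [neg_mul, D.symm.ts hs.1 hs.2.1 h2 h1 ((add_comm _ _).trans k), neg_neg]

/-- `J` as an additive subgroup -/
def JA : AddSubgroup R where
  carrier := {t | J ρ U φ ψ t}
  zero_mem' := ⟨Commute.zero_left _, Commute.zero_left _, 1, one_mem _, by simp⟩
  add_mem' := D.Jadd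
  neg_mem' := D.Jneg

end D2

/-- A finite quadratic Jordan division ring is a field. -/
theorem jordan_field [Finite R] (J : AddSubgroup R) (h1 : (1 : R) ∈ J) (nt : (1 : R) ≠ 0)
    (hJ : ∀ a ∈ J, a ≠ 0 → ∃ b ∈ J, a * b = 1 ∧ b * a = 1) :
    ∃ (F : Type) (_ : Field F) (_ : Fintype F) (ι : F →+* R), Function.Injective ι ∧
      ∀ t, t ∈ J ↔ ∃ a, ι a = t := by
  have hJ' : ∀ b ∈ J, b ≠ 0 → ∃ a ∈ J, a * b = 1 ∧ b * a = 1 := fun b hb h =>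
    (hJ b hb h).imp fun a k => ⟨k.1, k.2.symm⟩
  have hc := Proj.jordan_comm J J h1 hJ hJ'
  have hh : ∀ a ∈ J, ∀ b ∈ J, a * b * a ∈ J := fun a ha b hb => Proj.hua_mem J J hJ hJ' ha hb
  have hs : ∀ a ∈ J, a * a ∈ J := fun a ha => by simpa using hh a ha 1 h1
  have hm : ∀ a ∈ J, ∀ b ∈ J, a * b ∈ J := fun a ha b hb => by
    by_cases h2 : (1 + 1 : R) = 0
    · have : Function.Injective fun c : J => (⟨c * c, hs c c.2⟩ : J) := fun c d e => by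
        have e : (c : R) * c = d * d := congrArg Subtype.val e
        by_contra n
        obtain ⟨k, -, e1, -⟩ := hJ _ (sub_mem c.2 d.2) (sub_ne_zero.2 fun k => n (Subtype.ext k))
        have : ((c : R) - d) * (c - d) = 0 := by
          rw [sub_mul, mul_sub, mul_sub, e, hc c c.2 d d.2, ← zero_mul ((d : R) * d - d * c), ← h2]
          noncomm_ring
        refine nt ?_
        rw [← e1, ← mul_one (_ - _), ← e1, ← mul_assoc, this]; simp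
      obtain ⟨c, e⟩ := Finite.surjective_of_injective this ⟨a, ha⟩
      obtain rfl : (c : R) * c = a := congrArg Subtype.val e
      rw [mul_assoc, hc c c.2 b hb, ← mul_assoc]
      exact hh c c.2 b hb
    · obtain ⟨c, hc', e1, e2⟩ := hJ _ (add_mem h1 h1) h2
      have k := hh c hc' _ (sub_mem (sub_mem (hs _ (add_mem ha hb)) (hs a ha)) (hs b hb))
      convert add_mem k k using 1
      calc _ = c * (1 + 1) * (a * b) * ((1 + 1) * c) := by rw [e1, e2, one_mul, mul_one]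
        _ = c * (a * b + a * b) * c + c * (a * b + a * b) * c := by noncomm_ring
        _ = _ := by
          conv_lhs => rw [show a * b + a * b = a * b + b * a by rw [hc b hb a ha]]
          noncomm_ring
  let S : Subring R := { J with one_mem' := h1, mul_mem' := fun ha hb => hm _ ha _ hb }
  have hF : IsField S := ⟨⟨1, 0, fun e => nt (congrArg Subtype.val e)⟩,
    fun a b => Subtype.ext (hc a a.2 b b.2), fun {a} ha => by
      obtain ⟨b, hb, e, -⟩ := hJ a a.2 fun e => ha (Subtype.ext e)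
      exact ⟨⟨b, hb⟩, Subtype.ext e⟩⟩
  exact ⟨S, hF.toField, Fintype.ofFinite _, S.subtype, Subtype.val_injective,
    fun t => ⟨fun h => ⟨⟨t, h⟩, rfl⟩, fun ⟨a, e⟩ => e ▸ a.2⟩⟩

section coord

variable {F : Type} [Field F] {ι : F →+* R} {x y : F → Γ}

theorem D2.exx (D : D2 ρ U V Rf φ ψ) (hι : ∀ t, J ρ U φ ψ t ↔ ∃ a, ι a = t) :
    ∃ x : F → Γ, (∀ t, x t ∈ U) ∧ (∀ t, ρ (x t) - 1 = ι t * φ) ∧ (∀ g ∈ U, ∃ t, x t = g) ∧
      (∀ t, x t = 1 → t = 0) ∧ ∀ t u, x t * x u = x (t + u) := by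
  have := nontrivial_of_ne _ _ D.nt
  choose x h1 h2 using fun a : F => ((hι _).2 ⟨a, rfl⟩).2.2
  refine ⟨x, h1, h2, fun g hg => ?_, fun t e => ?_, fun t u => ?_⟩
  · obtain ⟨t, ht, e⟩ := D.exJ hg
    obtain ⟨a, rfl⟩ := (hι t).1 ht
    exact ⟨a, D.inj (h1 a) hg (sub_left_injective ((h2 a).trans e.symm))⟩
  · refine ι.injective ((D.eq0 ((hι _).2 ⟨t, rfl⟩).2.1 ?_).trans (map_zero ι).symm)
    rw [← h2, e, map_one, sub_self]
  · refine D.inj (mul_mem (h1 t) (h1 u)) (h1 _) (sub_left_injective (b := 1) ?_)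
    change _ - 1 = _ - 1
    rw [D.add (h1 t) (h1 u), h2, map_add, add_mul, ← h2, ← h2]; noncomm_ring

theorem D2.wrel (D : D2 ρ U V Rf φ ψ) (c1 : ∀ a, Commute (ι a) φ) (c2 : ∀ a, Commute (ι a) ψ)
    (x1 : ∀ t, x t ∈ U) (x2 : ∀ t, ρ (x t) - 1 = ι t * φ) (x3 : ∀ g ∈ U, ∃ t, x t = g)
    (y1 : ∀ t, y t ∈ V) (y2 : ∀ t, ρ (y t) - 1 = ι t * ψ) (y3 : ∀ t, y t = 1 → t = 0)
    (t u : F) (ht : t ≠ 0) :
    (x t * y (-t⁻¹) * x t) * x u * (x t * y (-t⁻¹) * x t)⁻¹ = y (-(t⁻¹ ^ 2 * u)) := by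
  have := nontrivial_of_ne _ _ D.nt
  obtain ⟨l, hl, h, k, e⟩ := D.symm.mu2 (y1 (-t⁻¹)) fun e => inv_ne_zero ht (neg_eq_zero.1 (y3 _ e))
  obtain ⟨s, rfl⟩ := x3 l hl
  rw [x2, y2] at k e
  have k := D.symm.ts (c2 _) (c1 _) (c2 _) (c1 _) k
  rw [← map_mul, ← map_one ι, ← map_neg] at k
  obtain rfl : s = t := by
    have := ι.injective k
    field_simp at this
    exact neg_injective this
  refine D.symm.inj (D.cU _ h _ (x1 u)) (y1 _) ?_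
  have mc : ∀ (a b : F) (p q : R), Commute (ι b) p → ι a * p * (ι b * q) = ι (a * b) * (p * q) :=
    fun a b p q c => by rw [map_mul, mul_assoc, mul_assoc, ← mul_assoc p, ← c.eq, mul_assoc]
  have : ρ (x s * y (-s⁻¹) * x s) * ρ (x u) = ρ (y (-(s⁻¹ ^ 2 * u))) * ρ (x s * y (-s⁻¹) * x s) := by
    rw [e, eq_add_of_sub_eq (x2 u), eq_add_of_sub_eq (y2 _), mul_add, add_mul _ 1, add_mul, mul_add,
      mc _ _ _ _ (c2 _), mc _ _ _ _ (c1 _), mc _ _ _ _ (c2 _), mc _ _ _ _ (c2 _), D.sq, D.sq',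
      show -(s⁻¹ ^ 2 * u) * s = -s⁻¹ * u by field_simp]
    simp
  rw [map_mul, map_mul _ _ (x u), this, mul_assoc, ← map_mul, mul_inv_cancel, map_one, mul_one]

end coord

theorem Dt.main [Finite R] (D : Dt ρ U V Rf) (hu : u ∈ U) (h1 : u ≠ 1) :
    ∃ (F : Type) (_ : Field F) (_ : Fintype F) (x y : F → Γ), StRel x y ∧
      ((∀ t, x t ∈ U) ∧ (∀ g ∈ U, ∃ t, x t = g) ∧ ∀ t, x t = 1 → t = 0) ∧
      (∀ t, y t ∈ V) ∧ (∀ g ∈ V, ∃ t, y t = g) ∧ ∀ t, y t = 1 → t = 0 := by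
  obtain ⟨φ, ψ, E⟩ := D.exD2 hu h1
  obtain ⟨F, _, _, ι, -, h⟩ := jordan_field E.JA
    ⟨Commute.one_left _, Commute.one_left _, by simpa using E.eU⟩ D.nt fun a ha => E.Jinv ha
  obtain ⟨x, x1, x2, x3, x4, x5⟩ := E.exx h
  obtain ⟨y, y1, y2, y3, y4, y5⟩ := E.symm.exx (ι := ι) fun t =>
    Iff.trans ⟨E.symm.JV, E.JV⟩ (h t)
  have c1 := fun a => ((h _).2 ⟨a, rfl⟩).1
  have c2 := fun a => ((h _).2 ⟨a, rfl⟩).2.1
  exact ⟨F, _, inferInstance, x, y, ⟨x5, y5, E.wrel c1 c2 x1 x2 x3 y1 y2 y4,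
    E.symm.wrel c2 c1 y1 y2 y3 x1 x2 x4⟩, ⟨x1, x3, x4⟩, y1, y3, y4⟩

end Cfsg.Agent.BN2.SL2Q
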