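import Cfsg.Agent.BN2.S2
import Cfsg.Agent.BN2.SL2Qa

/-!
# A rank one group with a quadratic module is `SL₂(F)` (S1144)
-/

set_option autoImplicit false
set_option linter.unusedSectionVars false
set_option linter.unusedVariables false

namespace Cfsg.Agent.BN2

open scoped commutatorElement

namespace SL2Q

variable {Γ W : Type} [Group Γ] [AddCommGroup W] {ρ : Γ →* AddMonoid.End W} {U V : Subgroup Γ}
  {Rf : Γ → Prop} {A B : AddSubgroup W}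

/-- the module version -/
structure Md (ρ : Γ →* AddMonoid.End W) (U V : Subgroup Γ) (Rf : Γ → Prop) (A B : AddSubgroup W) :
    Prop where
  ind : ∀ a ∈ A, a ∈ B → a = 0
  top : A ⊔ B = ⊤
  UA : ∀ u ∈ U, ∀ a ∈ A, ρ u a - a = 0
  UB : ∀ u ∈ U, ∀ b ∈ B, ρ u b - b ∈ A
  VB : ∀ u ∈ V, ∀ a ∈ B, ρ u a - a = 0
  VA : ∀ u ∈ V, ∀ b ∈ A, ρ u b - b ∈ B
  mA : ∀ m, Rf m → ∀ a ∈ A, ρ m a ∈ B
  mB : ∀ m, Rf m → ∀ a ∈ B, ρ m a ∈ A

namespace Md

variable (D : Md ρ U V Rf A B)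
include D

theorem symm : Md ρ V U Rf B A :=
  ⟨fun a h h' => D.ind a h' h, (sup_comm _ _).trans D.top, D.VB, D.VA, D.UA, D.UB, D.mB, D.mA⟩

theorem ext {f g : AddMonoid.End W} (h1 : ∀ a ∈ A, f a = g a) (h2 : ∀ a ∈ B, f a = g a) : f = g := by
  ext w
  obtain ⟨a, ha, b, hb, rfl⟩ := AddSubgroup.mem_sup.1 (D.top.ge (AddSubgroup.mem_top w))
  exact (map_add f a b).trans (by rw [h1 a ha, h2 b hb]; exact (map_add g a b).symm)

theorem UU (u : Γ) (hu : u ∈ U) (u' : Γ) (hu' : u' ∈ U) : (ρ u - 1) * (ρ u' - 1) = 0 :=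
  D.ext (fun a ha => D.UA u hu (ρ u' a - a) (D.UA u' hu' a ha ▸ zero_mem _))
    fun a ha => D.UA u hu (ρ u' a - a) (D.UB u' hu' a ha)

theorem mu {u l r : Γ} (hu : u ∈ U) (hl : l ∈ V) (hr : r ∈ V) (h : Rf (l * u * r)) :
    (ρ u - 1) * (ρ r - 1) + (ρ l - 1) * (ρ u - 1) = -1 := by
  have s : ∀ g w, (ρ g - 1) w = ρ g w - w := fun _ _ => rfl
  have e : ∀ w, ρ (l * u * r) w = ρ l (ρ u (ρ r w)) := fun w => by rw [map_mul, map_mul]; rfl
  refine D.ext (fun a ha => ?_) fun b hb => ?_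
  · change (ρ u - 1) (ρ r a - a) + (ρ l - 1) (ρ u a - a) = -a
    have h1 := D.VA r hr a ha
    have h2 := add_mem ha (D.UB u hu _ h1)
    rw [D.UA u hu a ha, map_zero, add_zero, eq_neg_iff_add_eq_zero, add_comm, s]
    refine D.ind _ h2 ?_
    have h3 := sub_mem (sub_mem (D.mA _ h a ha) h1) (D.VA l hl _ h2)
    have e1 := sub_eq_zero.1 (D.UA u hu a ha)
    have e2 := sub_eq_zero.1 (D.VB l hl _ h1)
    convert h3 using 1
    simp only [e, map_sub, map_add, e1] at e2 ⊢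
    rw [eq_add_of_sub_eq e2]
    abel
  · change (ρ u - 1) (ρ r b - b) + (ρ l - 1) (ρ u b - b) = -b
    have h1 := D.UB u hu b hb
    have h2 := add_mem hb (D.VA l hl _ h1)
    rw [D.VB r hr b hb, map_zero, zero_add, eq_neg_iff_add_eq_zero, add_comm, s]
    refine D.symm.ind _ h2 ?_
    convert sub_mem (D.mB _ h b hb) h1 using 1
    simp only [e, map_sub, sub_eq_zero.1 (D.VB r hr b hb), sub_eq_zero.1 (D.VB l hl b hb)]
    abel

end Md

/-- conjugation on an abelian subgroup -/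
def rho {Q : Type} [Group Q] (π : Γ →* Q) (W : Subgroup Q)
    (h : ∀ g, π g ∈ Subgroup.normalizer (W : Set Q)) : Γ →* AddMonoid.End (Additive W) :=
  (monoidEndToAdditive W : _ →* _).comp
    ((MulDistribMulAction.toMonoidEnd _ W).comp (π.codRestrict _ h))

open scoped IsMulCommutative in
theorem exMd {Q : Type} [Group Q] [Finite Q] (π : Γ →* Q) (A B : Subgroup Q) (gen : U ⊔ V = ⊤)
    (AA : ∀ a ∈ A, ∀ b ∈ A, ⁅a, b⁆ = 1) (AB : ∀ a ∈ A, ∀ b ∈ B, ⁅a, b⁆ = 1)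
    (BB : ∀ a ∈ B, ∀ b ∈ B, ⁅a, b⁆ = 1) (ind : ∀ a ∈ A, a ∈ B → a = 1)
    (UA : ∀ u ∈ U, ∀ a ∈ A, ⁅π u, a⁆ = 1) (UB : ∀ u ∈ U, ∀ b ∈ B, ⁅π u, b⁆ ∈ A)
    (VB : ∀ u ∈ V, ∀ a ∈ B, ⁅π u, a⁆ = 1) (VA : ∀ u ∈ V, ∀ b ∈ A, ⁅π u, b⁆ ∈ B)
    (mA : ∀ m, Rf m → ∀ a ∈ A, π m * a * (π m)⁻¹ ∈ B)
    (mB : ∀ m, Rf m → ∀ a ∈ B, π m * a * (π m)⁻¹ ∈ A) (ne : A ≠ ⊥) :
    ∃ (W : Type) (_ : AddCommGroup W) (_ : Finite W) (_ : Nontrivial W) (ρ : Γ →* AddMonoid.End W)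
      (A B : AddSubgroup W), Md ρ U V Rf A B := by
  have c : ∀ a ∈ A ⊔ B, A ⊔ B ≤ Subgroup.centralizer {a} := fun a ha => by
    have : ∀ b, (∀ a ∈ A, ⁅a, b⁆ = 1) → (∀ a ∈ B, ⁅a, b⁆ = 1) → b ∈ Subgroup.centralizer {a} :=
      fun b h1 h2 => Subgroup.mem_centralizer_singleton_iff.2 (Subgroup.mem_centralizer_singleton_iff.1
        ((sup_le (fun a ha => Subgroup.mem_centralizer_singleton_iff.2
          (commutatorElement_eq_one_iff_mul_comm.1 (h1 a ha))) fun a ha =>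
          Subgroup.mem_centralizer_singleton_iff.2 (commutatorElement_eq_one_iff_mul_comm.1 (h2 a ha)) :
            A ⊔ B ≤ Subgroup.centralizer {b}) ha)).symm
    exact sup_le (fun b hb => this b (fun a ha => AA a ha b hb) fun a ha =>
      commutatorElement_eq_one_iff_mul_comm.2 (commutatorElement_eq_one_iff_mul_comm.1 (AB b hb a ha)).symm)
      fun b hb => this b (fun a ha => AB a ha b hb) fun a ha => BB a ha b hb
  have : IsMulCommutative ↥(A ⊔ B) :=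
    ⟨⟨fun a b => Subtype.ext (Subgroup.mem_centralizer_singleton_iff.1 (c b b.2 a.2))⟩⟩
  have n : ∀ g, (∀ a ∈ A, ⁅g, a⁆ ∈ A ⊔ B) → (∀ a ∈ B, ⁅g, a⁆ ∈ A ⊔ B) →
      g ∈ Subgroup.normalizer ((A ⊔ B : Subgroup Q) : Set Q) := fun g h1 h2 =>
    Subgroup.mem_normalizer_fintype fun w hw =>
      (sup_le (fun a ha => by simpa [commutatorElement_def] using mul_mem (h1 a ha) (Subgroup.mem_sup_left ha))
        (fun a ha => by simpa [commutatorElement_def] using mul_mem (h2 a ha) (Subgroup.mem_sup_right ha)) :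
        A ⊔ B ≤ (A ⊔ B).comap (MulAut.conj g).toMonoidHom) hw
  have h : ∀ g, π g ∈ Subgroup.normalizer ((A ⊔ B : Subgroup Q) : Set Q) := fun g =>
    (sup_le (fun u hu => n _ (fun a ha => UA u hu a ha ▸ one_mem _) fun a ha => Subgroup.mem_sup_left (UB u hu a ha))
      (fun u hu => n _ (fun a ha => Subgroup.mem_sup_right (VA u hu a ha)) fun a ha => VB u hu a ha ▸ one_mem _) :
      U ⊔ V ≤ (Subgroup.normalizer ((A ⊔ B : Subgroup Q) : Set Q)).comap π) (gen.ge (Subgroup.mem_top g))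
  have e : ∀ g w, ((Additive.toMul (rho π _ h g w - w) : ↥(A ⊔ B)) : Q) = ⁅π g, (w.toMul : Q)⁆ :=
    fun g w => by rw [toMul_sub, div_eq_mul_inv]; rfl
  have z : ∀ w : Additive ↥(A ⊔ B), (w.toMul : Q) = 1 → w = 0 := fun w k => Subtype.ext k
  refine ⟨Additive ↥(A ⊔ B), inferInstance, inferInstance, ?_, rho π _ h,
    (A.subgroupOf _).toAddSubgroup, (B.subgroupOf _).toAddSubgroup, fun a h1 h2 => z a (ind _ h1 h2), ?_,
    fun u hu a ha => z _ ((e u a).trans (UA u hu _ ha)), fun u hu a ha => ?_,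
    fun u hu a ha => z _ ((e u a).trans (VB u hu _ ha)), fun u hu a ha => ?_,
    fun m hm a ha => mA m hm _ ha, fun m hm a ha => mB m hm _ ha⟩
  · exact (Subgroup.nontrivial_iff_ne_bot _).2 fun k => ne (eq_bot_iff.2 (le_sup_left.trans k.le))
  · rw [← map_sup, ← Subgroup.subgroupOf_sup le_sup_left le_sup_right, Subgroup.subgroupOf_self, map_top]
  · exact (e u a).symm.subst (motive := (· ∈ A)) (UB u hu _ ha)
  · exact (e u a).symm.subst (motive := (· ∈ B)) (VA u hu _ ha)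

end SL2Q

namespace MP

variable {G V : Type} [Group G] [MulAction G V] [Finite G] [Finite V] {M : MP G V}

/-- Let `Ā = A / (A ⊓ N)`, `B̄ = B / (B ⊓ N)` (finite abelian groups; e.g. work in
`H = A ⊔ B ⊔ N` modulo `N`, or define everything on `Additive (A ⧸ N.subgroupOf A)`), `Ā ≠ 0`.
For `u ∈ U i` let `f_u : B̄ → Ā`, `f_u b = ⁅u,b⁆`; for `v ∈ U (i+n)` let `g_v : Ā → B̄`; they are
additive, `f_{uu'} = f_u + f_{u'}`, `g_{vv'} = g_v + g_{v'}` (well defined by `ind`).  `u` acts on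
`Ā ⊕ B̄` by `(a, b) ↦ (a + f_u b, b)`, `v` by `(a, b) ↦ (a, b + g_v a)`.
Let `u ≠ 1`, `m = l u r` (`exists_mu`).  `m · b = l (b + f_u b) = b + f_u b + g_l f_u b ∈ Ā`, so
`g_l f_u = -1`, `m|B̄ = f_u`.  `m · a = l u (a + g_r a) = l (a + f_u g_r a + g_r a) ∈ B̄`, so
`f_u g_r = -1`, `m|Ā = g_r`.  Hence `f_u` is bijective, `g_l = g_r = -f_u⁻¹`.  Symmetrically
(`exists_mu'`) `g_v` is bijective for `v ≠ 1`.  So `u ↦ f_u`, `v ↦ g_v` are injective, `l = r`,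
`U i`, `U (i+n)` are abelian.  Fix `e ≠ 1` in `U i`, `m₀ = μ(e)`.  `J = {f_u f_e⁻¹} ⊆ End Ā` is an additive
subgroup containing `1`.  For `v ∈ U (i+n)`, `m₀ v m₀⁻¹ ∈ U i` and
`f_{m₀ v m₀⁻¹} = m₀|B̄ ∘ g_v ∘ m₀⁻¹|B̄ = - f_e g_v f_e` (`m₀⁻¹|B̄ = (g_r)⁻¹ = -f_e`); for `v = l(u)` this is
`f_e f_u⁻¹ f_e`, so `J` is closed under inverses, and `{f_e g_v} = J`.  `Proj.jordan_comm` (with `J' = J`):
`J` is commutative; `Proj.hua_mem`: `a b a ∈ J`, so `a² b ∈ J`; closed under products: in odd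
characteristic `2ab = (a+b)² - a² - b²` and `2 ∈ J` is invertible... (`J` is an `𝔽_p`-space);
in characteristic two squaring is an injective, hence bijective, self map of the finite set `J`.
So `J` is a finite field `F` (a subring in which nonzero elements are units).  Put `x t` = the `u` with
`f_u f_e⁻¹ = t`, `y s` = the `v` with `f_e g_v = s`.  For `t ≠ 0`, `l(x t)` has `f_e g_l = -t⁻¹`, so
`m = y(-t⁻¹) x(t) y(-t⁻¹)` is `Rf (2i)`; `m x(s) m⁻¹ ∈ U (i+n)` has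
`g = m|Ā ∘ f_{x s} ∘ m⁻¹|Ā = g_r f_{x s} f_{x t}⁻¹`, i.e. it is `y (-t⁻² s)`; in particular
`m x(t) m⁻¹ = y(-t⁻¹)`, which gives `x(t) y(-t⁻¹) x(t) = m` (`wx`).  For `wy` put `s = -t⁻¹`:
`y t x(s) y t = m(s)` and `m(s) y(u) m(s)⁻¹ = x (-s² u)` by inverting the previous formula. -/
theorem QM.exists_S2 {i : ℤ} {A B N : Subgroup G} (Q : M.QM i A B N) (hA : ¬ A ≤ N) :
    ∃ (F : Type) (_ : Field F) (_ : Fintype F), Nonempty (M.S2 i F) := by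
  have nN : ∀ X : Subgroup G, (∀ a ∈ X, ∀ n ∈ N, a * n * a⁻¹ ∈ N) → X ≤ Subgroup.normalizer (N : Set G) :=
    fun X h a ha => Subgroup.mem_normalizer_fintype (h a ha)
  have hL : M.L i ≤ Subgroup.normalizer (N : Set G) := sup_le (nN _ Q.nU) (nN _ Q.nV)
  have hA' := nN _ Q.nA
  have hB' := nN _ Q.nB
  let p := QuotientGroup.mk' (N.subgroupOf (Subgroup.normalizer (N : Set G)))
  have p1 : ∀ g, p g = 1 ↔ (g : G) ∈ N := fun g => QuotientGroup.eq_one_iff g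
  have cm : ∀ X Y : Subgroup G, (∀ a ∈ X, ∀ b ∈ Y, ⁅a, b⁆ ∈ N) → ∀ a ∈ (X.subgroupOf _).map p,
      ∀ b ∈ (Y.subgroupOf _).map p, ⁅a, b⁆ = 1 := by
    rintro X Y h _ ⟨a, ha, rfl⟩ _ ⟨b, hb, rfl⟩
    rw [← map_commutatorElement, p1]
    exact h _ ha _ hb
  have cm2 : ∀ X Y Z : Subgroup G, Z ≤ Subgroup.normalizer (N : Set G) →
      (∀ u ∈ X, ∀ b ∈ Y, ∃ a ∈ Z, a⁻¹ * ⁅u, b⁆ ∈ N) → ∀ u ∈ X.subgroupOf (M.L i),
      ∀ b ∈ (Y.subgroupOf _).map p,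
        ⁅(p.comp (Subgroup.inclusion hL)) u, b⁆ ∈ (Z.subgroupOf _).map p := by
    rintro X Y Z hZ h u hu _ ⟨b, hb, rfl⟩
    obtain ⟨a, ha, e⟩ := h u hu b hb
    refine ⟨⟨a, hZ ha⟩, ha, ?_⟩
    rw [MonoidHom.comp_apply, ← map_commutatorElement]
    exact QuotientGroup.eq.2 e
  have cm3 : ∀ X Y : Subgroup G, (∀ m, M.Rf (2 * i) m → ∀ a ∈ X, m * a * m⁻¹ ∈ Y) →
      ∀ m : M.L i, M.Rf (2 * i) m → ∀ a ∈ (X.subgroupOf _).map p, (p.comp (Subgroup.inclusion hL)) m * a *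
        ((p.comp (Subgroup.inclusion hL)) m)⁻¹ ∈ (Y.subgroupOf _).map p := by
    rintro X Y h m hm _ ⟨a, ha, rfl⟩
    exact ⟨Subgroup.inclusion hL m * a * (Subgroup.inclusion hL m)⁻¹, h m hm a ha, by simp⟩
  obtain ⟨W, _, _, _, ρ, A', B', D⟩ := SL2Q.exMd (U := (M.U i).subgroupOf (M.L i))
    (V := (M.U (i + M.n)).subgroupOf (M.L i)) (Rf := fun m => M.Rf (2 * i) m)
    (p.comp (Subgroup.inclusion hL)) ((A.subgroupOf _).map p) ((B.subgroupOf _).map p)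
    (by rw [← Subgroup.subgroupOf_sup (U_le_L i) (U_le_L' i)]; exact Subgroup.subgroupOf_self _)
    (cm _ _ Q.AA) (cm _ _ Q.AB) (cm _ _ Q.BB) (by
      rintro _ ⟨a, ha, rfl⟩ ⟨b, hb, e⟩
      have k : (a : G)⁻¹ * b ∈ N := (p1 (a⁻¹ * b)).1 (by rw [map_mul, map_inv, e, inv_mul_cancel])
      exact (p1 a).2 (inv_mem_iff.1 (Q.ind _ (inv_mem (show (a : G) ∈ A from ha)) _ hb k)))
    (fun u hu => cm _ _ Q.UA _ ⟨Subgroup.inclusion hL u, hu, rfl⟩) (cm2 _ _ _ hA' Q.UB)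
    (fun u hu => cm _ _ Q.VB _ ⟨Subgroup.inclusion hL u, hu, rfl⟩) (cm2 _ _ _ hB' Q.VA)
    (cm3 _ _ Q.mA) (cm3 _ _ Q.mB)
    fun e => hA fun a ha => (p1 ⟨a, hA' ha⟩).1 (Subgroup.mem_bot.1 (e.le ⟨_, ha, rfl⟩))
  have : Finite (AddMonoid.End W) := DFunLike.finite (W →+ W)
  have E : SL2Q.Dt ρ ((M.U i).subgroupOf (M.L i)) ((M.U (i + M.n)).subgroupOf (M.L i))
      fun m => M.Rf (2 * i) m := by
    refine ⟨fun e => ?_, D.UU, D.symm.UU, fun u hu h => ?_, fun u hu h => ?_,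
      fun m hm u hu => (U_per (i := i - M.n) (by ring)).ge (hm.conj_U (u := u.1) hu (by ring)),
      fun m hm u hu => (U_per (i := i - 2 * M.n) (by ring)).ge (hm.conj_U (u := u.1) hu (by ring)),
      fun m hm => hm.inv⟩
    · obtain ⟨w, hw⟩ := exists_ne (0 : W)
      exact hw (DFunLike.congr_fun e w)
    · obtain ⟨l, hl, r, hr, k⟩ := exists_mu (a := u.1) hu fun e => h (Subtype.ext e)
      exact ⟨⟨l, U_le_L' i hl⟩, hl, ⟨r, U_le_L' i hr⟩, hr, k,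
        D.mu (l := ⟨l, U_le_L' i hl⟩) (r := ⟨r, U_le_L' i hr⟩) hu hl hr k⟩
    · obtain ⟨l, hl, r, hr, k⟩ := exists_mu' (b := u.1) hu fun e => h (Subtype.ext e)
      exact ⟨⟨l, U_le_L i hl⟩, hl, ⟨r, U_le_L i hr⟩, hr, k,
        D.symm.mu (l := ⟨l, U_le_L i hl⟩) (r := ⟨r, U_le_L i hr⟩) hu hl hr k⟩
  obtain ⟨u, hu, h1⟩ := exists_U (M := M) i
  obtain ⟨F, _, _, x, y, st, ⟨x1, x2, x3⟩, y1, y2, y3⟩ :=
    E.main (u := ⟨u, U_le_L i hu⟩) hu fun e => h1 (congrArg Subtype.val e)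
  exact ⟨F, _, inferInstance, ⟨⟨fun t => x t, fun t => y t,
    ⟨fun t u => congrArg Subtype.val (st.xadd t u), fun t u => congrArg Subtype.val (st.yadd t u),
      fun t u h => congrArg Subtype.val (st.wx t u h), fun t u h => congrArg Subtype.val (st.wy t u h)⟩,
    x1, fun g hg => (x2 ⟨g, U_le_L i hg⟩ hg).imp fun t e => congrArg Subtype.val e,
    fun t e => x3 t (Subtype.ext e), y1,
    fun g hg => (y2 ⟨g, U_le_L' i hg⟩ hg).imp fun t e => congrArg Subtype.val e,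
    fun t e => y3 t (Subtype.ext e)⟩⟩⟩

end MP

end Cfsg.Agent.BN2
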