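import Cfsg.Agent.BN2.OcA
import Cfsg.Agent.BN2.HexA
import Cfsg.Agent.BN2.SL2Q

/-!
# Finite Moufang octagons (S1144): characteristic two, the order of `U 0`, coordinates
-/

set_option autoImplicit false
set_option linter.unusedSectionVars false
set_option linter.unusedVariables false

namespace Cfsg.Agent.BN2

open scoped commutatorElement

namespace MP

variable {G V : Type} [Group G] [MulAction G V] [Finite G] [Finite V] {M : MP G V}
  {i j k c : ℤ} {a b g u v w z t : G}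

theorem ob_V (hz : z ∈ M.Vz i) (e : j = i) : z ∈ M.Vz j := e ▸ hz

theorem ob_U (hz : z ∈ M.U i) (e : j = i) : z ∈ M.U j := e ▸ hz

theorem ob_UU {i' j' : ℤ} (hz : z ∈ M.UU i j) (e : i' ≤ i) (e' : j ≤ j') : z ∈ M.UU i' j' :=
  UU_mono e e' hz

theorem ob_ii {Γ : Type*} [Group Γ] {a b : Γ} (h1 : Commute ⁅a, b⁆ a) (h2 : Commute ⁅a, b⁆ b) :
    ⁅a⁻¹, b⁻¹⁆ = ⁅a, b⁆ := by
  calc ⁅a⁻¹, b⁻¹⁆ = (b * a)⁻¹ * (⁅a, b⁆ * (b * a)) := by simp only [commutatorElement_def]; group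
    _ = _ := by rw [(h2.mul_right h1).eq]; group

theorem ob_i {Γ : Type*} [Group Γ] {a b : Γ} (h1 : Commute ⁅a, b⁆ a) :
    ⁅a⁻¹, b⁆ = ⁅a, b⁆⁻¹ := by
  calc ⁅a⁻¹, b⁆ = a⁻¹ * (⁅a, b⁆⁻¹ * a) := by simp only [commutatorElement_def]; group
    _ = _ := by rw [h1.inv_left.eq]; group

theorem ob_mul {Γ : Type*} [Group Γ] {a a' b : Γ} (h1 : Commute ⁅a', b⁆ a) :
    ⁅a * a', b⁆ = ⁅a', b⁆ * ⁅a, b⁆ := by
  calc ⁅a * a', b⁆ = a * ⁅a', b⁆ * a⁻¹ * ⁅a, b⁆ := by simp only [commutatorElement_def]; group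
    _ = _ := by rw [← h1.eq]; group

theorem ob_conj {Γ : Type*} [Group Γ] (g a b : Γ) :
    g * ⁅a, b⁆ * g⁻¹ = ⁅g * a * g⁻¹, g * b * g⁻¹⁆ := by
  simp only [commutatorElement_def]; group

theorem ob_card {Γ X : Type*} [Group Γ] [Finite Γ] [Finite X] (A B : Subgroup Γ) (φ : A → X)
    (h : ∀ u u' : A, φ u = φ u' → (u : Γ)⁻¹ * u' ∈ B) : Nat.card A ≤ Nat.card X * Nat.card B := by
  classical
  let r : A → A := fun u => Function.invFun φ (φ u)
  have hr : ∀ u, φ (r u) = φ u := fun u => Function.invFun_eq ⟨u, rfl⟩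
  rw [← Nat.card_prod]
  refine Nat.card_le_card_of_injective
    (fun u : A => ((φ u, ⟨(r u : Γ)⁻¹ * u, h _ _ (hr u)⟩) : X × B)) fun u u' e => ?_
  have e1 : φ u = φ u' := congrArg Prod.fst e
  have e2 : (r u : Γ)⁻¹ * u = (r u' : Γ)⁻¹ * u' := congrArg (fun p : X × B => (p.2 : Γ)) e
  have e3 : r u = r u' := by simp only [r, e1]
  rw [e3] at e2
  exact Subtype.ext (mul_left_cancel e2)

theorem ob_L (h : M.Rf c g) (hu : u ∈ M.L i) (e : j = c - M.n - i) : g * u * g⁻¹ ∈ M.L j := by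
  have : M.L i ≤ (M.L j).comap (MulAut.conj g).toMonoidHom := by
    refine sup_le (fun a ha => U_le_L j (h.conj_U ha e)) fun a ha => U_le_L' j ?_
    rw [U_per (i := j - M.n) (by ring)]
    exact h.conj_U ha (by rw [e]; ring)
  exact this hu

theorem ob_x {Γ F : Type*} [Group Γ] (ρ : Γ) (A B : F → Γ) : ∃ x : ℤ → F → Γ,
    (∀ i k, i = 1 + 2 * k → ∀ t, x i t = ρ ^ k * A t * (ρ ^ k)⁻¹) ∧
    ∀ i k, i = 4 + 2 * k → ∀ t, x i t = ρ ^ k * B t * (ρ ^ k)⁻¹ := by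
  refine ⟨fun i t => if i % 2 = 1 then ρ ^ ((i - 1) / 2) * A t * (ρ ^ ((i - 1) / 2))⁻¹
    else ρ ^ ((i - 4) / 2) * B t * (ρ ^ ((i - 4) / 2))⁻¹, fun i k e t => ?_, fun i k e t => ?_⟩
  · simp only [if_pos (show i % 2 = 1 by omega), show (i - 1) / 2 = k by omega]
  · simp only [if_neg (show ¬ i % 2 = 1 by omega), show (i - 4) / 2 = k by omega]

theorem ob_dih {Γ : Type*} [Group Γ] {s ρ : Γ} (h : s * ρ * s⁻¹ = ρ⁻¹) (k : ℤ) (y : Γ) :
    s * (ρ ^ k * y * (ρ ^ k)⁻¹) * s⁻¹ = ρ ^ (-k) * (s * y * s⁻¹) * (ρ ^ (-k))⁻¹ := by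
  have e : s * ρ ^ k * s⁻¹ = ρ ^ (-k) := by rw [← conj_zpow, h, inv_zpow']
  rw [← e]; group

namespace Oc

variable (H : M.Oc)
include H

theorem ob_jinv {F : Type} [Field F] [Finite F] (hi : i % 2 = 1) (E : M.S2 i F)
    (hk : k = i + 3 ∨ k = i + 5) (ha : a ∈ M.Vz k) : E.h (-1) * a * (E.h (-1))⁻¹ = a⁻¹ := by
  rcases hk with rfl | rfl
  · have := E.h_neg (H.qm hi) one_ne_zero ha
    rw [E.h_one, Subgroup.mem_bot] at this
    exact eq_inv_of_mul_eq_one_left (by simpa using this)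
  · have := E.h_neg' (H.qm hi) one_ne_zero ha
    rw [E.h_one, Subgroup.mem_bot] at this
    have e : (E.h (-1))⁻¹ = E.h (-1) := inv_eq_of_mul_eq_one_right E.j_sq
    rw [e] at this ⊢
    exact eq_inv_of_mul_eq_one_left (by simpa using this)

theorem ob_S2 (hi : i % 2 = 1) :
    ∃ (F : Type) (_ : Field F) (_ : Fintype F), Nonempty (M.S2 i F) := by
  obtain ⟨z, hz, h1⟩ := H.exists_V (i := i + 3) (by omega)
  exact (H.qm hi).exists_S2 fun h => h1 (h hz)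

/-- `E : S2 1 F` (`QM.exists_S2`, `qm`), `j = h(-1)` inverts `V 4`, `V 6` (`h_neg`, `h_neg'` with `t = 1`) and,
by `exists_opp` and `qm` at `9`, `V 12`, `V 14`.  For `a ∈ V 6`, `b ∈ V 12`: `⁅a⁻¹,b⁻¹⁆ = ⁅a,b⁆` (`VV_left`,
`VV_right`), so `j` centralises the components in `V 8`, `V 10` (`VV`, `uniq`); for `a ≠ 1` these run
through all of `V 8`, `V 10` (injective homomorphisms in `b`, `card_V`).  For `1 ≠ a ∈ V 4`, `1 ≠ b ∈ V 10`,
`j` inverts `⁅a,b⁆`, hence its component `1 ≠ c ∈ V 8`.  So `c² = 1`; `pow_U`. -/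
theorem p_two : M.p = 2 := by
  have hn := H.n
  by_contra hp
  obtain ⟨F, _, _, ⟨E⟩⟩ := H.ob_S2 (i := 1) (by omega)
  obtain ⟨E', hE'⟩ := E.exists_opp
  have jj : (E.h (-1))⁻¹ = E.h (-1) := inv_eq_of_mul_eq_one_right E.j_sq
  have jT : E.h (-1) ∈ M.T := E.h_T (by simp)
  have i4 : ∀ a ∈ M.Vz 4, E.h (-1) * a * (E.h (-1))⁻¹ = a⁻¹ := fun a ha =>
    H.ob_jinv (by omega) E (by omega) ha
  have i6 : ∀ a ∈ M.Vz 6, E.h (-1) * a * (E.h (-1))⁻¹ = a⁻¹ := fun a ha =>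
    H.ob_jinv (by omega) E (by omega) ha
  have i12 : ∀ a ∈ M.Vz 12, E.h (-1) * a * (E.h (-1))⁻¹ = a⁻¹ := fun a ha => by
    have := H.ob_jinv (by omega) E' (by omega) ha
    rwa [hE' _ (by simp), jj] at this
  generalize E.h (-1) = j at jj jT i4 i6 i12
  -- `j` centralises nontrivial elements of `V 8`, `V 10`
  obtain ⟨a, ha, a1⟩ := H.exists_V (i := 6) (by omega)
  obtain ⟨b, hb, b1⟩ := H.exists_V (i := 12) (by omega)
  obtain ⟨c8, h8, c9, h9, c10, h10, e, ne⟩ := H.VV (k := 6) (by omega) ha hb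
  obtain ⟨n8, n10⟩ := ne a1 b1
  replace h8 : c8 ∈ M.Vz 8 := h8
  replace h9 : c9 ∈ M.U 9 := h9
  replace h10 : c10 ∈ M.Vz 10 := h10
  have u8 := H.V_le (by omega) h8
  have u10 := H.V_le (by omega) h10
  have e1 : j * ⁅a, b⁆ * j⁻¹ = ⁅a, b⁆ := by
    rw [ob_conj, i6 a ha, i12 b hb]
    refine ob_ii ?_ ?_ <;> rw [e] <;> refine Commute.symm ?_
    · exact ((H.V_comm (by omega) ha u8 (by omega) (by omega)).mul_right
        (H.V_comm (by omega) ha h9 (by omega) (by omega))).mul_right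
        (H.V_comm (by omega) ha u10 (by omega) (by omega))
    · exact ((H.V_comm (by omega) hb u8 (by omega) (by omega)).mul_right
        (H.V_comm (by omega) hb h9 (by omega) (by omega))).mul_right
        (H.V_comm (by omega) hb u10 (by omega) (by omega))
  have j8 : j * c8 * j⁻¹ = c8 := by
    have m : c9 * c10 ∈ M.UU (8 + 1) 10 :=
      mul_mem (U_le_UU (by omega) (by omega) h9) (U_le_UU (by omega) (by omega) u10)
    refine (uniq (T_conj_U jT u8) u8 (T_conj_UU jT m) m (by omega) ?_).1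
    rw [← mul_assoc c8, ← e, ← e1, e]; group
  have j10 : j * c10 * j⁻¹ = c10 := by
    have m : c8 * c9 ∈ M.UU 8 (10 - 1) :=
      mul_mem (U_le_UU (by omega) (by omega) u8) (U_le_UU (by omega) (by omega) h9)
    refine (uniq' (T_conj_U jT u10) u10 (T_conj_UU jT m) m (by omega) ?_).2
    rw [← e, ← e1, e]; group
  -- `j` inverts a nontrivial element of `V 8`
  obtain ⟨a', ha', a1'⟩ := H.exists_V (i := 4) (by omega)
  obtain ⟨d6, g6, d7, g7, d8, g8, e', ne'⟩ := H.VV (k := 4) (by omega) ha' h10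
  obtain ⟨-, m8⟩ := ne' a1' n10
  replace g6 : d6 ∈ M.Vz 6 := g6
  replace g7 : d7 ∈ M.U 7 := g7
  replace g8 : d8 ∈ M.Vz 8 := g8
  have v6 := H.V_le (by omega) g6
  have v8 := H.V_le (by omega) g8
  have e2 : j * ⁅a', c10⁆ * j⁻¹ = ⁅a', c10⁆⁻¹ := by
    rw [ob_conj, i4 a' ha', j10]
    refine ob_i ?_
    rw [e']
    exact (((H.V_comm (by omega) ha' v6 (by omega) (by omega)).mul_right
        (H.V_comm (by omega) ha' g7 (by omega) (by omega))).mul_right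
        (H.V_comm (by omega) ha' v8 (by omega) (by omega))).symm
  have k8 : j * d8 * j⁻¹ = d8⁻¹ := by
    have m : d6 * d7 ∈ M.UU 6 (8 - 1) :=
      mul_mem (U_le_UU (by omega) (by omega) v6) (U_le_UU (by omega) (by omega) g7)
    refine (uniq' (T_conj_U jT v8) (inv_mem v8) (T_conj_UU jT m) (inv_mem m) (by omega) ?_).2
    have c : Commute d8 (d6 * d7) := (H.V_comm (by omega) g8 v6 (by omega) (by omega)).mul_right
      (H.V_comm (by omega) g8 g7 (by omega) (by omega))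
    rw [← mul_inv_rev, c.eq, ← e', ← e2, e']; group
  -- `j` inverts `U 3`
  obtain ⟨u, hu, u1⟩ := exists_U (M := M) 3
  have hu' := T_conj_U jT hu
  have s1 : ⁅u, c8⁆ ∈ M.Vz 6 := H.comm5 (i := 3) (by omega) hu h8
  have s2 : ⁅u, d8⁆ ∈ M.Vz 6 := H.comm5 (i := 3) (by omega) hu g8
  have ju : j * u * j⁻¹ = u⁻¹ := by
    refine eq_inv_of_mul_eq_one_left (H.eq_one_of_V (by omega) h8 n8 (mul_mem hu' hu) ?_ (by omega))
    rw [← commutatorElement_eq_one_iff_commute,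
      ob_mul (H.V_comm (by omega) s1 hu' (by omega) (by omega))]
    nth_rewrite 2 [← j8]
    rw [← ob_conj, i6 _ s1, mul_inv_cancel]
  have e3 := i6 _ s2
  rw [ob_conj, ju, k8, ob_ii (H.V_comm (by omega) s2 hu (by omega) (by omega))
    (H.V_comm (by omega) s2 v8 (by omega) (by omega))] at e3
  exact u1 (H.eq_one_of_V (by omega) g8 m8 hu (commutatorElement_eq_one_iff_commute.1
    (Hx.eq_one_of_inv hp (H.V_le (by omega) s2) e3)) (by omega))

/-- `QW`-type fact: `V k` has exponent two: `onto5`, and `U (k-3)` has exponent two (`S2.charP`,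
`even`). -/
theorem V_sq (hk : k % 2 = 0) (hz : z ∈ M.Vz k) : z * z = 1 := by
  obtain ⟨F, _, _, ⟨E⟩⟩ := H.ob_S2 (i := k - 3) (by omega)
  have := E.charP
  rw [H.p_two] at this
  obtain ⟨y, hy, y1⟩ := H.exists_V (i := k - 3 + 5) (by omega)
  obtain ⟨u, hu, e⟩ := H.onto5 (i := k - 3) (by omega) hy y1 (ob_V hz (by ring))
  obtain ⟨s, rfl⟩ := E.xs u hu
  have c : Commute ⁅E.x s, y⁆ (E.x s) := by
    rw [e]; exact H.V_comm hk hz hu (by omega) (by omega)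
  rw [← e, ← ob_mul c, ← E.x_add, CharTwo.add_self_eq_zero, E.x_zero, commutatorElement_one_left]

/-- WLOG `k = 2`.  `⁅z,u⁆ ∈ W 4` (`W_conj`), so it is `v₄ a₅ v₆` (`W_dec`, `uniq`).  Take `w ∈ V 8` with
`⁅z,w⁆ ∈ V 4 a₅⁻¹ V 6` (`VV_onto`) and `g = u w`: `⁅z,g⁆ = ⁅z,u⁆ u ⁅z,w⁆ u⁻¹ = v₄' v₆'`
(`⁅U 5, U 8⁆ ≤ V 6` by `QW`).  Claim `g = 1`.  If `v₆' = 1`: `g z⁻¹ g⁻¹ = z⁻¹ v₄' = a z⁻¹ a⁻¹` with `a ∈ U 7`
(`onto5'`), `a⁻¹ g` commutes with `z` and fixes `x 8`, so it fixes `x 7` (`fix_of_V`), `g` fixes `x 7`,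
`U_eq_one`.  If `v₆' ≠ 1`: `v₄' v₆' = a v₆' a⁻¹`, `a ∈ U 1` (`onto5`), is in `Ball 4 (a • x 10)`;
`three_centers` (`j = 2`) for the lines `a • x (8 + ·)`, `x (8 - ·)`, `g • x (8 - ·)` and `b = z`,
`c = g z⁻¹ g⁻¹` gives a contradiction unless `g • x 7 = x 7`. -/
theorem star (hk : k % 2 = 0) (hz : z ∈ M.Vz k) (h1 : z ≠ 1) (hu : u ∈ M.U (k + 6))
    (h : ⁅z, u⁆ ∈ M.UU (k + 2) (k + 5)) : u ∈ M.Vz (k + 6) := by
  have hn := H.n
  have hm : M.m = 4 := by simp only [Pol.m]; omega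
  have zU := H.V_le hk hz
  have zW : z ∈ M.Wz (k + 2) := H.V_le_W (by omega) hz
  have hW : ⁅z, u⁆ ∈ M.Wz (k + 2) := by
    rw [commutatorElement_def, mul_assoc, mul_assoc, ← mul_assoc u]
    exact mul_mem zW (H.W_conj (U_le_UU (by omega) (by omega) hu) (inv_mem zW))
  obtain ⟨a2, h2, a3, h3, v4, h4, a5, h5, v6, h6, e⟩ := H.W_dec (by omega) hW
  replace h4 : v4 ∈ M.Vz (k + 2) := h4
  replace h5 : a5 ∈ M.U (k + 3) := ob_U h5 (by ring)
  replace h6 : v6 ∈ M.Vz (k + 4) := ob_V h6 (by ring)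
  have u4 := H.V_le (by omega) h4
  have u6 := H.V_le (by omega) h6
  have r : v4 * a5 * v6 ∈ M.UU (k + 2) (k + 5) := mul_mem (mul_mem (U_le_UU (by omega) (by omega) u4)
    (U_le_UU (by omega) (by omega) h5)) (U_le_UU (by omega) (by omega) u6)
  have r' : a2 * a3 ∈ M.UU (k + 2) (k + 5) := by
    have := mul_mem h (inv_mem r)
    rwa [e, show a2 * a3 * v4 * a5 * v6 * (v4 * a5 * v6)⁻¹ = a2 * a3 by group] at this
  replace h2 : a2 ∈ M.U k := ob_U (H.V_le (by omega) h2) (by ring)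
  replace h3 : a3 ∈ M.U (k + 1) := ob_U h3 (by ring)
  obtain rfl : a2 = 1 := by
    refine U_inf_UU h2 (j := k + 5) ?_ (by omega)
    simpa using mul_mem (ob_UU r' (i' := k + 1) (by omega) le_rfl)
      (inv_mem (U_le_UU (i := k + 1) (j := k + 5) le_rfl (by omega) h3))
  obtain rfl : a3 = 1 :=
    U_inf_UU h3 (j := k + 5) (ob_UU (by simpa using r') (by omega) le_rfl) (by omega)
  rw [one_mul, one_mul] at e
  obtain ⟨w, hw, b4, g4, b6, g6, e'⟩ := H.VV_onto hk hz h1 (inv_mem h5)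
  have wU := H.V_le (by omega) hw
  have w4 := H.V_le (by omega) g4
  have w6 := H.V_le (by omega) g6
  have hy : ⁅u, a5⁻¹⁆ ∈ M.Vz (k + 4) := H.QW (by omega) (U_le_UU (by omega) (by omega) hu)
    (H.U_le_W (by omega) (by omega) (inv_mem h5))
  have hg : u * w ∈ M.U (k + 6) := mul_mem hu wU
  have eg : ⁅z, u * w⁆ = v4 * b4 * (v6 * ⁅u, a5⁻¹⁆ * b6) := by
    have c1 : Commute b4 u := H.V_comm (by omega) g4 hu (by omega) (by omega)
    have c2 : Commute b6 u := H.V_comm (by omega) g6 hu (by omega) (by omega)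
    have c3 : Commute b4 (a5 * v6) := (H.V_comm (by omega) g4 h5 (by omega) (by omega)).mul_right
      (H.V_comm (by omega) g4 u6 (by omega) (by omega))
    have c4 : Commute (v6 * ⁅u, a5⁻¹⁆) a5 :=
      H.V_comm (by omega) (mul_mem h6 hy) h5 (by omega) (by omega)
    calc _ = ⁅z, u⁆ * (u * ⁅z, w⁆ * u⁻¹) := by simp only [commutatorElement_def]; group
      _ = v4 * (a5 * v6) * (u * b4 * u⁻¹) * (⁅u, a5⁻¹⁆ * a5⁻¹) * (u * b6 * u⁻¹) := by
        rw [e, e']; simp only [commutatorElement_def]; group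
      _ = v4 * (a5 * v6 * b4) * (⁅u, a5⁻¹⁆ * a5⁻¹) * b6 := by
        rw [← c1.eq, ← c2.eq]; group
      _ = v4 * b4 * (a5 * (v6 * ⁅u, a5⁻¹⁆) * a5⁻¹) * b6 := by rw [← c3.eq]; simp only [mul_assoc]
      _ = _ := by rw [← c4.eq, mul_inv_cancel_right]; simp only [mul_assoc]
  have k4 := mul_mem h4 g4
  have k6 := mul_mem (mul_mem h6 hy) g6
  generalize v4 * b4 = p at eg k4
  generalize v6 * ⁅u, a5⁻¹⁆ * b6 = q at eg k6
  suffices hf : (u * w) • M.x (k + 6 - 1) = M.x (k + 6 - 1) by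
    rw [eq_inv_of_mul_eq_one_left (U_eq_one hg (rtb_adj _) (rtb_ne _).symm hf)]
    exact inv_mem hw
  generalize u * w = g at hg eg
  by_cases q1 : q = 1
  · obtain ⟨a, ha, ea⟩ := H.onto5' (i := k + 5) (by omega) (ob_V (inv_mem hz) (by ring))
      (inv_ne_one.2 h1) (ob_V k4 (by ring))
    have c : Commute p z := H.V_comm (by omega) k4 zU (by omega) (by omega)
    rw [q1, mul_one] at eg
    have c' : Commute (a⁻¹ * g) z := by
      have e1 : g * z⁻¹ * g⁻¹ = a * z⁻¹ * a⁻¹ := by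
        calc _ = z⁻¹ * ⁅z, g⁆ := by simp only [commutatorElement_def]; group
          _ = ⁅a, z⁻¹⁆ * z⁻¹ := by rw [eg, ea, c.inv_right.eq]
          _ = _ := by simp only [commutatorElement_def]; group
      refine Commute.inv_right_iff.1 ?_
      calc a⁻¹ * g * z⁻¹ = a⁻¹ * (g * z⁻¹ * g⁻¹) * g := by group
        _ = _ := by rw [e1]; group
    have f := H.fix_of_V hk hz h1 c' (j := k + 6) (k := k + 6 - 1) (by omega) (by omega)
      (by rw [mul_smul, U_fix hg (by omega) (by omega), U_fix (inv_mem ha) (by omega) (by omega)])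
      (by omega)
    rwa [mul_smul, inv_smul_eq_iff, U_fix ha (by omega) (by omega)] at f
  · obtain ⟨a, ha, ea⟩ := H.onto5 (i := k - 1) (by omega) (ob_V k6 (by ring)) q1 (ob_V k4 (by ring))
    by_contra hf
    have bz : z ∈ M.Ball M.m (M.x (k + 4)) := hm ▸ H.V_ball hk hz
    have bq : q ∈ M.Ball M.m (M.x (k + 4 + 4)) := hm ▸ H.V_ball (by omega) k6
    have fa : a • M.x (1 + (k + 6)) = M.x (k + 6 + 1) := by
      rw [add_comm]; exact U_fix ha (by omega) (by omega)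
    refine Pol.three_centers (P := M.toPol) (j := 2) hn (((line (M := M)).shift (k + 6)).smul a)
      ((line (M := M)).rev (k + 6)) (((line (M := M)).rev (k + 6)).smul g) ?_ ?_ ?_ ?_ (Ne.symm hf)
      (b := z) (c := g * z⁻¹ * g⁻¹) ?_ ?_ ?_ h1 (by simpa using h1)
    · simp only [zero_add, sub_zero]; exact U_fix ha (by omega) (by omega)
    · simp only [zero_add, sub_zero]
      rw [U_fix ha (by omega) (by omega), U_fix hg (by omega) (by omega)]
    · simp only [fa]; exact rtb_ne _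
    · simp only [fa]
      rw [← U_fix hg (k := k + 6 + 1) (by omega) (by omega)]
      exact fun h => rtb_ne _ (smul_left_cancel g h)
    · have : z * (g * z⁻¹ * g⁻¹) = a * q * a⁻¹ := by
        calc _ = ⁅z, g⁆ := by simp only [commutatorElement_def]; group
          _ = ⁅a, q⁆ * q := by rw [eg, ea]
          _ = _ := by simp only [commutatorElement_def]; group
      rw [this, show ((2 : ℕ) : ℤ) + (k + 6) = k + 4 + 4 by push_cast; ring]
      exact Pol.Ball_conj a bq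
    · rw [show k + 6 - ((2 : ℕ) : ℤ) = k + 4 by push_cast; ring]; exact bz
    · rw [show k + 6 - ((2 : ℕ) : ℤ) = k + 4 by push_cast; ring]
      exact Pol.Ball_conj g (inv_mem bz)

/-- `u ↦` the `U (k-5)`-component of `⁅z,u⁆` (`z ∈ V (k-6)`) is a homomorphism with kernel in `V k`
(`star`); `card_V`. -/
theorem card_le (hk : k % 2 = 0) : Nat.card (M.U k) ≤ Nat.card (M.U 1) ^ 2 := by
  have hn := H.n
  obtain ⟨z, hz, z1⟩ := H.exists_V (i := k - 6) (by omega)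
  have zU := H.V_le (by omega) hz
  have d : ∀ u : M.U k, ∃ a : M.U (k - 6 + 1), ∃ b ∈ M.UU (k - 6 + 1 + 1) (k - 1),
      ⁅z, (u : G)⁆ = a * b := fun u => by
    obtain ⟨a, ha, b, hb, e⟩ := dec (comm zU u.2 (by omega) (by omega)) (by omega) (by omega)
    exact ⟨⟨a, ha⟩, b, hb, e⟩
  choose φ β hβ e using d
  have := ob_card (M.U k) (M.Vz k) φ fun u u' h => by
    refine ob_V (H.star (k := k - 6) (by omega) hz z1
      (ob_U (mul_mem (inv_mem u.2) u'.2) (by ring)) ?_) (by ring)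
    have e1 : ⁅z, (u : G)⁻¹ * u'⁆ = (u : G)⁻¹ * ((β u)⁻¹ * β u') * (u : G)⁻¹⁻¹ := by
      calc _ = (u : G)⁻¹ * (⁅z, (u : G)⁆⁻¹ * ⁅z, (u' : G)⁆) * (u : G)⁻¹⁻¹ := by
            simp only [commutatorElement_def]; group
        _ = _ := by rw [e, e, h]; group
    rw [e1]
    exact ob_UU (conj_UU (mul_mem (inv_mem (hβ u)) (hβ u')) (by omega) (inv_mem u.2) (by omega)
      (by omega)) (by omega) (by omega)
  rwa [card_U_even (i := 1) (j := k - 6 + 1) (by omega), H.card_V hk (j := 1) (by omega), ← sq] at this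

/-- `E : S2 1 F`, `2 = 0` in `F` (`charP`, `p_two`), `m₁ = E.w 1` is an involution (`w_sq`, `h_one`).
`1 ≠ e ∈ V 8`, `m = l e r` is `Rf 16 = Rf 0` (`exists_mu`, `l, r ∈ U 16 = U 0`); `m⁻¹ = r⁻¹ e l⁻¹`, so
`r = l⁻¹` (`mu_uniq`), `f = l`, `m² = 1`.  `ρ = m₁ m` is `Rot 2`.  `ρ⁴ = m₁ c`, `c = g m₁ g⁻¹ ∈ L 5`,
`g = m m₁ m` (`Rf.conj_U`: `1 ↦ 7 ↦ 3 ↦ 5` modulo `16`); `c` centralises `L 1` (`L_comm`), so `ρ⁸ = 1`.
For `i = 1 + 2k` put `x i t = ρ^k E.x t ρ^(-k)`; `x 9 = E.y` by `w_x`.  Put `e₄ = ρ⁻² e ρ² ∈ V 4`,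
`x₄ l = h l e₄ (h l)⁻¹`, `x₄ 0 = 1` (additive: `h_add`, `h_neg`; injective: `h_free`; onto: `card_V`,
`S2.card`; `h_four`: `h_mul`), and `x i t = ρ^k x₄ t ρ^(-k)` for `i = 4 + 2k`.  `m₁ ρ m₁⁻¹ = ρ⁻¹ = m ρ m⁻¹`.  Odd
`i`: `m₁ x 1 m₁⁻¹ = x 9` gives `w_x`, and `m = m₁ ρ` gives `m_x`.  Even `i`: `m` centralises `V 4` (`V_comm`),
which gives `m_x`, and `m₁ = ρ m` gives `w_x`. -/
theorem exists_od : ∃ (F : Type) (_ : Field F) (_ : Fintype F), Nonempty (M.OD F) := by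
  classical
  have hn := H.n
  obtain ⟨F, _, _, ⟨E⟩⟩ := H.ob_S2 (i := 1) (by omega)
  refine ⟨F, inferInstance, inferInstance, ?_⟩
  have := E.charP
  rw [H.p_two] at this
  have w2 : E.w 1 * E.w 1 = 1 := by rw [E.w_sq one_ne_zero, CharTwo.neg_eq, E.h_one]
  have wR : M.Rf 2 (E.w 1) := E.rf one_ne_zero
  obtain ⟨e, he, e1⟩ := H.exists_V (i := 8) (by omega)
  have eU := H.V_le (by omega) he
  have ei : e⁻¹ = e := inv_eq_of_mul_eq_one_right (H.V_sq (by omega) he)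
  obtain ⟨f, hf, r, hr, hm⟩ := exists_mu eU e1
  obtain rfl : r = f⁻¹ := by
    refine (mu_uniq eU hf hr (inv_mem hr) (inv_mem hf) hm ?_).2
    have := hm.inv
    rwa [mul_inv_rev, mul_inv_rev, ei, ← mul_assoc] at this
  have f0 : f ∈ M.U 0 := by rwa [U_per (i := 0) (by omega)] at hf
  obtain ⟨m, em⟩ : ∃ m, m = f * e * f⁻¹ := ⟨_, rfl⟩
  have mR : M.Rf 0 m := em ▸ hm.per (by omega)
  have m2 : m * m = 1 := by rw [em, conj_mul, H.V_sq (by omega) he]; group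
  have wi : (E.w 1)⁻¹ = E.w 1 := inv_eq_of_mul_eq_one_right w2
  have mi : m⁻¹ = m := inv_eq_of_mul_eq_one_right m2
  obtain ⟨ρ, eρ⟩ : ∃ ρ, ρ = E.w 1 * m := ⟨_, rfl⟩
  have ρR : M.Rot 2 ρ := eρ ▸ wR.mul_Rf mR
  have dw : E.w 1 * ρ * (E.w 1)⁻¹ = ρ⁻¹ := by
    rw [eρ, ← mul_assoc, w2, one_mul, mul_inv_rev, mi]
  have dm : m * ρ * m⁻¹ = ρ⁻¹ := by
    rw [eρ, mul_assoc, mul_inv_cancel_right, mul_inv_rev, mi, wi]
  have mw : m = E.w 1 * ρ := by rw [eρ, ← mul_assoc, w2, one_mul]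
  have wm : E.w 1 = ρ * m := by rw [eρ, mul_assoc, m2, mul_one]
  obtain ⟨c, hc, c2, ρ4⟩ : ∃ c ∈ M.L (1 + 4), c * c = 1 ∧ ρ ^ (4 : ℤ) = E.w 1 * c := by
    refine ⟨m * E.w 1 * m⁻¹ * E.w 1 * (m * E.w 1 * m⁻¹)⁻¹,
      ob_L ((mR.conj_Rf wR).per (d := 14) (by omega)) (E.w_mem 1) (by omega), ?_, ?_⟩
    · rw [conj_mul, w2]; group
    · rw [eρ, mul_inv_rev, mul_inv_rev, inv_inv, mi, wi, zpow_ofNat]
      simp only [pow_succ, pow_zero, one_mul, mul_assoc]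
  have ρ8 : ρ ^ (8 : ℤ) = 1 := by
    rw [show (8 : ℤ) = 4 + 4 by norm_num, zpow_add, ρ4,
      (H.L_comm (by omega) (E.w_mem 1) hc).symm.mul_mul_mul_comm, w2, c2, mul_one]
  have ρ4x : ∀ t, ρ ^ (4 : ℤ) * E.x t * (ρ ^ (4 : ℤ))⁻¹ = E.w 1 * E.x t * (E.w 1)⁻¹ := fun t => by
    rw [ρ4, mul_assoc _ c, ← (H.L_comm (by omega) (U_le_L 1 (E.xm t)) hc).eq]; group
  -- the coordinates of `V 4`
  obtain ⟨d, ed⟩ : ∃ d, d = (ρ ^ (2 : ℤ))⁻¹ * e * (ρ ^ (2 : ℤ))⁻¹⁻¹ := ⟨_, rfl⟩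
  have hd : d ∈ M.Vz (1 + 3) := ed ▸ (ρR.zpow 2).inv.conj_V he (by omega)
  have d1 : d ≠ 1 := fun h => e1 (conj_eq_one_iff.1 (ed ▸ h))
  obtain ⟨y, y0, yn⟩ : ∃ y : F → G, y 0 = 1 ∧ ∀ t, t ≠ 0 → y t = E.h t * d * (E.h t)⁻¹ :=
    ⟨fun t => if t = 0 then 1 else E.h t * d * (E.h t)⁻¹, if_pos rfl, fun t ht => if_neg ht⟩
  have ym : ∀ t, y t ∈ M.Vz 4 := fun t => by
    by_cases ht : t = 0
    · rw [ht, y0]; exact one_mem _
    · rw [yn t ht]; exact T_conj_V (E.h_T ht) hd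
  have ya : ∀ s t, y (s + t) = y s * y t := fun s t => by
    by_cases hs : s = 0
    · rw [hs, y0, zero_add, one_mul]
    by_cases ht : t = 0
    · rw [ht, y0, add_zero, mul_one]
    rw [yn s hs, yn t ht]
    by_cases hst : s + t = 0
    · rw [hst, y0, eq_neg_of_add_eq_zero_left hst]
      exact (Subgroup.mem_bot.1 (E.h_neg (H.qm (by omega)) ht hd)).symm
    · rw [yn _ hst]
      exact inv_mul_eq_one.1 (Subgroup.mem_bot.1 (E.h_add (H.qm (by omega)) hs ht hst hd))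
  have yi : ∀ t, y t = 1 → t = 0 := fun t h => by
    by_contra ht
    rw [yn t ht] at h
    exact d1 (by simpa using h)
  have ys : ∀ g ∈ M.Vz 4, ∃ t, y t = g := fun g hg => by
    have inj : Function.Injective fun t => (⟨y t, ym t⟩ : M.Vz 4) := fun s t h => by
      have h' : y s = y t := congrArg Subtype.val h
      refine sub_eq_zero.1 (yi _ (mul_right_cancel (b := y t) ?_))
      rw [← ya, sub_add_cancel, h', one_mul]
    obtain ⟨t, ht⟩ := (inj.bijective_of_nat_card_le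
      (by rw [E.card, H.card_V (j := 1) (by omega) (by omega)])).2 ⟨g, hg⟩
    exact ⟨t, congrArg Subtype.val ht⟩
  obtain ⟨x, xo, xe⟩ := ob_x ρ E.x y
  have par : ∀ i : ℤ, (∃ k, i = 1 + 2 * k) ∨ ∃ k, i = 4 + 2 * k := fun i => by
    rcases Int.emod_two_eq_zero_or_one i with h | h
    · exact .inr ⟨(i - 4) / 2, by omega⟩
    · exact .inl ⟨(i - 1) / 2, by omega⟩
  have xρ : ∀ i t, ρ * x i t * ρ⁻¹ = x (i + 2) t := fun i t => by
    rcases par i with ⟨k, h⟩ | ⟨k, h⟩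
    · rw [xo i k h, xo (i + 2) (1 + k) (by omega), zpow_add, zpow_one]; group
    · rw [xe i k h, xe (i + 2) (1 + k) (by omega), zpow_add, zpow_one]; group
  have wo : ∀ i k, i = 1 + 2 * k → ∀ t, E.w 1 * x i t * (E.w 1)⁻¹ = x (10 - i) t := fun i k h t => by
    rw [xo i k h, xo (10 - i) (-k + 4) (by omega), ob_dih dw, ← ρ4x, zpow_add]; group
  have me : ∀ i k, i = 4 + 2 * k → ∀ t, m * x i t * m⁻¹ = x (8 - i) t := fun i k h t => by
    have cf := H.V_comm (by omega) (ym t) f0 (by omega) (by omega)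
    have : Commute (y t) m :=
      em ▸ (cf.mul_right (H.V_comm (by omega) (ym t) eU (by omega) (by omega))).mul_right cf.inv_right
    rw [xe i k h, xe (8 - i) (-k) (by omega), ob_dih dm, ← this.eq, mul_inv_cancel_right]
  have mV : ∀ i, i % 2 = 0 → ∀ t, x i t ∈ M.Vz i := fun i hi t => by
    rw [xe i ((i - 4) / 2) (by omega)]
    exact (ρR.zpow _).conj_V (ym t) (by omega)
  have x4 : ∀ t, x 4 t = y t := fun t => by rw [xe 4 0 (by omega)]; simp
  refine ⟨⟨E, x, f, m, CharTwo.two_eq_zero, fun t => ?_, fun t => ?_, fun i s t => ?_,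
    fun i t h => ?_, fun i t => ?_, mV, fun i hi g hg => ?_, fun i hi g hg => ?_, fun i t => ?_,
    f0, ?_, mR, fun i t => ?_, fun i t => ?_, fun l hl t => ?_⟩⟩
  · rw [xo 1 0 (by omega)]; simp
  · rw [xo 9 4 (by omega), ρ4x, E.w_x one_ne_zero, CharTwo.neg_eq]; simp
  · rcases par i with ⟨k, h⟩ | ⟨k, h⟩
    · simp only [xo i k h, E.x_add, conj_mul]
    · simp only [xe i k h, ya, conj_mul]
  · rcases par i with ⟨k, e⟩ | ⟨k, e⟩
    · rw [xo i k e] at h; exact E.xi t (by simpa using h)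
    · rw [xe i k e] at h; exact yi t (by simpa using h)
  · rcases par i with ⟨k, e⟩ | ⟨k, e⟩
    · rw [xo i k e]; exact (ρR.zpow k).conj_U (E.xm t) e
    · exact H.V_le (by omega) (mV i (by omega) t)
  · obtain ⟨t, ht⟩ := E.xs _ ((ρR.zpow ((i - 1) / 2)).inv.conj_U hg (by omega))
    exact ⟨t, by rw [xo i ((i - 1) / 2) (by omega), ht]; group⟩
  · obtain ⟨t, ht⟩ := ys _ ((ρR.zpow ((i - 4) / 2)).inv.conj_V hg (by omega))
    exact ⟨t, by rw [xe i ((i - 4) / 2) (by omega), ht]; group⟩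
  · rcases par i with ⟨k, h⟩ | ⟨k, h⟩
    · rw [xo i k h, xo (i + 16) (k + 8) (by omega), zpow_add, ρ8, mul_one]
    · rw [xe i k h, xe (i + 16) (k + 8) (by omega), zpow_add, ρ8, mul_one]
  · rw [xe 8 2 (by omega), yn 1 one_ne_zero, E.h_one, ed, em]; group
  · rcases par i with ⟨k, h⟩ | ⟨k, h⟩
    · exact wo i k h t
    · rw [show 10 - i = 8 - i + 2 by ring, ← xρ, ← me i k h, wm]; group
  · rcases par i with ⟨k, h⟩ | ⟨k, h⟩
    · rw [show 8 - i = 10 - (i + 2) by ring, ← wo (i + 2) (k + 1) (by omega), ← xρ, mw]; group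
    · exact me i k h t
  · by_cases ht : t = 0
    · rw [ht, mul_zero, x4, y0]; group
    · rw [x4, x4, yn t ht, yn _ (mul_ne_zero hl ht), E.h_mul hl ht]; group

end Oc

namespace OD

variable {F : Type} [Field F] (D : M.OD F)

include D in
/-- transport of coordinates along a field isomorphism (`x i ∘ φ.symm`) -/
theorem congr {F' : Type} [Field F'] (φ : F ≃+* F') : Nonempty (M.OD F') := by
  let E : M.S2 1 F' :=
    { x := fun t => D.E.x (φ.symm t)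
      y := fun t => D.E.y (φ.symm t)
      st := ⟨fun t u => by rw [D.E.st.xadd, map_add], fun t u => by rw [D.E.st.yadd, map_add],
        fun t u ht => by simpa using D.E.st.wx (φ.symm t) (φ.symm u) (by simpa using ht),
        fun t u ht => by simpa using D.E.st.wy (φ.symm t) (φ.symm u) (by simpa using ht)⟩
      xm := fun t => D.E.xm _
      xs := fun g hg => by obtain ⟨t, ht⟩ := D.E.xs g hg; exact ⟨φ t, by simpa using ht⟩
      xi := fun t h => by simpa using D.E.xi _ h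
      ym := fun t => D.E.ym _
      ys := fun g hg => by obtain ⟨t, ht⟩ := D.E.ys g hg; exact ⟨φ t, by simpa using ht⟩
      yi := fun t h => by simpa using D.E.yi _ h }
  have ew : ∀ t, E.w t = D.E.w (φ.symm t) := fun t => by
    simp [E, S2.w, RootSub.StRel.w]
  have e1 : E.w 1 = D.E.w 1 := by rw [ew, map_one]
  have eh : ∀ t, E.h t = D.E.h (φ.symm t) := fun t => by
    change E.w t * (E.w 1)⁻¹ = D.E.w _ * (D.E.w 1)⁻¹
    rw [e1, ew]
  refine ⟨⟨E, fun i t => D.x i (φ.symm t), D.f, D.m, ?_, fun t => D.x_one _, fun t => D.x_nine _,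
    fun i s t => by rw [map_add, D.x_add], fun i t h => by simpa using D.x_inj i _ h,
    fun i t => D.mem_U i _, fun i hi t => D.mem_V i hi _, fun i hi g hg => ?_, fun i hi g hg => ?_,
    fun i t => D.per i _, D.f_mem, by rw [map_one]; exact D.m_eq, D.rf,
    fun i t => by rw [e1, D.w_x], fun i t => D.m_x i _,
    fun l hl t => by rw [eh, D.h_four _ (by simpa using hl), map_mul]⟩⟩
  · rw [← map_ofNat φ 2, D.two, map_zero]
  · obtain ⟨t, ht⟩ := D.surj_U i hi g hg; exact ⟨φ t, by simpa using ht⟩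
  · obtain ⟨t, ht⟩ := D.surj_V i hi g hg; exact ⟨φ t, by simpa using ht⟩

end OD

end MP

end Cfsg.Agent.BN2
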