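import Cfsg.Agent.BN2.OcA

/-!
# Finite Moufang octagons (S1144): the relations in `W`
-/

set_option autoImplicit false
set_option linter.unusedSectionVars false
set_option linter.unusedVariables false

namespace Cfsg.Agent.BN2

open scoped commutatorElement

namespace MP

variable {G V : Type} [Group G] [MulAction G V] [Finite G] [Finite V] {M : MP G V}

namespace OD

variable {F : Type} [Field F] [Finite F] (D : M.OD F) {i j : ℤ} {g : G} {c l : F}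

theorem x_zero (i : ℤ) : D.x i 0 = 1 := by
  have := D.x_add i 0 0
  rwa [add_zero, left_eq_mul] at this

include D in
theorem add_self (t : F) : t + t = 0 := by rw [← two_mul, D.two, zero_mul]

include D in
theorem neg_one : (-1 : F) = 1 := neg_eq_of_add_eq_zero_left (D.add_self 1)

theorem x_sq (i : ℤ) (t : F) : D.x i t * D.x i t = 1 := by
  rw [← D.x_add, D.add_self, D.x_zero]

theorem x_inv (i : ℤ) (t : F) : (D.x i t)⁻¹ = D.x i t :=
  inv_eq_of_mul_eq_one_left (D.x_sq i t)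

theorem x_injective (i : ℤ) : Function.Injective (D.x i) := fun s t h => by
  have := D.x_inj i (s + t) (by rw [D.x_add, h, D.x_sq])
  rw [← add_zero s, ← D.add_self t, ← add_assoc, this, zero_add]

theorem x_congr (h : i % 16 = j % 16) (t : F) : D.x i t = D.x j t := by
  have k : ∀ k : ℤ, D.x (i + 16 * k) t = D.x i t := fun k => by
    induction k using Int.induction_on with
    | zero => simp
    | succ k ih => rw [← ih, ← D.per (i + 16 * k)]; congr 1; ring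
    | pred k ih => rw [← ih, ← D.per]; congr 1; ring
  rw [← k ((j - i) / 16)]; congr 1; omega

/-- `S2.w_sq`, `-1 = 1` -/
theorem w_sq : D.E.w 1 * D.E.w 1 = 1 := by
  rw [D.E.w_sq one_ne_zero, D.neg_one, D.E.h_one]

theorem m_sq : D.m * D.m = 1 := by
  rw [D.m_eq]
  calc _ = D.f * (D.x 8 1 * D.x 8 1) * D.f⁻¹ := by group
    _ = 1 := by rw [D.x_sq, mul_one, mul_inv_cancel]

/-- `w 1 = x 1 1 * x 9 1 * x 1 1 = x 9 1 * x 1 1 * x 9 1` -/
theorem w_eq : D.x 1 1 * D.x 9 1 * (D.x 1 1)⁻¹ = D.E.w 1 := by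
  rw [D.x_inv, D.x_one, D.x_nine, S2.w, RootSub.StRel.w, inv_one, D.neg_one]

theorem w_eq' : D.E.w 1 = D.x 9 1 * D.x 1 1 * D.x 9 1 := by
  rw [D.x_one, D.x_nine, D.E.w_eq one_ne_zero, inv_one, D.neg_one]

theorem rot (k : ℤ) : M.Rot (2 * k) (D.ρ ^ k) := by
  have h : M.Rot 2 D.ρ := (D.E.rf one_ne_zero).mul_Rf D.rf
  induction k using Int.induction_on with
  | zero => intro i; simp
  | succ k ih => rw [zpow_add_one, mul_add, mul_one]; exact ih.mul h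
  | pred k ih => rw [zpow_sub_one, mul_sub, mul_one, sub_eq_add_neg]; exact ih.mul h.inv

theorem ρ_x (k i : ℤ) (t : F) : D.ρ ^ k * D.x i t * (D.ρ ^ k)⁻¹ = D.x (i + 2 * k) t := by
  have h : ∀ i, D.ρ * D.x i t * D.ρ⁻¹ = D.x (i + 2) t := fun i => by
    calc _ = D.E.w 1 * (D.m * D.x i t * D.m⁻¹) * (D.E.w 1)⁻¹ := by rw [ρ]; group
      _ = _ := by rw [D.m_x, D.w_x]; congr 1; ring
  induction k using Int.induction_on with
  | zero => simp
  | succ k ih =>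
    rw [show i + 2 * (k + 1) = i + 2 * k + 2 by ring, ← h, ← ih]; group
  | pred k ih =>
    have := h (i + 2 * (-k - 1))
    rw [show i + 2 * (-k - 1) + 2 = i + 2 * -k by ring, ← ih] at this
    calc _ = D.ρ⁻¹ * (D.ρ ^ (-k : ℤ) * D.x i t * (D.ρ ^ (-k : ℤ))⁻¹) * D.ρ := by group
      _ = _ := by rw [← this]; group

theorem rf_ρm (k : ℤ) : M.Rf (2 * k) (D.ρ ^ k * D.m) := fun i => by
  rw [mul_smul, D.rf, D.rot k]; congr 1; ring

theorem ρm_x (k i : ℤ) (t : F) :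
    D.ρ ^ k * D.m * D.x i t * (D.ρ ^ k * D.m)⁻¹ = D.x (8 + 2 * k - i) t := by
  calc _ = D.ρ ^ k * (D.m * D.x i t * D.m⁻¹) * (D.ρ ^ k)⁻¹ := by group
    _ = _ := by rw [D.m_x, D.ρ_x]; congr 1; ring

theorem Act.conj {k : G} (h : D.Act g i c) (e : ∀ t, k * D.x i t * k⁻¹ = D.x j t) :
    D.Act (k * g * k⁻¹) j c := fun t => by
  rw [← e, ← e, ← h]; group

theorem Act.ne (h : D.Act g i c) : c ≠ 0 := fun e => by
  have := h 1
  rw [e, zero_mul, D.x_zero, conj_eq_one_iff] at this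
  exact one_ne_zero (D.x_inj _ _ this)

theorem Act.inv (h : D.Act g i c) : D.Act g⁻¹ i c⁻¹ := fun t => by
  conv_lhs => rw [← mul_inv_cancel_left₀ (h.ne D) t, ← h]
  group

theorem Act.mul {g' : G} {c' : F} (h : D.Act g i c) (h' : D.Act g' i c') : D.Act (g * g') i (c * c') := fun t => by
  rw [mul_assoc c, ← h, ← h']; group

theorem Act.uniq {c' : F} (h : D.Act g i c) (h' : D.Act g i c') : c = c' := by
  simpa using D.x_injective i ((h 1).symm.trans (h' 1))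

theorem T_surj (hg : g ∈ M.T) (i : ℤ) (t : F) : ∃ t', g * D.x i t * g⁻¹ = D.x i t' := by
  rcases Int.emod_two_eq_zero_or_one i with h | h
  · exact (D.surj_V i h _ (T_conj_V hg (D.mem_V i h t))).imp fun _ => Eq.symm
  · exact (D.surj_U i h _ (T_conj_U hg (D.mem_U i t))).imp fun _ => Eq.symm

theorem Act.shift (h : D.Act g i c) (k : ℤ) :
    D.Act (D.ρ ^ k * g * (D.ρ ^ k)⁻¹) (i + 2 * k) c :=
  h.conj D (D.ρ_x k i)

theorem Act.congr (h : D.Act g i c) (e : i % 16 = j % 16) : D.Act g j c := fun t => by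
  rw [← D.x_congr e, ← D.x_congr e, h]

/-- `w h w⁻¹ = h⁻¹` (`w_h`) -/
theorem Act.refl (hl : l ≠ 0) (h : D.Act (D.E.h l) i c) : D.Act (D.E.h l) (10 - i) c⁻¹ := by
  have := (h.conj D (D.w_x i)).inv
  rwa [D.E.w_h one_ne_zero hl, inv_inv] at this

variable (H : M.Oc)
include H

/-- `ρ⁴ = w c`, `c = g w g⁻¹ ∈ L 5`, `g = m w m` (`Rf.conj_U`, `U_per`), so `ρ⁴ h ρ⁻⁴ = h⁻¹` (`L_comm`) -/
theorem Act.opp (hl : l ≠ 0) (h : D.Act (D.E.h l) i c) : D.Act (D.E.h l) (i + 8) c⁻¹ := by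
  have e : ∀ i, D.m * D.E.w 1 * D.m * D.x i 1 * (D.m * D.E.w 1 * D.m)⁻¹ = D.x (6 - i) 1 := fun i => by
    calc _ = D.m * (D.E.w 1 * (D.m * D.x i 1 * D.m⁻¹) * (D.E.w 1)⁻¹) * D.m⁻¹ := by group
      _ = _ := by rw [D.m_x, D.w_x, D.m_x]; congr 1; ring
  have mi := inv_eq_of_mul_eq_one_left D.m_sq
  have wi := inv_eq_of_mul_eq_one_left D.w_sq
  have a : D.ρ ^ (4 : ℤ) = D.E.w 1 * (D.x 5 1 * D.x 13 1 * (D.x 5 1)⁻¹) := by
    rw [← D.x_congr (i := 6 - 9) (j := 13) (by norm_num), show (5 : ℤ) = 6 - 1 from rfl, ← e, ← e]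
    calc _ = D.E.w 1 * (D.m * D.E.w 1 * D.m * D.E.w 1 * (D.m⁻¹ * (D.E.w 1)⁻¹ * D.m⁻¹)) := by
          rw [mi, wi, ρ, show (4 : ℤ) = 1 + 1 + 1 + 1 from rfl]; simp only [zpow_add_one, zpow_one, mul_assoc]
      _ = _ := by conv_lhs => enter [2, 1, 2]; rw [← D.w_eq]
                  group
  have h5 : D.x 5 1 ∈ M.L (1 + 4) := U_le_L _ (D.mem_U 5 1)
  have b : D.x 5 1 * D.x 13 1 * (D.x 5 1)⁻¹ ∈ M.L (1 + 4) :=
    mul_mem (mul_mem h5 (U_le_L' _ (by rw [H.n]; exact D.mem_U 13 1))) (inv_mem h5)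
  have := (h.shift D 4).inv
  rwa [a, mul_assoc _ _ (D.E.h l), ← (H.L_comm rfl (D.E.h_mem l) b).eq, mul_inv_rev (D.E.w 1), ← mul_assoc,
    mul_assoc (D.E.w 1), mul_assoc (D.E.w 1), mul_inv_cancel_right, ← mul_assoc, D.E.w_h one_ne_zero hl, inv_inv] at this

/-- `i = 1`: `w_B` for `qm` (`N = ⊥`): `⁅x t, b⁆ = w t b (w t)⁻¹`, `w t = h t * w 1`, `w_x`, `h_four`.  Then
conjugate by `ρ ^ k`. -/
theorem r16 (hi : i % 2 = 1) (t u : F) : ⁅D.x i t, D.x (i + 5) u⁆ = D.x (i + 3) (t * u) := by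
  have a : ⁅D.x 1 t, D.x 6 u⁆ = D.x 4 (t * u) := by
    rcases eq_or_ne t 0 with rfl | ht
    · rw [zero_mul, D.x_zero, D.x_zero, commutatorElement_one_left]
    have := D.E.w_B (H.qm rfl) ht (D.mem_V 6 rfl u)
    rw [Subgroup.mem_bot, inv_mul_eq_one] at this
    rw [D.x_one, ← this, ← D.h_four t ht, show (4 : ℤ) = 10 - 6 from rfl, ← D.w_x, D.E.w_eq_h t]; group
  obtain ⟨k, rfl⟩ : ∃ k, i = 1 + 2 * k := ⟨i / 2, by omega⟩
  rw [show 1 + 2 * k + 5 = 6 + 2 * k by ring, show 1 + 2 * k + 3 = 4 + 2 * k by ring, ← D.ρ_x, ← D.ρ_x, ← D.ρ_x, ← a]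
  group

/-- conjugate `r16` by `ρ ^ k * m` -/
theorem r16' (hi : i % 2 = 1) (t u : F) : ⁅D.x i t, D.x (i - 5) u⁆ = D.x (i - 3) (t * u) := by
  obtain ⟨k, rfl⟩ : ∃ k, i = 8 + 2 * k - 1 := ⟨i / 2 - 3, by omega⟩
  rw [show 8 + 2 * k - 1 - 5 = 8 + 2 * k - (1 + 5) by ring, show 8 + 2 * k - 1 - 3 = 8 + 2 * k - (1 + 3) by ring,
    ← D.ρm_x, ← D.ρm_x, ← D.ρm_x, ← D.r16 H rfl]
  group

omit H in
theorem mem_UU {k : ℤ} (h1 : i ≤ k) (h2 : k ≤ j) (t : F) : D.x k t ∈ M.UU i j := U_le_UU h1 h2 (D.mem_U k t)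

/-- normal form in `W 4` (`uniq`) -/
theorem W_uniq {a b c d e a' b' c' d' e' : F}
    (h : D.x i a * D.x (i + 1) b * D.x (i + 2) c * D.x (i + 3) d * D.x (i + 4) e =
      D.x i a' * D.x (i + 1) b' * D.x (i + 2) c' * D.x (i + 3) d' * D.x (i + 4) e') :
    a = a' ∧ b = b' ∧ c = c' ∧ d = d' ∧ e = e' := by
  have n : (M.n : ℤ) = 8 := by rw [H.n]; rfl
  have m := fun k t (h : i ≤ k) j (h' : k ≤ j) => D.mem_UU h h' t
  obtain ⟨h, h5⟩ := uniq' (i := i) (D.mem_U _ _) (D.mem_U _ _)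
    (mul_mem (mul_mem (mul_mem (m _ _ (by omega) _ (by omega)) (m _ _ (by omega) _ (by omega))) (m _ _ (by omega) _ (by omega)))
      (m _ _ (by omega) _ (by omega)))
    (mul_mem (mul_mem (mul_mem (m _ _ (by omega) _ (by omega)) (m _ _ (by omega) _ (by omega))) (m _ _ (by omega) _ (by omega)))
      (m _ _ (by omega) _ (by omega))) (by omega) h
  obtain ⟨h, h4⟩ := uniq' (i := i) (D.mem_U _ _) (D.mem_U _ _)
    (mul_mem (mul_mem (m _ _ (by omega) _ (by omega)) (m _ _ (by omega) _ (by omega))) (m _ _ (by omega) _ (by omega)))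
    (mul_mem (mul_mem (m _ _ (by omega) _ (by omega)) (m _ _ (by omega) _ (by omega))) (m _ _ (by omega) _ (by omega)))
    (by omega) h
  obtain ⟨h, h3⟩ := uniq' (i := i) (D.mem_U _ _) (D.mem_U _ _)
    (mul_mem (m _ _ (by omega) _ (by omega)) (m _ _ (by omega) _ (by omega)))
    (mul_mem (m _ _ (by omega) _ (by omega)) (m _ _ (by omega) _ (by omega))) (by omega) h
  obtain ⟨h1, h2⟩ := uniq' (i := i) (D.mem_U _ _) (D.mem_U _ _) (m _ _ (by omega) _ (by omega))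
    (m _ _ (by omega) _ (by omega)) (by omega) h
  exact ⟨D.x_injective _ h1, D.x_injective _ h2, D.x_injective _ h3, D.x_injective _ h4, D.x_injective _ h5⟩

theorem uniq3 {a b c a' b' c' : F} (h : D.x 4 a * D.x 5 b * D.x 6 c = D.x 4 a' * D.x 5 b' * D.x 6 c') :
    a = a' ∧ b = b' ∧ c = c' := by
  have := D.W_uniq H (i := 4) (congrArg (· * D.x (4 + 3) 0 * D.x (4 + 4) 0) h)
  exact ⟨this.1, this.2.1, this.2.2.1⟩

theorem mem_W {k : ℤ} (hk : k % 2 = 0) (h1 : k - 2 ≤ i) (h2 : i ≤ k + 2) (t : F) : D.x i t ∈ M.Wz k := by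
  rcases Int.emod_two_eq_zero_or_one i with h | h
  · exact H.V_le_W (by omega) (D.mem_V i h t)
  · exact H.U_le_W hk (by omega) (D.mem_U i t)

theorem Wc (h1 : 2 ≤ i) (h2 : i ≤ 6) (h3 : 2 ≤ j) (h4 : j ≤ 6) (s t : F) : D.x i s * D.x j t = D.x j t * D.x i s :=
  H.W_comm (k := 4) rfl (D.mem_W H rfl h1 h2 s) (D.mem_W H rfl h3 h4 t)

theorem Wc' (h1 : 2 ≤ i) (h2 : i ≤ 6) (h3 : 2 ≤ j) (h4 : j ≤ 6) (s t : F) (g : G) :
    D.x i s * (D.x j t * g) = D.x j t * (D.x i s * g) := by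
  rw [← mul_assoc, D.Wc H h1 h2 h3 h4, mul_assoc]

/-- `VV`, `VV_left`, `VV_right`, `uniq`; the symmetry is conjugation by `w 1` (`2 ↔ 8`, `4 ↔ 6`,
`⁅b,a⁆ = ⁅a,b⁆⁻¹`, `W_comm`, `x_inv`). -/
theorem exists_β : ∃ β₅ β₆ : F → F → F,
    (∀ a b, ⁅D.x 2 a, D.x 8 b⁆ = D.x 4 (β₆ b a) * D.x 5 (β₅ a b) * D.x 6 (β₆ a b)) ∧
    ∀ a b b', β₆ a (b + b') = β₆ a b + β₆ a b' := by
  have a : ∀ a b, ∃ p q r, ⁅D.x 2 a, D.x 8 b⁆ = D.x 4 p * D.x 5 q * D.x 6 r := fun a b => by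
    obtain ⟨p, hp, q, hq, r, hr, e, -⟩ := H.VV (k := 2) rfl (D.mem_V 2 rfl a) (D.mem_V 8 rfl b)
    obtain ⟨p, rfl⟩ := D.surj_V _ rfl p hp
    obtain ⟨q, rfl⟩ := D.surj_U _ rfl q hq
    obtain ⟨r, rfl⟩ := D.surj_V _ rfl r hr
    exact ⟨p, q, r, e⟩
  choose p q r e using a
  have s : ∀ a b, p a b = r b a := fun a b => by
    refine (D.uniq3 H (b' := q b a) (c' := p b a) ((e a b).symm.trans ?_)).1
    have w : ∀ i j, j = 10 - i → ∀ t, D.E.w 1 * D.x i t * (D.E.w 1)⁻¹ = D.x j t := fun i j h t => by rw [h, D.w_x]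
    calc _ = ⁅D.E.w 1 * D.x 2 b * (D.E.w 1)⁻¹, D.E.w 1 * D.x 8 a * (D.E.w 1)⁻¹⁆⁻¹ := by
          rw [w 2 8 rfl, w 8 2 rfl, commutatorElement_inv]
      _ = (D.E.w 1 * D.x 4 (p b a) * (D.E.w 1)⁻¹ * (D.E.w 1 * D.x 5 (q b a) * (D.E.w 1)⁻¹) *
          (D.E.w 1 * D.x 6 (r b a) * (D.E.w 1)⁻¹))⁻¹ := by rw [← conjugate_commutatorElement, e]; group
      _ = _ := by rw [w 4 6 rfl, w 5 5 rfl, w 6 4 rfl]; simp only [mul_inv_rev, D.x_inv, mul_assoc]
  refine ⟨q, r, fun a b => by rw [← s, e], fun a b b' => ?_⟩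
  refine (D.uniq3 H (a := p a (b + b')) (b := q a (b + b')) (a' := p a b + p a b') (b' := q a b + q a b') ?_).2.2
  rw [← e, D.x_add, H.VV_right (k := 2) rfl (D.mem_V 2 rfl a) (D.mem_V 8 rfl b) (D.mem_V 8 rfl b'), e, e]
  simp only [D.x_add, mul_assoc]
  rw [D.Wc' H (i := 6) (j := 4) (by omega) (by omega) (by omega) (by omega),
    D.Wc' H (i := 6) (j := 5) (by omega) (by omega) (by omega) (by omega),
    D.Wc' H (i := 5) (j := 4) (by omega) (by omega) (by omega) (by omega)]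

/-- With `e = x 8 1 = f⁻¹ m f`.  (i) `e x₂(s) e⁻¹ = f⁻¹ m (f x₂(s) f⁻¹) m⁻¹ f = f⁻¹ x₆(s) f` (`V_comm`), the left side
is `x₂(s) ⁅x₂ s, e⁆`, the right side is in `UU 1 5 · x₆(s)` (`comm`): `β₆ s 1 = s` (`uniq'`).
(ii) `⁅f, x₃ s⁆ = x₂ α` (`QW`, `k = 2`), `e x₃(s) e⁻¹ = x₃(s) x₆(s)` (`r16`) equals
`f⁻¹ x₆(α) f · f⁻¹ x₅(s) f`; so `f⁻¹ x₅(s) f = x₂(α) x₃(s) x₄(β₆ 1 α) x₅(β₅ α 1) x₆(α + s)`, which lies in
`UU 1 4 · x₅(s)`: `α = s`, `β₅ s 1 = s`. -/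
theorem β_one {β₅ β₆ : F → F → F}
    (h : ∀ a b, ⁅D.x 2 a, D.x 8 b⁆ = D.x 4 (β₆ b a) * D.x 5 (β₅ a b) * D.x 6 (β₆ a b)) (s : F) :
    β₅ s 1 = s ∧ β₆ s 1 = s ∧ D.f⁻¹ * D.x 3 s * D.f = D.x 2 s * D.x 3 s ∧
    D.f⁻¹ * D.x 5 s * D.f = D.x 2 s * D.x 3 s * D.x 4 (β₆ 1 s) * D.x 5 s ∧
    D.f⁻¹ * D.x 6 s * D.f = D.x 2 s * D.x 4 (β₆ 1 s) * D.x 5 s * D.x 6 s := by
  have n : (M.n : ℤ) = 8 := by rw [H.n]; rfl
  have k : ∀ y, D.x 8 1 * y * (D.x 8 1)⁻¹ = D.f⁻¹ * (D.m * (D.f * y * D.f⁻¹) * D.m⁻¹) * D.f := fun y => by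
    rw [D.m_eq]; group
  have k' : ∀ i t, D.x 8 1 * D.x i t * (D.x 8 1)⁻¹ = D.x i t * ⁅D.x i t, D.x 8 1⁆ := fun i t => by
    rw [commutatorElement_def, D.x_inv i, ← mul_assoc, ← mul_assoc, ← mul_assoc, D.x_sq, one_mul]
  have c2 : ∀ t, D.f * D.x 2 t * D.f⁻¹ = D.x 2 t := fun t => by
    rw [← (H.V_comm (i := 2) rfl (D.mem_V 2 rfl t) D.f_mem (by omega) (by omega)).eq, mul_inv_cancel_right]
  have cf : ∀ i t, 0 < i → i < 8 → ∃ u ∈ M.UU 1 (i - 1), D.f⁻¹ * D.x i t * D.f = u * D.x i t := fun i t h1 h2 =>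
    ⟨⁅D.f⁻¹, D.x i t⁆, comm (i := 0) (inv_mem D.f_mem) (D.mem_U i t) h1 (by omega), by group⟩
  have m := fun k t (h : 1 ≤ k) j (h' : k ≤ j) => D.mem_UU h h' t
  have a6 : ∀ t, D.f⁻¹ * D.x 6 t * D.f = D.x 2 t * D.x 4 (β₆ 1 t) * D.x 5 (β₅ t 1) * D.x 6 (β₆ t 1) := fun t => by
    have := k (D.x 2 t)
    rw [k', h, c2, D.m_x] at this
    simp only [← mul_assoc] at this
    exact this.symm
  have b6 : ∀ t, β₆ t 1 = t := fun t => by
    obtain ⟨u, hu, e⟩ := cf 6 t (by omega) (by omega)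
    exact D.x_injective _ (uniq' (D.mem_U _ _) (D.mem_U _ _) (mul_mem (mul_mem (m _ _ (by omega) _ (by omega))
      (m _ _ (by omega) _ (by omega))) (m _ _ (by omega) _ (by omega))) hu (by omega) ((a6 t).symm.trans e)).2
  obtain ⟨α, hα⟩ := D.surj_V 2 rfl _ (H.QW (k := 2) rfl (U_le_UU (by omega) (by omega) D.f_mem)
    (D.mem_W H (i := 3) rfl (by omega) (by omega) s))
  have a3 : D.f * D.x 3 s * D.f⁻¹ = D.x 2 α * D.x 3 s := by rw [hα]; group
  have a5 : D.f⁻¹ * D.x 5 s * D.f = D.x 2 α * D.x 3 s * D.x 4 (β₆ 1 α) * D.x 5 (β₅ α 1) * D.x 6 (α + s) := by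
    have := k (D.x 3 s)
    rw [k', show ⁅D.x 3 s, D.x 8 1⁆ = D.x 6 (s * 1) from D.r16 H (i := 3) rfl s 1, mul_one, a3] at this
    have w : ∀ i j, j = 8 - i → ∀ t, D.m * D.x i t * D.m⁻¹ = D.x j t := fun i j h t => by rw [h, D.m_x]
    calc _ = (D.f⁻¹ * D.x 6 α * D.f)⁻¹ * (D.f⁻¹ * (D.m * (D.x 2 α * D.x 3 s) * D.m⁻¹) * D.f) := by
          rw [← w 3 5 rfl, ← w 2 6 rfl]; group
      _ = D.x 6 α * (D.x 5 (β₅ α 1) * (D.x 4 (β₆ 1 α) * (D.x 2 α * (D.x 3 s * D.x 6 s)))) := by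
          rw [← this, a6, b6]; simp only [mul_inv_rev, D.x_inv, mul_assoc]
      _ = _ := by
          simp only [D.x_add, mul_assoc]
          rw [D.Wc' H (i := 4) (j := 2) (by omega) (by omega) (by omega) (by omega),
            D.Wc' H (i := 4) (j := 3) (by omega) (by omega) (by omega) (by omega),
            D.Wc' H (i := 5) (j := 2) (by omega) (by omega) (by omega) (by omega),
            D.Wc' H (i := 5) (j := 3) (by omega) (by omega) (by omega) (by omega),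
            D.Wc' H (i := 5) (j := 4) (by omega) (by omega) (by omega) (by omega),
            D.Wc' H (i := 6) (j := 2) (by omega) (by omega) (by omega) (by omega),
            D.Wc' H (i := 6) (j := 3) (by omega) (by omega) (by omega) (by omega),
            D.Wc' H (i := 6) (j := 4) (by omega) (by omega) (by omega) (by omega),
            D.Wc' H (i := 6) (j := 5) (by omega) (by omega) (by omega) (by omega)]
  obtain ⟨u, hu, e⟩ := cf 5 s (by omega) (by omega)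
  have q : D.x 2 α * D.x 3 s * D.x 4 (β₆ 1 α) ∈ M.UU 1 (5 - 1) := mul_mem (mul_mem (m _ _ (by omega) _ (by omega))
    (m _ _ (by omega) _ (by omega))) (m _ _ (by omega) _ (by omega))
  obtain ⟨e1, e2⟩ := uniq' (D.mem_U _ _) (one_mem _)
    (mul_mem (UU_mono le_rfl (by omega) q) (m _ _ (by omega) _ (by omega)))
    (mul_mem (UU_mono le_rfl (by omega) hu) (m _ s (by omega) _ (by omega))) (by omega)
    (a5.symm.trans (e.trans (mul_one _).symm))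
  obtain rfl : α = s := by
    rw [← add_zero α, ← D.add_self s, ← add_assoc, D.x_inj _ _ e2, zero_add]
  have b5 := D.x_injective _ (uniq' (D.mem_U _ _) (D.mem_U _ _) q hu (by omega) e1).2
  refine ⟨b5, b6 _, ?_, by rw [a5, e2, b5, mul_one], by rw [a6, b5, b6]⟩
  calc _ = D.f⁻¹ * (D.f * D.x 2 α * D.f⁻¹ * (D.f * D.x 3 α * D.f⁻¹)) * D.f := by
        rw [c2, a3, ← mul_assoc (D.x 2 α), D.x_sq, one_mul]
    _ = _ := by group

/-- `h = h l` acts on `x 1` by `l²` (`h_x`), on `x 5` trivially (`L_comm`), on `x 4` by `l`; `Act.refl`,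
`Act.opp` give `6, 12 : l⁻¹`, `14 : l`, `9`, `13`.  `h₅ = ρ² h ρ⁻²` (`Act.shift`) acts on `x 2`, `x 8` by `l`, on
`x 5` by `l²`: `β₅ (l a) l = l² β₅ a 1`, so `β₅ a b = a b`.  `h` normalises `V 2`, `V 8` (`T_conj_V`), by maps
`A₂, A₈` with `A₂ a · A₈ b = a b`, so it acts on `x 2` by some `ψ l`, on `x 8`, `x 10` by `(ψ l)⁻¹`, on `x 0` by
`ψ l`; `ψ` is multiplicative (`h_mul`).  `h₅` acts on `x 6` by `ψ l`: `β₆ a l = a ψ(l) / l`.  So
`σ b = β₆ 1 b` is a ring homomorphism, `ψ l = l σ l`, `β₆ a b = a σ b`.  `h₃ = ρ h ρ⁻¹` acts on `x 2` by `ψ l`,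
on `x 8` by `l⁻¹`, so on `x 5 (a b)` by `σ l`: `h` acts on `x 3` by `σ l`; `7, 11 : (σ l)⁻¹`, `15 : σ l`.
`h` applied to `β₆`: `ψ σ(ψ)⁻¹ = l⁻¹`, i.e. `σ (σ l) = l²`.  `act`: cases on `i % 16`, `Act.congr`,
`ocχ_congr`, `simp [ocχ, ocA, ocB]`. -/
theorem exists_rel : ∃ σ : F →+* F, D.Rel σ := by
  obtain ⟨β₅, β₆, h, ha⟩ := D.exists_β H
  have h1 := D.β_one H h
  have ev : ∀ {g a b a' b'}, g ∈ M.T → g * D.x 2 a * g⁻¹ = D.x 2 a' → g * D.x 8 b * g⁻¹ = D.x 8 b' →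
      g * D.x 5 (β₅ a b) * g⁻¹ = D.x 5 (β₅ a' b') ∧ g * D.x 6 (β₆ a b) * g⁻¹ = D.x 6 (β₆ a' b') :=
    fun {g a b a' b'} hg e1 e2 => by
      obtain ⟨p, hp⟩ := D.T_surj hg 4 (β₆ b a)
      obtain ⟨q, hq⟩ := D.T_surj hg 5 (β₅ a b)
      obtain ⟨r, hr⟩ := D.T_surj hg 6 (β₆ a b)
      obtain ⟨-, rfl, rfl⟩ := D.uniq3 H (a := p) (b := q) (c := r) (Eq.trans (by
        rw [← hp, ← hq, ← hr, ← e1, ← e2]
        calc _ = g * (D.x 4 (β₆ b a) * D.x 5 (β₅ a b) * D.x 6 (β₆ a b)) * g⁻¹ := by group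
          _ = _ := by rw [← h]; group) (h a' b'))
      exact ⟨hq, hr⟩
  have z : ∀ a, β₅ a 0 = 0 ∧ β₆ a 0 = 0 := fun a => (D.uniq3 H (a' := 0) (by
    rw [← h]; simp only [D.x_zero, commutatorElement_one_right, mul_one])).2
  have hT := fun l (hl : l ≠ 0) k => (D.rot k).conj_T (D.E.h_T hl)
  have A1 : ∀ l, l ≠ 0 → D.Act (D.E.h l) 1 (l ^ 2) := fun l hl t => by rw [D.x_one, D.x_one, D.E.h_x hl]
  have A4 : ∀ l, l ≠ 0 → D.Act (D.E.h l) 4 l := D.h_four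
  have A5 : ∀ l, D.Act (D.E.h l) 5 1 := fun l t => by
    rw [(H.L_comm rfl (D.E.h_mem l) (U_le_L _ (D.mem_U 5 t))).eq, mul_inv_cancel_right, one_mul]
  have A14 : ∀ l, l ≠ 0 → D.Act (D.E.h l) 14 l := fun l hl => by
    simpa using ((A4 l hl).refl D hl).opp D H hl
  have e5 := fun l (hl : l ≠ 0) a => ev (hT l hl 2) ((((A14 l hl).shift D 2).congr D (j := 2) rfl) a)
    ((A4 l hl).shift D 2 1)
  have b5 : ∀ a b, β₅ a b = a * b := fun a b => by
    rcases eq_or_ne b 0 with rfl | hb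
    · rw [(z a).1, mul_zero]
    have := D.x_injective _ (((A1 b hb).shift D 2 _).symm.trans (e5 b hb (a / b)).1)
    rw [(h1 _).1, mul_one, mul_div_cancel₀ a hb] at this
    rw [← this]; field_simp
  have A2 : ∀ l, l ≠ 0 → D.Act (D.E.h l) 2 (l * β₆ 1 l) ∧ ∀ a, β₆ a l = a * β₆ 1 l := fun l hl => by
    obtain ⟨c, hc⟩ := D.T_surj (D.E.h_T hl) 8 1
    have k : ∀ a a', D.E.h l * D.x 2 a * (D.E.h l)⁻¹ = D.x 2 a' → a = a' * c := fun a a' e => by
      have := D.x_injective _ ((A5 l _).symm.trans (ev (D.E.h_T hl) e hc).1)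
      rwa [b5, b5, one_mul, mul_one] at this
    obtain ⟨ψ, hψ⟩ := D.T_surj (D.E.h_T hl) 2 1
    have B : D.Act (D.E.h l) 2 ψ := fun a => by
      obtain ⟨a', e⟩ := D.T_surj (D.E.h_T hl) 2 a
      rw [e, k a a' e, mul_left_comm, ← k 1 ψ hψ, mul_one]
    have b6 : ∀ a, β₆ a l = a * (ψ / l) := fun a => by
      have := D.x_injective _ ((B.shift D 2 _).symm.trans (e5 l hl (a / l)).2)
      rw [(h1 _).2.1, mul_one, mul_div_cancel₀ a hl] at this
      rw [← this]; ring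
    rw [b6 1, one_mul, mul_div_cancel₀ ψ hl]
    exact ⟨B, b6⟩
  have b6 : ∀ a b, β₆ a b = a * β₆ 1 b := fun a b => by
    rcases eq_or_ne b 0 with rfl | hb
    · rw [(z _).2, (z _).2, mul_zero]
    · exact (A2 b hb).2 a
  let σ : F →+* F :=
    { toFun := β₆ 1
      map_one' := (h1 1).2.1
      map_zero' := (z 1).2
      map_add' := ha 1
      map_mul' := fun a b => by
        rcases eq_or_ne a 0 with rfl | ha
        · rw [zero_mul, (z _).2, zero_mul]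
        rcases eq_or_ne b 0 with rfl | hb
        · rw [mul_zero, (z _).2, mul_zero]
        have := (A2 _ (mul_ne_zero ha hb)).1
        rw [D.E.h_mul ha hb] at this
        refine mul_left_cancel₀ (mul_ne_zero ha hb) ((this.uniq D ((A2 a ha).1.mul D (A2 b hb).1)).trans (by ring)) }
  have B2 : ∀ l, l ≠ 0 → D.Act (D.E.h l) 2 (l * σ l) := fun l hl => (A2 l hl).1
  have B0 : ∀ l, l ≠ 0 → D.Act (D.E.h l) 0 (l * σ l) := fun l hl => by
    have := (((B2 l hl).refl D hl).opp D H hl).congr D (j := 0) rfl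
    rwa [inv_inv] at this
  have A3 : ∀ l, l ≠ 0 → D.Act (D.E.h l) 3 (σ l) := fun l hl => by
    have B : D.Act (D.ρ ^ (1 : ℤ) * D.E.h l * (D.ρ ^ (1 : ℤ))⁻¹) 5 (σ l) := fun a => by
      have := (ev (hT l hl 1) ((B0 l hl).shift D 1 a) (((A4 l hl).refl D hl).shift D 1 1)).1
      rw [b5, b5, mul_one] at this
      rw [this]; congr 1; field_simp
    have := B.shift D (-1)
    rwa [show D.ρ ^ (-1 : ℤ) * (D.ρ ^ (1 : ℤ) * D.E.h l * (D.ρ ^ (1 : ℤ))⁻¹) * (D.ρ ^ (-1 : ℤ))⁻¹ = D.E.h l by group] at this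
  refine ⟨σ, fun l => ?_, fun l hl i => ?_, fun a b => by rw [h, b5, b6 a, b6 b, mul_comm b]; rfl,
    fun s => (h1 s).2.2.1, fun s => (h1 s).2.2.2.1, fun s => (h1 s).2.2.2.2⟩
  · rcases eq_or_ne l 0 with rfl | hl
    · simp
    have := D.x_injective _ (((A4 l hl).refl D hl _).symm.trans
      (ev (D.E.h_T hl) (B2 l hl 1) ((B2 l hl).refl D hl 1)).2)
    rw [(h1 1).2.1, b6] at this
    change _ = _ * σ _ at this
    have s1 := (map_ne_zero σ).2 hl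
    have s2 := (map_ne_zero σ).2 s1
    simp only [mul_one, map_inv₀, map_mul] at this
    field_simp at this
    exact this
  · refine Act.congr D (i := i % 16) ?_ (by omega)
    rw [ocχ_congr σ (j := i % 16) (by omega)]
    have a1 := A1 l hl
    have a2 := B2 l hl
    have a3 := A3 l hl
    have a4 := A4 l hl
    have a5 := A5 l
    have i0 : 0 ≤ i % 16 := by omega
    have i1 : i % 16 < 16 := by omega
    generalize i % 16 = r at i0 i1
    interval_cases r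
    · simpa [ocχ, ocA, ocB] using B0 l hl
    · simpa [ocχ, ocA, ocB] using a1
    · simpa [ocχ, ocA, ocB] using a2
    · simpa [ocχ, ocA, ocB] using a3
    · simpa [ocχ, ocA, ocB] using a4
    · simpa [ocχ, ocA, ocB] using a5
    · simpa [ocχ, ocA, ocB] using a4.refl D hl
    · simpa [ocχ, ocA, ocB] using a3.refl D hl
    · simpa [ocχ, ocA, ocB, mul_comm] using a2.refl D hl
    · simpa [ocχ, ocA, ocB] using a1.refl D hl
    · simpa [ocχ, ocA, ocB, mul_comm] using a2.opp D H hl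
    · simpa [ocχ, ocA, ocB] using a3.opp D H hl
    · simpa [ocχ, ocA, ocB] using a4.opp D H hl
    · simpa [ocχ, ocA, ocB] using a5.opp D H hl
    · simpa [ocχ, ocA, ocB] using A14 l hl
    · simpa [ocχ, ocA, ocB] using (a3.refl D hl).opp D H hl

end OD

end MP

/-- `σ` is bijective, `σ = Frob^j`, `Frob` has order `k` (`|F| = 2^k`), `2 j ≡ 1 (mod k)`, so `k` is odd. -/
theorem card_of_sq {F : Type} [Field F] [Fintype F] (h2 : (2 : F) = 0) (σ : F →+* F)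
    (h : ∀ l, σ (σ l) = l ^ 2) : ∃ m, Fintype.card F = 2 ^ (2 * m + 1) := by
  classical
  have : CharP F 2 := CharTwo.of_one_ne_zero_of_two_eq_zero one_ne_zero h2
  obtain ⟨n, -, hn⟩ := FiniteField.card F 2
  rcases Nat.even_or_odd' n with ⟨m, e | e⟩
  · exfalso
    have : Fact (Nat.Prime 3) := ⟨Nat.prime_three⟩
    obtain ⟨w, hw⟩ := exists_prime_orderOf_dvd_card (G := Fˣ) 3 (by
      rw [Fintype.card_units, hn, e, pow_mul]
      exact Nat.sub_dvd_pow_sub_pow 4 1 m |>.trans (by simp))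
    have a : (w : F) ^ 3 = 1 := by rw [← Units.val_pow_eq_pow_val, ← hw, pow_orderOf_eq_one, Units.val_one]
    have b : (w : F) ≠ 1 := fun c => by rw [Units.ext (v := 1) c, orderOf_one] at hw; omega
    have a' : σ w ^ 3 = 1 := by rw [← map_pow, a, map_one]
    have b' : σ w ≠ 1 := fun c => b (σ.injective (c.trans (map_one σ).symm))
    have c := h w
    have : σ w = w ∨ σ w = w ^ 2 := by grind
    rcases this with d | d
    · rw [d, d] at c; grind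
    · rw [d, map_pow, d] at c; grind
  · exact ⟨m, by rw [hn, e]⟩

/-- the automorphism group is abelian (cyclic) of odd order `k`: `σ² = τ²` gives `σ = τ` -/
theorem sq_unique {F : Type} [Field F] [Finite F] (h2 : (2 : F) = 0) (σ τ : F →+* F)
    (h : ∀ l, σ (σ l) = l ^ 2) (h' : ∀ l, τ (τ l) = l ^ 2) : σ = τ := by
  have : CharP F 2 := CharTwo.of_one_ne_zero_of_two_eq_zero one_ne_zero h2
  have := Fintype.ofFinite F
  let _ : Algebra (ZMod 2) F := ZMod.algebra F 2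
  obtain ⟨m, hm⟩ := card_of_sq h2 σ h
  let e : (F →+* F) → F ≃ₐ[ZMod 2] F := fun f => AlgEquiv.ofRingEquiv
    (f := RingEquiv.ofBijective f (Finite.injective_iff_bijective.1 f.injective)) fun x =>
      RingHom.congr_fun (RingHom.ext_zmod (f.comp (algebraMap (ZMod 2) F)) (algebraMap (ZMod 2) F)) x
  have c : (Nat.card (F ≃ₐ[ZMod 2] F)).Coprime 2 := by
    rw [Module.card_eq_pow_finrank (K := ZMod 2), ZMod.card] at hm
    rw [IsGalois.card_aut_eq_finrank, Nat.pow_right_injective le_rfl hm]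
    simp
  have := (powCoprime c).injective (a₁ := e σ) (a₂ := e τ) (AlgEquiv.ext fun l => by
    simp only [powCoprime_apply, pow_two]
    exact (h l).trans (h' l).symm)
  exact RingHom.ext fun l => AlgEquiv.congr_fun this l

end Cfsg.Agent.BN2
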