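import Cfsg.Agent.BN2.OcB
import Cfsg.Agent.BN2.OcC

/-!
# Finite Moufang octagons (S1144): the even root groups, more relations
-/

set_option autoImplicit false
set_option linter.unusedSectionVars false
set_option linter.unusedVariables false

namespace Cfsg.Agent.BN2

open scoped commutatorElement

namespace MP

variable {G V : Type} [Group G] [MulAction G V] [Finite G] [Finite V] {M : MP G V}

namespace OD

variable {F : Type} [Field F] [Finite F] {D : M.OD F} {σ : F →+* F} (R : D.Rel σ) (H : M.Oc)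
  {i k : ℤ} {a b g u : G}
include R H

/-- conjugate `r28` by `ρ ^ j` -/
theorem Rel.r28' (hk : k % 2 = 0) (a b : F) : ⁅D.x k a, D.x (k + 6) b⁆ =
    D.x (k + 2) (σ a * b) * D.x (k + 3) (a * b) * D.x (k + 4) (a * σ b) := by
  obtain ⟨j, rfl⟩ : ∃ j, k = 2 + 2 * j := ⟨(k - 2) / 2, by omega⟩
  have := congrArg (fun y => D.ρ ^ j * y * (D.ρ ^ j)⁻¹) (R.r28 a b)
  simp only [conjugate_commutatorElement, ← conj_mul, ρ_x] at this
  convert this using 3
  · ring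
  · congr 1; ring
  · congr 1; ring
  · ring

/-- conjugate `f x₃(s) f⁻¹ = x₂(s) x₃(s)` (from `f3`) by `h l` (`act` at `2`: `l σ l`, at `3`: `σ l`) -/
theorem Rel.y3 {l : F} (hl : l ≠ 0) (s : F) :
    ⁅D.E.h l * D.f * (D.E.h l)⁻¹, D.x 3 s⁆ = D.x 2 (l * s) := by
  have h0 : ∀ s, ⁅D.f, D.x 3 s⁆ = D.x 2 s := fun s => by
    have c := H.V_comm (i := 2) (by norm_num) (D.mem_V 2 (by norm_num) s) D.f_mem (by norm_num)
      (by norm_num)
    have e : D.x 2 s * (D.f * D.x 3 s * D.f⁻¹) = D.x 3 s := by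
      calc _ = D.f * (D.x 2 s * D.x 3 s) * D.f⁻¹ := by simp only [← mul_assoc, c.eq]
        _ = _ := by rw [← R.f3]; group
    rw [commutatorElement_def, eq_inv_mul_of_mul_eq e, D.x_inv 2, mul_inv_cancel_right]
  have hs : σ l ≠ 0 := (map_ne_zero σ).2 hl
  have := congrArg (fun y => D.E.h l * y * (D.E.h l)⁻¹) (h0 ((σ l)⁻¹ * s))
  simp only [conjugate_commutatorElement, R.act l hl 2 _, R.act l hl 3 _] at this
  rwa [show ocχ σ 3 l * ((σ l)⁻¹ * s) = s by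
    change l ^ (0 : ℤ) * σ l ^ (1 : ℤ) * _ = _; field_simp, show ocχ σ 2 l * ((σ l)⁻¹ * s) = l * s by
    change l ^ (1 : ℤ) * σ l ^ (1 : ℤ) * _ = _; field_simp] at this

theorem Rel.y3' {l : F} (hl : l ≠ 0) (t s : F) :
    ⁅D.E.h l * D.f * (D.E.h l)⁻¹ * D.x 0 t, D.x 3 s⁆ = D.x 2 (l * s) := by
  have c := H.V_comm (i := 0) (by norm_num) (D.mem_V 0 (by norm_num) t) (D.mem_U 3 s) (by norm_num)
    (by norm_num)
  rw [← R.y3 H hl s, commutatorElement_def, commutatorElement_def, mul_assoc _ (D.x 0 t), c.eq]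
  group

open Classical in
theorem Rel.bij : Function.Bijective fun p : F × F =>
    (⟨if p.1 = 0 then D.x 0 p.2 else D.E.h p.1 * D.f * (D.E.h p.1)⁻¹ * D.x 0 p.2, by
      split_ifs with h
      exacts [D.mem_U _ _, mul_mem (T_conj_U (D.E.h_T h) D.f_mem) (D.mem_U _ _)]⟩ : M.U 0) := by
  have k : ∀ l t, ⁅if l = 0 then D.x 0 t else D.E.h l * D.f * (D.E.h l)⁻¹ * D.x 0 t, D.x 3 1⁆ =
      D.x 2 l := fun l t => by
    split_ifs with h
    · rw [h, D.x_zero, (H.V_comm (i := 0) (by norm_num) (D.mem_V 0 (by norm_num) t) (D.mem_U 3 1)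
        (by norm_num) (by norm_num)).commutator_eq]
    · rw [R.y3' H h, mul_one]
  refine Function.Injective.bijective_of_nat_card_le (fun p q e => ?_) ?_
  · have e1 := congrArg Subtype.val e
    have e2 : p.1 = q.1 := D.x_injective 2 (by rw [← k p.1 p.2, ← k q.1 q.2]; exact congrArg (⁅·, _⁆) e1)
    refine Prod.ext e2 (D.x_injective 0 ?_)
    simp only [← e2] at e1
    split_ifs at e1
    exacts [e1, mul_left_cancel e1]
  · rw [Nat.card_prod, ← pow_two, D.E.card]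
    exact H.card_le (by norm_num)

/-- with `y 0 = 1`, `y l = h l f (h l)⁻¹`, the map `(l, t) ↦ y l * x 0 t` is injective (`y3`, `V_comm`);
`card_le`, `S2.card`. -/
theorem Rel.U0 (hu : u ∈ M.U 0) : (∃ t, u = D.x 0 t) ∨
    ∃ l, l ≠ 0 ∧ ∃ t, u = D.E.h l * D.f * (D.E.h l)⁻¹ * D.x 0 t := by
  obtain ⟨⟨l, t⟩, e⟩ := (R.bij H).2 ⟨u, hu⟩
  have e1 := congrArg Subtype.val e
  dsimp only at e1
  split_ifs at e1 with h
  exacts [.inl ⟨t, e1.symm⟩, .inr ⟨l, h, t, e1.symm⟩]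

theorem Rel.card_U0 : Nat.card (M.U 0) = Nat.card F ^ 2 := by
  rw [← Nat.card_eq_of_bijective _ (R.bij H), Nat.card_prod, pow_two]

/-- `k = 0`: `U0`, `y3`; move by `exists_rot` (`Rot.conj_U`, `Rot.conj_V`). -/
theorem Rel.C3 (hk : k % 2 = 0) (hu : u ∈ M.U k) (hb : b ∈ M.U (k + 3)) (h1 : b ≠ 1)
    (hc : Commute u b) : u ∈ M.Vz k := by
  obtain ⟨g, hg⟩ := M.exists_rot (c := -k) (by omega)
  obtain ⟨s, e⟩ := D.surj_U 3 (by norm_num) _ (hg.conj_U hb (by ring))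
  rcases R.U0 H (hg.conj_U hu (by ring)) with ⟨t, e'⟩ | ⟨l, hl, t, e'⟩
  · have := hg.inv.conj_V (j := k) (D.mem_V 0 (by norm_num) t) (by ring)
    rw [← e'] at this
    simpa [mul_assoc] using this
  · have := R.y3' H hl t s
    rw [← e', e, ← conjugate_commutatorElement, hc.commutator_eq, mul_one, mul_inv_cancel] at this
    rw [(mul_eq_zero.1 (D.x_inj _ _ this.symm)).resolve_left hl, D.x_zero] at e
    exact absurd (conj_eq_one_iff.1 e.symm) h1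

/-- conjugate by a reflection `Rf (2k+8)` (`rf_ρm`) -/
theorem Rel.C3' (hk : k % 2 = 0) (hu : u ∈ M.U k) (hb : b ∈ M.U (k - 3)) (h1 : b ≠ 1)
    (hc : Commute u b) : u ∈ M.Vz k := by
  have hn : (M.n : ℤ) = 8 := by rw [H.n]; rfl
  have hg := D.rf_ρm (k + 4)
  have := R.C3 H hk (hg.conj_U hu (by omega)) (hg.conj_U hb (by omega))
    (fun e => h1 (conj_eq_one_iff.1 e)) (hc.conj _)
  simpa [mul_assoc] using hg.inv.conj_V H.n (j := k) this (by ring)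

omit R in
/-- `U k` centralises `W k`: `W_dec`, `V_comm`, `commute_succ` -/
theorem UW (hk : k % 2 = 0) (hu : u ∈ M.U k) (hb : b ∈ M.Wz k) : Commute u b := by
  obtain ⟨a, ha, b', hb', c, hc, d, hd, e, he, rfl⟩ := H.W_dec hk hb
  exact ((((H.V_comm (by omega) ha hu (by omega) (by omega)).symm.mul_right
    (commute_succ hb' hu (by ring)).symm).mul_right
    (H.V_comm hk hc hu (by omega) (by omega)).symm).mul_right (commute_succ hu hd rfl)).mul_right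
    (H.V_comm (by omega) he hu (by omega) (by omega)).symm

omit R H [Finite G] [Finite V] in
theorem cm_l {x y z : G} (h : Commute (x * y) z) (h' : Commute y z) : Commute x z := by
  simpa using h.mul_left h'.inv_left

omit R H [Finite G] [Finite V] in
theorem cm_r {x y z : G} (h : Commute (x * y) z) (h' : Commute x z) : Commute y z := by
  simpa using h'.inv_left.mul_left h

omit R H [Finite G] [Finite V] in
theorem cm_cj {x y z : G} (h : Commute y (x⁻¹ * z * x⁻¹⁻¹)) : Commute (x * y * x⁻¹) z := by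
  simpa [mul_assoc] using h.conj x

/-- `k = 0`: `c = ⁅a,b⁆ = c₁ c₂ c₃` centralises `W 4` (`UW`, `W_conj`) and `W 0`.  `c₂, c₃` centralise `V 6`, so
`c₁ = 1` (`eq_one_of_V`); `c₃` centralises `U 5`, so `c₂ ∈ V 2` (`C3`); then `c₃` centralises `V (-2)`,
`c₃ = 1`. -/
theorem Rel.comm4 (hk : k % 2 = 0) (ha : a ∈ M.U k) (hb : b ∈ M.U (k + 4)) :
    ⁅a, b⁆ ∈ M.Vz (k + 2) := by
  have hn : (M.n : ℤ) = 8 := by rw [H.n]; rfl
  have c1 : ∀ w ∈ M.Wz (k + 4), Commute ⁅a, b⁆ w := fun w hw =>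
    (cm_cj (UW H (by omega) hb (H.W_conj (inv_mem (U_le_UU (by omega) (by omega) ha)) hw))).mul_left
      (UW H (by omega) hb hw).inv_left
  have c2 : ∀ w ∈ M.Wz k, Commute ⁅a, b⁆ w := fun w hw => by
    rw [← commutatorElement_inv]
    exact ((cm_cj (UW H hk ha (H.W_conj (inv_mem (U_le_UU (by omega) le_rfl hb)) hw))).mul_left
      (UW H hk ha hw).inv_left).inv_left
  obtain ⟨x, hx, r, hr, e⟩ := dec (comm ha hb (by omega) (by omega)) (by omega) (by omega)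
  obtain ⟨y, hy, z, hz, rfl⟩ := dec hr (by omega) (by omega)
  rw [show k + 1 + 1 + 1 = k + 3 by ring, show k + 4 - 1 = k + 3 by ring, UU_self] at hz
  rw [show k + 1 + 1 = k + 2 by ring] at hy
  rw [e] at c1 c2 ⊢
  obtain ⟨v, hv, v1⟩ := H.exists_V (i := k + 6) (by omega)
  obtain rfl := H.eq_one_of_V (by omega) hv v1 hx (cm_l (c1 v (H.V_le_W (by omega) hv))
    ((H.V_comm (by omega) hv hy (by omega) (by omega)).mul_right
      (H.V_comm (by omega) hv hz (by omega) (by omega))).symm) (by omega)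
  rw [one_mul] at c1 c2 ⊢
  obtain ⟨u, hu, u1⟩ := M.exists_U (k + 2 + 3)
  have hy' := R.C3 H (by omega) hy hu u1 (cm_l (c1 u (H.U_le_W (by omega) (by omega) hu))
    (H.odd_comm (by omega) (by omega) hz hu (by omega) (by omega)))
  obtain ⟨v', hv', v1'⟩ := H.exists_V (i := k - 2) (by omega)
  rwa [H.eq_one_of_V (by omega) hv' v1' hz (cm_r (c2 v' (H.V_le_W (by omega) hv'))
    (H.V_comm (by omega) hv' hy (by omega) (by omega)).symm) (by omega), mul_one]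

omit R in
theorem rf_g : M.Rf 4 (D.E.w 1 * D.m * D.E.w 1) := by
  have := (D.E.rf one_ne_zero).conj_Rf D.rf
  rwa [inv_eq_of_mul_eq_one_left D.w_sq] at this

/-- `c = ρ⁴ m = g m g⁻¹ = f' e f'⁻¹` with `g = w m w`, `e = x 4 1`, `f' = g f g⁻¹ ∈ U 12 = U (-4)`; `c` is `Rf 8`.
For `u ∈ U 0`: `f'⁻¹ u f' = u v`, `v = x (-2) s` (`comm4`), `e` centralises `u`, so
`c u c⁻¹ = f' (u v) ⁅e,v⁆ f'⁻¹ = u · f' z f'⁻¹`, `z = ⁅e,v⁆ = ⁅v,e⁆⁻¹ = x 0 _ * x 1 _ * x 2 s` (`r28'`,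
`W_comm`).  `f' z f'⁻¹ ∈ U 0` and `f' z f'⁻¹ z⁻¹ ∈ UU (-3) 1` (`comm_UU`), so `z ∈ UU (-3) 1`, `s = 0`. -/
theorem Rel.c_cent (hu : u ∈ M.U 0) :
    Commute (D.ρ ^ (4 : ℤ) * D.m) u ∧ Commute (D.E.w 1 * D.m * D.E.w 1 * D.f * (D.E.w 1 * D.m * D.E.w 1)⁻¹) u := by
  have hn : (M.n : ℤ) = 8 := by rw [H.n]; rfl
  have hf := (rf_g (D := D) H).conj_U (j := -4) D.f_mem (by omega)
  have ec : D.ρ ^ (4 : ℤ) * D.m = D.E.w 1 * D.m * D.E.w 1 * D.f * (D.E.w 1 * D.m * D.E.w 1)⁻¹ *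
      D.x 4 1 * (D.E.w 1 * D.m * D.E.w 1 * D.f * (D.E.w 1 * D.m * D.E.w 1)⁻¹)⁻¹ := by
    have e1 : D.x 4 1 = D.E.w 1 * (D.m * (D.E.w 1 * D.x 8 1 * (D.E.w 1)⁻¹) * D.m⁻¹) * (D.E.w 1)⁻¹ := by
      rw [D.w_x, D.m_x, D.w_x]; rfl
    have e2 : D.ρ ^ (4 : ℤ) * D.m = D.E.w 1 * D.m * D.E.w 1 * D.m * (D.E.w 1 * D.m * D.E.w 1)⁻¹ := by
      rw [mul_inv_rev, mul_inv_rev, inv_eq_of_mul_eq_one_left D.w_sq,
        inv_eq_of_mul_eq_one_left D.m_sq, ρ, zpow_ofNat]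
      simp only [pow_succ, pow_zero, one_mul, mul_assoc, D.m_sq, mul_one]
    rw [e1, e2]
    nth_rewrite 2 [D.m_eq]
    group
  have hc := (D.rf_ρm 4).conj_U (j := 0) hu (by omega)
  rw [ec] at hc ⊢
  generalize D.E.w 1 * D.m * D.E.w 1 * D.f * (D.E.w 1 * D.m * D.E.w 1)⁻¹ = f at *
  obtain ⟨s, hs⟩ := D.surj_V _ (by norm_num) _ (R.comm4 H (k := -4) (by norm_num) (inv_mem hf) hu)
  have ce := H.V_comm (i := 4) (by norm_num) (D.mem_V 4 (by norm_num) 1) hu (by norm_num) (by norm_num)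
  have hz := R.r28' H (k := -2) (by norm_num) s 1
  have h1 : f * ⁅D.x (-2) s, D.x 4 1⁆ * f⁻¹ ∈ M.U 0 := by
    convert mul_mem hu (inv_mem hc) using 1
    rw [show D.x (-2) s = _ from hs]
    calc _ = u * (f * (u⁻¹ * D.x 4 1 * u) * f⁻¹) * u⁻¹ * f * (D.x 4 1)⁻¹ * f⁻¹ := by
          simp only [commutatorElement_def]; group
      _ = _ := by rw [mul_assoc u⁻¹, ce.eq]; group
  have h2 : ⁅D.x (-2) s, D.x 4 1⁆ ∈ M.UU (-4 + 1) 2 := by
    rw [show D.x 4 1 = D.x (-2 + 6) 1 from rfl, hz]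
    exact mul_mem (mul_mem (U_le_UU (by omega) (by omega) (D.mem_U _ _))
      (U_le_UU (by omega) (by omega) (D.mem_U _ _))) (U_le_UU (by omega) (by omega) (D.mem_U _ _))
  have h3 := mul_mem (inv_mem (comm_UU hf h2 (by omega))) (U_le_UU (by omega) (by omega) h1)
  rw [show ∀ x y : G, ⁅x, y⁆⁻¹ * (x * y * x⁻¹) = y from fun x y => by
    simp only [commutatorElement_def]; group, show D.x 4 1 = D.x (-2 + 6) 1 from rfl, hz] at h3
  have h4 := U_inf_UU' (D.mem_U 2 _) ((mul_mem_cancel_left (mul_mem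
    (U_le_UU (by omega) (by omega) (D.mem_U _ _)) (U_le_UU (by omega) (by omega) (D.mem_U _ _)))).1 h3)
    (by omega)
  obtain rfl : s = 0 := by simpa using D.x_inj _ _ h4
  have c : Commute f u := by
    simpa using (commutatorElement_eq_one_iff_commute.1 (hs.symm.trans (D.x_zero _))).inv_left
  exact ⟨(c.mul_left ce).mul_left c.inv_left, c⟩

/-- `U (-4) = g (U 0) g⁻¹` consists of the elements `t f' t⁻¹ v`, `v`, with `t ∈ T`, `v ∈ V (-4)` (`U0`);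
`c_cent`; `exists_rot`. -/
theorem Rel.U04 (hk : k % 2 = 0) (ha : a ∈ M.U k) (hb : b ∈ M.U (k + 4)) : Commute a b := by
  have hn : (M.n : ℤ) = 8 := by rw [H.n]; rfl
  obtain ⟨r, hr⟩ := M.exists_rot (c := -k - 4) (by omega)
  have hg := rf_g (D := D) H
  have hb' := hr.conj_U (j := 0) hb (by ring)
  have c1 : ∀ t, Commute (D.E.w 1 * D.m * D.E.w 1 * D.x 0 t * (D.E.w 1 * D.m * D.E.w 1)⁻¹)
      (r * b * r⁻¹) := fun t => H.V_comm (i := -4) (by norm_num)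
    (hg.conj_V H.n (D.mem_V 0 (by norm_num) t) (by norm_num)) hb' (by norm_num) (by norm_num)
  refine (Commute.conj_iff r).1 ?_
  have c2 := fun {u} (hu : u ∈ M.U 0) => (R.c_cent H hu).2
  have h0 := R.U0 H (hg.inv.conj_U (hr.conj_U (j := -4) ha (by ring)) (by omega))
  generalize D.E.w 1 * D.m * D.E.w 1 = g at *
  rcases h0 with ⟨t, e⟩ | ⟨l, hl, t, e⟩
  · have := c1 t
    rwa [← e, show ∀ x : G, g * (g⁻¹ * x * g⁻¹⁻¹) * g⁻¹ = x from fun _ => by group] at this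
  · have := (cm_cj (c2 (T_conj_U (inv_mem (hg.conj_T (D.E.h_T hl))) hb'))).mul_left (c1 t)
    rwa [show ∀ x y z : G, g * x * g⁻¹ * (g * y * g⁻¹) * (g * x * g⁻¹)⁻¹ * (g * z * g⁻¹) =
      g * (x * y * x⁻¹ * z) * g⁻¹ from fun _ _ _ => by group, ← e,
      show ∀ x : G, g * (g⁻¹ * x * g⁻¹⁻¹) * g⁻¹ = x from fun _ => by group] at this

theorem Rel.r17a {j : ℤ} (h : ∀ s, (D.x 3 s)⁻¹ * ⁅D.x 1 1, D.x 7 s⁆ ∈ M.UU j 6) (t u : F) :
    (D.x 3 (σ t * u))⁻¹ * ⁅D.x 1 t, D.x 7 u⁆ ∈ M.UU j 6 := by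
  by_cases h0 : t = 0
  · simp [h0, D.x_zero]
  have sj := Finite.injective_iff_surjective.1 σ.injective
  obtain ⟨l', rfl⟩ := sj t
  obtain ⟨l, rfl⟩ := sj l'
  have hl : l ≠ 0 := fun e => h0 (by simp [e])
  have hs : σ l ≠ 0 := (map_ne_zero σ).2 hl
  have := T_conj_UU (D.E.h_T hl) (h (σ l * u))
  rw [← conj_mul, ← conj_inv, conjugate_commutatorElement, R.act l hl, R.act l hl, R.act l hl] at this
  convert this using 4
  · change _ = l ^ (0 : ℤ) * σ l ^ (1 : ℤ) * _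
    rw [R.sq]; field_simp
  · change _ = l ^ (2 : ℤ) * σ l ^ (0 : ℤ) * _
    rw [R.sq]; field_simp
  · change _ = l ^ (0 : ℤ) * σ l ^ (-1 : ℤ) * _
    field_simp

/-- `a = x 1 1 = y w y`, `y = x 9 1`, commutes with `b = x 7 s`: `a b a⁻¹ = y x₃(s) y⁻¹ ∈ x₃(s) UU 4 8`, so
`⁅a,b⁆ ∈ x₃(s) UU 4 6` (`mem_UU_inf`, `uniq`).  By `h l` (`act`; every `t ≠ 0` is a square)
`⁅x₁ t, x₇ u⁆ ∈ x₃(σ t u) UU 4 6`; by `m` (`1 ↔ 7`, `3 ↔ 5`) also in `UU 2 4 · x₅(t σ u)`, so it is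
`x₃ c₄ x₅`, `c₄ ∈ U 4`.  `b² = 1`: `1 = ⁅a,b⁆ b ⁅a,b⁆ b⁻¹ = c₄² ⁅..⁆` with `⁅c₄,b⁆ ∈ V 6` (`QW`), so `c₄`
commutes with `b`, `c₄ ∈ V 4` (`C3`, if `u ≠ 0`).  The same holds for `(3, 9)` (conjugate by `ρ`):
`y x₃(s) y⁻¹ ∈ x₃(s) UU 5 7`; comparing with `a b a⁻¹ = x₃(s) c₄ x₅ x₇` gives `c₄ = 1` for `t = 1`, and `h l`
for all `t`. -/
theorem Rel.r17 (hi : i % 2 = 1) (t u : F) :
    ⁅D.x i t, D.x (i + 6) u⁆ = D.x (i + 2) (σ t * u) * D.x (i + 4) (t * σ u) := by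
  have hn : (M.n : ℤ) = 8 := by rw [H.n]; rfl
  have e0 : ∀ s, (D.x 3 s)⁻¹ * ⁅D.x 1 1, D.x 7 s⁆ = ⁅D.x 3 s, D.x 9 1⁆ * (D.x 7 s)⁻¹ := fun s => by
    have c := H.odd_comm (by norm_num) (by norm_num) (D.mem_U 9 1) (D.mem_U 7 s) (by norm_num)
      (by norm_num)
    have e1 : D.x 1 1 = D.x 9 1 * D.E.w 1 * (D.x 9 1)⁻¹ := by
      rw [D.w_eq', ← mul_assoc, ← mul_assoc, D.x_sq, one_mul, mul_inv_cancel_right]
    have e2 : D.x 1 1 * D.x 7 s * (D.x 1 1)⁻¹ = D.x 9 1 * D.x 3 s * (D.x 9 1)⁻¹ := by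
      rw [show D.x 3 s = _ from (D.w_x 7 s).symm, e1]
      calc _ = D.x 9 1 * D.E.w 1 * ((D.x 9 1)⁻¹ * (D.x 7 s * D.x 9 1)) * (D.E.w 1)⁻¹ * (D.x 9 1)⁻¹ := by
            group
        _ = _ := by rw [← c.eq]; group
    rw [commutatorElement_def, commutatorElement_def, e2, D.x_inv 3]
    group
  have A := R.r17a H (j := 4) fun s => mem_UU_inf (i := 2) (j' := 8)
    (mul_mem (inv_mem (U_le_UU (by omega) (by omega) (D.mem_U _ _)))
      (UU_mono (by omega) (by omega) (comm (D.mem_U 1 1) (D.mem_U 7 s) (by omega) (by omega))))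
    (by
      rw [e0]
      exact mul_mem (UU_mono (by omega) (by omega) (comm (D.mem_U 3 s) (D.mem_U 9 1) (by omega)
        (by omega))) (inv_mem (U_le_UU (by omega) (by omega) (D.mem_U _ _))))
    (by omega) (by omega) (by omega)
  have B : ∀ t u, ⁅D.x 1 t, D.x 7 u⁆ * D.x 5 (t * σ u) ∈ M.UU 2 4 := fun t u => by
    have := inv_mem ((D.rf.per (d := 16) (by omega)).conj_UU (i' := 2) (j' := 4) (A u t) (by omega)
      (by omega))
    rwa [← conj_mul, ← conj_inv, conjugate_commutatorElement, D.m_x, D.m_x, D.m_x, mul_inv_rev,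
      inv_inv, commutatorElement_inv, mul_comm (σ u)] at this
  have C : ∀ t u, ⁅D.x 1 t, D.x 7 u⁆ ∈ M.UU 3 5 := fun t u => mem_UU_inf (i := 2) (j' := 6)
    ((mul_mem_cancel_right (U_le_UU (by omega) (by omega) (D.mem_U _ _))).1
      (UU_mono le_rfl (by omega) (B t u)))
    ((mul_mem_cancel_left (inv_mem (U_le_UU (by omega) (by omega) (D.mem_U _ _)))).1
      (UU_mono (by omega) le_rfl (A t u))) (by omega) (by omega) (by omega)
  have A' := R.r17a H (j := 5) fun s => mem_UU_inf (i := 4) (j' := 7) (by simpa using A 1 s) (by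
    have := (D.rot 1).conj_UU (i' := 5) (j' := 7) (C s 1) (by omega) (by omega)
    rw [conjugate_commutatorElement, D.ρ_x, D.ρ_x] at this
    rw [e0]
    exact mul_mem this (inv_mem (U_le_UU (by omega) (by omega) (D.mem_U _ _))))
    (by omega) (by omega) (by omega)
  have E : ⁅D.x 1 t, D.x 7 u⁆ = D.x 3 (σ t * u) * D.x 5 (t * σ u) := by
    have a1 := mul_mem (A' t u) (U_le_UU (by omega) (by omega) (D.mem_U 5 (t * σ u)))
    rw [mul_assoc] at a1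
    have := UU_bot (by norm_num) (mem_UU_inf (mul_mem (inv_mem (U_le_UU (by omega) (by omega)
      (D.mem_U 3 (σ t * u)))) (B t u)) a1 (by omega) (by omega) (by omega))
    rw [inv_mul_eq_one, ← mul_inv_eq_iff_eq_mul, D.x_inv] at this
    exact this.symm
  obtain ⟨j, rfl⟩ : ∃ j, i = 1 + 2 * j := ⟨(i - 1) / 2, by omega⟩
  have := congrArg (fun y => D.ρ ^ j * y * (D.ρ ^ j)⁻¹) E
  simp only [conjugate_commutatorElement, ← conj_mul, ρ_x] at this
  convert this using 3 <;> ring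

theorem Rel.exists_nV (hk : k % 2 = 0) : ∃ u ∈ M.U k, u ∉ M.Vz k := by
  obtain ⟨g, hg⟩ := M.exists_rot hk
  refine ⟨_, hg.conj_U (T_conj_U (D.E.h_T one_ne_zero) D.f_mem) (by ring), fun h => ?_⟩
  have h1 := hg.inv.conj_V (j := 0) h (by ring)
  rw [show ∀ y : G, g⁻¹ * (g * y * g⁻¹) * g⁻¹⁻¹ = y from fun y => by group] at h1
  have h2 := R.y3 H one_ne_zero 1
  rw [(H.V_comm (by norm_num) h1 (D.mem_U 3 1) (by norm_num) (by norm_num)).commutator_eq] at h2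
  simpa using D.x_inj _ _ h2.symm

/-- `g = g₂ ⋯ g₇`.  `g` centralises `V 2` and fixes `x 7`, so it fixes `x 6` (`fix_of_V`): `g₇ = 1`
(`UU_eq_R`).  `U 3, U 4, U 5` centralise `W 4` (`UW`); `g₂ g₆` centralises `U 5` and `U 3`, so `g₂ ∈ V 2`,
`g₆ ∈ V 6` (`C3`, `C3'`).  Against `U 7`: `⁅g₂,·⁆ ∈ V 4`, `⁅g₄,·⁆ ∈ V 6` (`comm5'`, `QW`): `g₂ = 1`
(`eq_one_of_V`), `g₄ ∈ V 4`.  Against `U 6 ∖ V 6` and `U 2 ∖ V 2` (`card_U0`, `card_V`): `g₃ = g₅ = 1`. -/
theorem Rel.cent27 (hg : g ∈ M.UU 2 7) (h : ∀ u ∈ M.UU 2 7, Commute g u) :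
    ∃ s t, g = D.x 4 s * D.x 6 t := by
  have hn : (M.n : ℤ) = 8 := by rw [H.n]; rfl
  replace h : ∀ k, 2 ≤ k → k ≤ 7 → ∀ u ∈ M.U k, Commute u g := fun k a b u hu =>
    (h u (U_le_UU a b hu)).symm
  obtain ⟨a, ha, r1, h1, rfl⟩ := dec hg (by omega) (by omega)
  obtain ⟨b, hb, r2, h2, rfl⟩ := dec h1 (by omega) (by omega)
  obtain ⟨c, hc, r3, h3, rfl⟩ := dec h2 (by omega) (by omega)
  obtain ⟨d, hd, r4, h4, rfl⟩ := dec h3 (by omega) (by omega)
  obtain ⟨e, he, f, hf, rfl⟩ := dec h4 (by omega) (by omega)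
  clear h1 h2 h3 h4 hg
  norm_num only at hb hc hd he hf
  rw [UU_self] at hf
  have vc := fun {i j : ℤ} {z u : G} (hz : z ∈ M.Vz i) (hu : u ∈ M.U j)
    (h : i % 2 = 0 ∧ i - 4 ≤ j ∧ j ≤ i + 4) => H.V_comm h.1 hz hu h.2.1 h.2.2
  have oc := fun {i j : ℤ} {z u : G} (hz : z ∈ M.U i) (hu : u ∈ M.U j)
    (h : i % 2 = 1 ∧ j % 2 = 1 ∧ i - 4 ≤ j ∧ j ≤ i + 4) => H.odd_comm h.1 h.2.1 hz hu h.2.2.1 h.2.2.2
  have cl : ∀ {x y z : G}, Commute z (x * y) → Commute z y → Commute z x := fun h h' =>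
    (cm_l h.symm h'.symm).symm
  have cr : ∀ {x y z : G}, Commute z (x * y) → Commute z x → Commute z y := fun h h' =>
    (cm_r h.symm h'.symm).symm
  obtain ⟨v, hv, v1⟩ := H.exists_V (i := 2) (by omega)
  obtain rfl := H.eq_one_of_V (by omega) hv v1 hf (cr (cr (cr (cr (cr
    (h 2 (by omega) (by omega) v (H.V_le (by omega) hv)) (vc hv ha (by omega))) (vc hv hb (by omega)))
    (vc hv hc (by omega))) (vc hv hd (by omega))) (vc hv he (by omega))).symm (by omega)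
  rw [mul_one] at h ⊢
  obtain ⟨u, hu, u1⟩ := M.exists_U 5
  have ha' := R.C3 H (by omega) ha hu u1 (cl (h 5 (by omega) (by omega) u hu)
    ((oc hu hb (by omega)).mul_right ((commute_succ hc hu rfl).symm.mul_right
      ((oc hu hd (by omega)).mul_right (commute_succ hu he rfl))))).symm
  obtain ⟨u, hu, u1⟩ := M.exists_U 3
  have he' := R.C3' H (by omega) he hu u1 (cr (cr (cr (cr (h 3 (by omega) (by omega) u hu)
    (commute_succ ha hu rfl).symm) (oc hu hb (by omega))) (commute_succ hu hc rfl))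
    (oc hu hd (by omega))).symm
  obtain ⟨u, hu, u1⟩ := M.exists_U 7
  have k1 : Commute u (a * c) := cl (y := b * (d * e)) (by
    simpa only [← mul_assoc, mul_assoc a b c, (commute_succ hb hc rfl).eq] using
      h 7 (by omega) (by omega) u hu) ((oc hu hb (by omega)).mul_right
    ((oc hu hd (by omega)).mul_right (commute_succ he hu rfl).symm))
  have k2 : ⁅u, a⁆ ∈ M.Vz 4 := H.comm5' (i := 7) (by omega) hu ha'
  have k3 : ⁅c, u⁆ ∈ M.Vz 6 :=
    H.QW (by omega) (U_le_UU (by omega) (by omega) hc) (H.U_le_W (by omega) (by omega) hu)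
  have k4 : ⁅u, a⁆ = ⁅c, u⁆ := by
    calc _ = a⁻¹ * (a * ⁅u, a⁆) := by group
      _ = a⁻¹ * (u * (a * c)) * c⁻¹ * u⁻¹ := by
        rw [← (vc k2 ha (by omega)).eq, commutatorElement_def]; group
      _ = _ := by rw [k1.eq, commutatorElement_def]; group
  have k5 : ⁅u, a⁆ = 1 := U_inf_UU (j := 6) (H.V_le (by omega) k2)
    (k4 ▸ U_le_UU (by omega) le_rfl (H.V_le (by omega) k3)) (by omega)
  obtain rfl : a = 1 := by_contra fun a1 => u1 (H.eq_one_of_V (by omega) ha' a1 hu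
    (commutatorElement_eq_one_iff_commute.1 k5) (by omega))
  have hc' := R.C3 H (by omega) hc hu u1 (commutatorElement_eq_one_iff_commute.1 (k4 ▸ k5))
  rw [one_mul] at h ⊢
  obtain ⟨u, hu, u1⟩ := R.exists_nV H (k := 6) (by omega)
  obtain rfl : b = 1 := by_contra fun b1 => u1 (R.C3' H (by omega) hu hb b1
    (cl (h 6 (by omega) (by omega) u hu) ((vc hc' hu (by omega)).symm.mul_right
      ((commute_succ hd hu rfl).symm.mul_right (vc he' hu (by omega)).symm))))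
  rw [one_mul] at h ⊢
  obtain ⟨u, hu, u1⟩ := R.exists_nV H (k := 2) (by omega)
  obtain rfl : d = 1 := by_contra fun d1 => u1 (R.C3 H (by omega) hu hd d1
    (cl (cr (h 2 (by omega) (by omega) u hu) (vc hc' hu (by omega)).symm)
      (vc he' hu (by omega)).symm))
  obtain ⟨s, rfl⟩ := D.surj_V 4 (by omega) c hc'
  obtain ⟨t, rfl⟩ := D.surj_V 6 (by omega) e he'
  exact ⟨s, t, by rw [one_mul]⟩

end OD

end MP

end Cfsg.Agent.BN2
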