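import Cfsg.Agent.BN2.Oc0

/-!
# Finite Moufang octagons (S1144): graphs and symmetries (definitions, general lemmas)
-/

set_option autoImplicit false
set_option linter.unusedSectionVars false
set_option linter.unusedVariables false

namespace Cfsg.Agent.BN2

open scoped commutatorElement

theorem graph_cent {G G' : Type*} [Group G] [Group G'] {Θ : Subgroup (G × G')}
    (hΘ : ∀ g ∈ Θ, g.1 = 1 → g.2 = 1) {e g : G × G'} (h1 : e.1 = 1)
    (he : e ∈ Subgroup.normalizer (Θ : Set (G × G'))) (hg : g ∈ Θ) : Commute e.2 g.2 := by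
  have h := hΘ _ (mul_mem ((Subgroup.mem_normalizer_iff.1 he g).1 hg) (inv_mem hg)) (by simp [h1])
  simp only [Prod.snd_mul, Prod.snd_inv] at h
  exact commutatorElement_eq_one_iff_commute.1 h

theorem graph_cent' {G G' : Type*} [Group G] [Group G'] {Θ : Subgroup (G × G')}
    (hΘ : ∀ g ∈ Θ, g.2 = 1 → g.1 = 1) {e g : G × G'} (h1 : e.2 = 1)
    (he : e ∈ Subgroup.normalizer (Θ : Set (G × G'))) (hg : g ∈ Θ) : Commute e.1 g.1 := by
  have h := hΘ _ (mul_mem ((Subgroup.mem_normalizer_iff.1 he g).1 hg) (inv_mem hg)) (by simp [h1])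
  simp only [Prod.fst_mul, Prod.fst_inv] at h
  exact commutatorElement_eq_one_iff_commute.1 h

/-- `a` normalises a join if its commutators with the generators lie in the join -/
theorem nor_iSup {H : Type*} [Group H] [Finite H] {p : ℤ → Prop} {Γ : ℤ → Subgroup H} {a : H}
    (h : ∀ l, p l → ∀ b ∈ Γ l, a * b * a⁻¹ ∈ ⨆ (l : ℤ) (_ : p l), Γ l) :
    a ∈ Subgroup.normalizer ((⨆ (l : ℤ) (_ : p l), Γ l : Subgroup H) : Set H) :=
  Subgroup.mem_normalizer_fintype fun b hb =>
    (iSup₂_le fun l hl b hb => h l hl b hb :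
      (⨆ (l : ℤ) (_ : p l), Γ l) ≤ (⨆ (l : ℤ) (_ : p l), Γ l).comap (MulAut.conj a).toMonoidHom) hb

theorem comm_mem_of_nor {H : Type*} [Group H] {N : Subgroup H} {a b : H}
    (ha : a ∈ Subgroup.normalizer (N : Set H)) (hb : b ∈ N) : ⁅a, b⁆ ∈ N ∧ ⁅b, a⁆ ∈ N := by
  have h : ⁅a, b⁆ ∈ N := mul_mem ((Subgroup.mem_normalizer_iff.1 ha b).1 hb) (inv_mem hb)
  exact ⟨h, by rw [← commutatorElement_inv]; exact inv_mem h⟩

namespace MP

variable {G V : Type} [Group G] [MulAction G V] {M : MP G V}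
  {G' V' : Type} [Group G'] [MulAction G' V'] {M' : MP G' V'}

namespace OP

variable {F : Type} [Field F] (P : OP M M' F)

/-- `g` moves the graphs `ΓX i` along `φ` -/
def Mv (g : G × G') (φ : ℤ → ℤ) : Prop :=
  ∀ i, ∃ c : F, c ≠ 0 ∧ ∀ t, g * P.X i t * g⁻¹ = P.X (φ i) (c * t)

/-- pairs of rotations compatible with the coordinates -/
def Sh (g : G × G') (c : ℤ) : Prop := M.Rot c g.1 ∧ M'.Rot c g.2 ∧ P.Mv g fun i => i + c

/-- pairs of reflections compatible with the coordinates -/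
def Fl (g : G × G') (c : ℤ) : Prop := M.Rf c g.1 ∧ M'.Rf c g.2 ∧ P.Mv g fun i => c + 8 - i

end OP

end MP

end Cfsg.Agent.BN2
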