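import Cfsg.Agent.BN2.OcP0
import Cfsg.Agent.BN2.OcC

/-!
# Finite Moufang octagons (S1144): families of graphs, symmetries
-/

set_option autoImplicit false
set_option linter.unusedSectionVars false
set_option linter.unusedVariables false

namespace Cfsg.Agent.BN2

open scoped commutatorElement

namespace MP

variable {G V : Type} [Group G] [MulAction G V] [Finite G] [Finite V] {M : MP G V}
  {G' V' : Type} [Group G'] [MulAction G' V'] [Finite G'] [Finite V'] {M' : MP G' V'}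

omit [Finite G] [Finite G'] in
theorem p1_le {p : ℤ → Prop} (Γ : ℤ → Subgroup (G × G')) {l : ℤ} (h : p l) :
    Γ l ≤ ⨆ (l : ℤ) (_ : p l), Γ l := le_iSup₂_of_le (f := fun l (_ : p l) => Γ l) l h le_rfl

omit [Finite G] [Finite G'] in
theorem p1_mono {p q : ℤ → Prop} {Γ : ℤ → Subgroup (G × G')} (h : ∀ l, p l → q l) :
    (⨆ (l : ℤ) (_ : p l), Γ l) ≤ ⨆ (l : ℤ) (_ : q l), Γ l := iSup₂_le fun l hl => p1_le Γ (h l hl)

namespace PFam

variable {i j i' j' : ℤ} {Γ : ℤ → Subgroup (G × G')} (h : PFam M M' i j Γ) {g : G × G'}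
include h

theorem mono (h1 : i ≤ i') (h2 : j' ≤ j) : PFam M M' i' j' Γ := by
  exact ⟨fun k a b => h.fst k (by omega) (by omega), fun k a b => h.snd k (by omega) (by omega),
    fun k a b => h.iff k (by omega) (by omega), fun k r a b c => h.cm k r (by omega) b (by omega)⟩

/-- `Γ i` normalises the join of the others (`nor_iSup`, `x y x⁻¹ = ⁅x,y⁆ y`; see the proof of
`PFam.sup_iff` in `Cmp`). -/
theorem dec (hij : i ≤ j) (hg : g ∈ ⨆ (l : ℤ) (_ : i ≤ l ∧ l ≤ j), Γ l) :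
    ∃ a ∈ Γ i, ∃ b ∈ ⨆ (l : ℤ) (_ : i + 1 ≤ l ∧ l ≤ j), Γ l, g = a * b := by
  have hN : Γ i ≤ Subgroup.normalizer ((⨆ (l : ℤ) (_ : i + 1 ≤ l ∧ l ≤ j), Γ l : Subgroup _) : Set _) :=
    fun x hx => nor_iSup fun l hl y hy => by
      have := mul_mem (p1_mono (q := fun l => i + 1 ≤ l ∧ l ≤ j) (fun k hk => by omega)
        (h.cm i l le_rfl (by omega) hl.2 x hx y hy)) (p1_le Γ hl hy)
      simpa [commutatorElement_def] using this
  have hg' : g ∈ Γ i ⊔ ⨆ (l : ℤ) (_ : i + 1 ≤ l ∧ l ≤ j), Γ l := (iSup₂_le fun l hl => by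
    rcases hl.1.eq_or_lt with rfl | h1
    · exact le_sup_left
    · exact le_sup_of_le_right (p1_le (p := fun l => i + 1 ≤ l ∧ l ≤ j) Γ ⟨h1, hl.2⟩) :
      _ ≤ Γ i ⊔ ⨆ (l : ℤ) (_ : i + 1 ≤ l ∧ l ≤ j), Γ l) hg
  rw [← SetLike.mem_coe, Subgroup.coe_mul_of_left_le_normalizer_right _ _ hN] at hg'
  obtain ⟨a, ha, b, hb, rfl⟩ := hg'
  exact ⟨a, ha, b, hb, rfl⟩

theorem dec' (hij : i ≤ j) (hg : g ∈ ⨆ (l : ℤ) (_ : i ≤ l ∧ l ≤ j), Γ l) :
    ∃ b ∈ ⨆ (l : ℤ) (_ : i ≤ l ∧ l ≤ j - 1), Γ l, ∃ a ∈ Γ j, g = b * a := by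
  have hN : Γ j ≤ Subgroup.normalizer ((⨆ (l : ℤ) (_ : i ≤ l ∧ l ≤ j - 1), Γ l : Subgroup _) : Set _) :=
    fun x hx => nor_iSup fun l hl y hy => by
      have := mul_mem (inv_mem (p1_mono (q := fun l => i ≤ l ∧ l ≤ j - 1) (fun k hk => by omega)
        (h.cm l j hl.1 (by omega) le_rfl y hy x hx))) (p1_le Γ hl hy)
      simpa [commutatorElement_def, mul_assoc] using this
  have hg' : g ∈ (⨆ (l : ℤ) (_ : i ≤ l ∧ l ≤ j - 1), Γ l) ⊔ Γ j := (iSup₂_le fun l hl => by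
    rcases hl.2.eq_or_lt with rfl | h1
    · exact le_sup_right
    · exact le_sup_of_le_left (p1_le (p := fun l => i ≤ l ∧ l ≤ j - 1) Γ ⟨hl.1, by omega⟩) :
      _ ≤ (⨆ (l : ℤ) (_ : i ≤ l ∧ l ≤ j - 1), Γ l) ⊔ Γ j) hg
  rw [← SetLike.mem_coe, Subgroup.coe_mul_of_right_le_normalizer_left _ _ hN] at hg'
  obtain ⟨a, ha, b, hb, rfl⟩ := hg'
  exact ⟨a, ha, b, hb, rfl⟩

/-- Induction on `i' - i` and `j - j'` (cut `i', j'` down to the window with `mem_UU_inf` or treat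
`i' ≤ i` directly): `g = a b` (`dec`), if `i < i'` then `a.1 = g.1 b.1⁻¹ ∈ UU (i+1) _` (`sup_iff`), so
`a.1 = 1` (`U_inf_UU`), `a = 1` (`iff`). -/
theorem restrict (hn : M'.n = M.n) (h1 : j < i + M.n) (h2 : j' < i + M.n) (h3 : j < i' + M.n)
    (h4 : j' < i' + M.n) (hg : g ∈ ⨆ (l : ℤ) (_ : i ≤ l ∧ l ≤ j), Γ l) (hu : g.1 ∈ M.UU i' j') :
    g ∈ ⨆ (l : ℤ) (_ : (i ≤ l ∧ l ≤ j) ∧ i' ≤ l ∧ l ≤ j'), Γ l := by
  obtain ⟨d, hd⟩ : ∃ d : ℕ, j - i < d := ⟨(j - i + 1).toNat, by omega⟩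
  induction d generalizing i j g with
  | zero => exact p1_mono (fun l hl => by omega) hg
  | succ d ih =>
    by_cases hij : j < i
    · exact p1_mono (fun l hl => by omega) hg
    by_cases hi : i < i'
    · obtain ⟨a, ha, b, hb, rfl⟩ := h.dec (by omega) hg
      have h' := h.mono (i' := i + 1) (by omega) le_rfl
      have a1 : a.1 = 1 := U_inf_UU (j := i + M.n - 1) (h.fst i le_rfl (by omega) a ha) (by
        have := mul_mem (UU_mono (i' := i + 1) (j' := i + M.n - 1) (by omega) (by omega) hu)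
          (inv_mem (UU_mono le_rfl (by omega) (h'.sup_iff (by omega) hn hb).1))
        simpa using this) (by omega)
      obtain rfl : a = 1 := Prod.ext a1 ((h.iff i le_rfl (by omega) a ha).1 a1)
      rw [one_mul] at hu ⊢
      exact p1_mono (fun l hl => by omega) (ih h' (by omega) (by omega) h3 hb hu (by omega))
    by_cases hj : j' < j
    · obtain ⟨b, hb, a, ha, rfl⟩ := h.dec' (by omega) hg
      have h' := h.mono (j' := j - 1) le_rfl (by omega)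
      have a1 : a.1 = 1 := U_inf_UU' (i := i') (h.fst j (by omega) le_rfl a ha) (by
        have := mul_mem (inv_mem (UU_mono (i' := i') (by omega) le_rfl (h'.sup_iff (by omega) hn hb).1))
          (UU_mono le_rfl (by omega) hu)
        simpa using this) h3
      obtain rfl : a = 1 := Prod.ext a1 ((h.iff j (by omega) le_rfl a ha).1 a1)
      rw [mul_one] at hu ⊢
      exact p1_mono (fun l hl => by omega) (ih h' (by omega) h2 (by omega) hb hu (by omega))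
    exact p1_mono (fun l hl => by omega) hg

omit h in
theorem lift (e : ∀ k, i ≤ k → k ≤ j → ∀ x ∈ M.U k, ∃ y, (x, y) ∈ Γ k) {x : G}
    (hx : x ∈ M.UU i j) : ∃ y, (x, y) ∈ ⨆ (l : ℤ) (_ : i ≤ l ∧ l ≤ j), Γ l := by
  obtain ⟨p, hp, rfl⟩ := (UU_le (H := (⨆ (l : ℤ) (_ : i ≤ l ∧ l ≤ j), Γ l).map (MonoidHom.fst G G'))
    fun k a b x hx => by
      obtain ⟨y, hy⟩ := e k a b x hx
      exact ⟨_, p1_le (p := fun l => i ≤ l ∧ l ≤ j) Γ ⟨a, b⟩ hy, rfl⟩) hx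
  exact ⟨p.2, hp⟩

omit h in
theorem lift' (e : ∀ k, i ≤ k → k ≤ j → ∀ y ∈ M'.U k, ∃ x, (x, y) ∈ Γ k) {y : G'}
    (hy : y ∈ M'.UU i j) : ∃ x, (x, y) ∈ ⨆ (l : ℤ) (_ : i ≤ l ∧ l ≤ j), Γ l := by
  obtain ⟨p, hp, rfl⟩ := (UU_le (H := (⨆ (l : ℤ) (_ : i ≤ l ∧ l ≤ j), Γ l).map (MonoidHom.snd G G'))
    fun k a b x hx => by
      obtain ⟨y, hy⟩ := e k a b x hx
      exact ⟨_, p1_le (p := fun l => i ≤ l ∧ l ≤ j) Γ ⟨a, b⟩ hy, rfl⟩) hy
  exact ⟨p.1, hp⟩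

end PFam

namespace OP

variable {F : Type} [Field F] [Finite F] (P : OP M M' F) {i j k c : ℤ} {a b g : G × G'} {l : F}

theorem X_add (i : ℤ) (s t : F) : P.X i (s + t) = P.X i s * P.X i t := by
  exact Prod.ext (P.D.x_add _ _ _) (P.D'.x_add _ _ _)

theorem X_zero (i : ℤ) : P.X i 0 = 1 := by
  exact Prod.ext (P.D.x_zero _) (P.D'.x_zero _)

theorem X_sq (i : ℤ) (t : F) : P.X i t * P.X i t = 1 := by
  exact Prod.ext (P.D.x_sq _ _) (P.D'.x_sq _ _)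

theorem X_inv (i : ℤ) (t : F) : (P.X i t)⁻¹ = P.X i t := by
  exact Prod.ext (P.D.x_inv _ _) (P.D'.x_inv _ _)

theorem X_congr (h : i % 16 = j % 16) (t : F) : P.X i t = P.X j t := by
  exact Prod.ext (P.D.x_congr h _) (P.D'.x_congr h _)

theorem ΓX_iff (hg : g ∈ P.ΓX i) : g.1 ∈ M.U i ∧ g.2 ∈ M'.U i ∧ (g.1 = 1 ↔ g.2 = 1) := by
  obtain ⟨t, rfl⟩ := P.mem_ΓX.1 hg
  exact ⟨P.D.mem_U _ _, P.D'.mem_U _ _, fun e => by rw [P.D.x_inj _ _ e]; exact P.D'.x_zero _,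
    fun e => by rw [P.D'.x_inj _ _ e]; exact P.D.x_zero _⟩

theorem Θ_per (e : j = i + 16) : P.Θ j = P.Θ i := by
  refine le_antisymm (P.Θ_le fun l a b t => ?_) (P.Θ_le fun l a b t => ?_)
  · rw [P.X_congr (j := l - 16) (by omega)]
    exact P.ΓX_le_Θ (by omega) (by omega) (P.X_mem _ _)
  · rw [P.X_congr (j := l + 16) (by omega)]
    exact P.ΓX_le_Θ (by omega) (by omega) (P.X_mem _ _)

theorem Γ_per (e : j = i + 16) : P.Γ j = P.Γ i := by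
  ext g
  rcases Int.emod_two_eq_zero_or_one i with h | h
  · rw [P.mem_Γ_even h, P.mem_Γ_even (by omega), P.Θ_per (i := i + 4) (j := j + 4) (by omega),
      U_per (M := M) (i := i) (j := j) (by rw [P.oc.n]; omega),
      U_per (M := M') (i := i) (j := j) (by rw [P.oc'.n]; omega)]
  · rw [P.Γ_odd h, P.Γ_odd (by omega), P.mem_ΓX, P.mem_ΓX]
    simp only [P.X_congr (i := j) (j := i) (by omega)]

theorem J_per {i' j' : ℤ} (e : i' = i + 16) (e' : j' = j + 16) : P.J i' j' = P.J i j := by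
  refine le_antisymm (P.J_le fun l a b => ?_) (P.J_le fun l a b => ?_)
  · rw [P.Γ_per (i := l - 16) (by omega)]
    exact P.Γ_le_J (by omega) (by omega)
  · rw [← P.Γ_per (j := l + 16) rfl]
    exact P.Γ_le_J (by omega) (by omega)

theorem sh_ρ (k : ℤ) : P.Sh (P.ρ ^ k) (2 * k) := by
  exact ⟨P.D.rot k, P.D'.rot k, fun i => ⟨1, one_ne_zero, fun t => by
    rw [one_mul]; exact Prod.ext (P.D.ρ_x k i t) (P.D'.ρ_x k i t)⟩⟩

/-- `Rel.act`, `ocχ_ne`, `h_T` -/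
theorem sh_h (hl : l ≠ 0) : P.Sh (P.h l) 0 := by
  exact ⟨fun i => by rw [add_zero]; exact P.D.E.h_T hl i, fun i => by rw [add_zero]; exact P.D'.E.h_T hl i,
    fun i => ⟨_, ocχ_ne P.σ i hl, fun t => by
      simp only [add_zero]; exact Prod.ext (P.R.act l hl i t) (P.R'.act l hl i t)⟩⟩

theorem fl_ρm (k : ℤ) : P.Fl (P.ρ ^ k * P.m) (2 * k) := by
  exact ⟨P.D.rf_ρm k, P.D'.rf_ρm k, fun i => ⟨1, one_ne_zero, fun t => by
    simp only [one_mul, add_comm (2 * k)]; exact Prod.ext (P.D.ρm_x k i t) (P.D'.ρm_x k i t)⟩⟩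

theorem fl_m : P.Fl P.m 0 := by
  exact ⟨P.D.rf, P.D'.rf, fun i => ⟨1, one_ne_zero, fun t => by
    simp only [one_mul, zero_add]; exact Prod.ext (P.D.m_x i t) (P.D'.m_x i t)⟩⟩

theorem fl_w : P.Fl P.w 2 := by
  exact ⟨P.D.E.rf one_ne_zero, P.D'.E.rf one_ne_zero, fun i => ⟨1, one_ne_zero, fun t => by
    rw [one_mul]; exact Prod.ext (P.D.w_x i t) (P.D'.w_x i t)⟩⟩

theorem m_sq : P.m * P.m = 1 := by
  exact Prod.ext P.D.m_sq P.D'.m_sq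

theorem m_eq : P.m = P.f * P.X 8 1 * P.f⁻¹ := by
  exact Prod.ext P.D.m_eq P.D'.m_eq

theorem w_eq : P.X 1 1 * P.X 9 1 * (P.X 1 1)⁻¹ = P.w := by
  exact Prod.ext P.D.w_eq P.D'.w_eq

theorem r16 (hi : i % 2 = 1) (t u : F) : ⁅P.X i t, P.X (i + 5) u⁆ = P.X (i + 3) (t * u) := by
  exact Prod.ext (P.D.r16 P.oc hi t u) (P.D'.r16 P.oc' hi t u)

theorem r16' (hi : i % 2 = 1) (t u : F) : ⁅P.X i t, P.X (i - 5) u⁆ = P.X (i - 3) (t * u) := by
  exact Prod.ext (P.D.r16' P.oc hi t u) (P.D'.r16' P.oc' hi t u)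

/-- `V_comm` in both factors -/
theorem X_comm (hi : i % 2 = 0) (t : F) (h : a.1 ∈ M.U j) (h' : a.2 ∈ M'.U j) (h1 : i - 4 ≤ j)
    (h2 : j ≤ i + 4) : Commute (P.X i t) a := by
  exact Prod.ext (P.oc.V_comm hi (P.D.mem_V i hi t) h h1 h2) (P.oc'.V_comm hi (P.D'.mem_V i hi t) h' h1 h2)

/-- `V_comm`, `odd_comm` -/
theorem XX_comm (h1 : i - 4 ≤ j) (h2 : j ≤ i + 4) (s t : F) : Commute (P.X i s) (P.X j t) := by
  rcases Int.emod_two_eq_zero_or_one i with hi | hi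
  · exact P.X_comm hi s (P.D.mem_U j t) (P.D'.mem_U j t) h1 h2
  rcases Int.emod_two_eq_zero_or_one j with hj | hj
  · exact (P.X_comm hj t (P.D.mem_U i s) (P.D'.mem_U i s) (by omega) (by omega)).symm
  exact Prod.ext (P.oc.odd_comm hi hj (P.D.mem_U i s) (P.D.mem_U j t) h1 h2)
    (P.oc'.odd_comm hi hj (P.D'.mem_U i s) (P.D'.mem_U j t) h1 h2)

variable {P}

theorem Mv.inv {φ ψ : ℤ → ℤ} (h : P.Mv g φ) (e : ∀ i, φ (ψ i) = i) : P.Mv g⁻¹ ψ := fun i => by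
  obtain ⟨c, c0, hc⟩ := h (ψ i)
  refine ⟨c⁻¹, inv_ne_zero c0, fun t => ?_⟩
  have := hc (c⁻¹ * t)
  rw [e, mul_inv_cancel_left₀ c0] at this
  rw [← this]; group

theorem Mv.ΓX {φ : ℤ → ℤ} (h : P.Mv g φ) (ha : a ∈ P.ΓX i) (e : j = φ i) : g * a * g⁻¹ ∈ P.ΓX j := by
  obtain ⟨t, rfl⟩ := P.mem_ΓX.1 ha
  obtain ⟨c, -, hc⟩ := h i
  rw [hc, e]; exact P.X_mem _ _

theorem p1_nor {A B : Subgroup (G × G')} (h : ∀ a ∈ A, g * a * g⁻¹ ∈ B)
    (h' : ∀ b ∈ B, g⁻¹ * b * g⁻¹⁻¹ ∈ A) (ha : a ∈ Subgroup.normalizer (A : Set (G × G'))) :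
    g * a * g⁻¹ ∈ Subgroup.normalizer (B : Set (G × G')) :=
  Subgroup.mem_normalizer_fintype fun b hb => by
    simpa [mul_assoc] using h _ ((Subgroup.mem_normalizer_iff.1 ha _).1 (h' b hb))

theorem Sh.inv (h : P.Sh g c) : P.Sh g⁻¹ (-c) := by
  exact ⟨h.1.inv, h.2.1.inv, h.2.2.inv fun i => by omega⟩

theorem Fl.inv (h : P.Fl g c) : P.Fl g⁻¹ c := by
  exact ⟨h.1.inv, h.2.1.inv, h.2.2.inv fun i => by omega⟩

theorem Sh.ΓX (h : P.Sh g c) (ha : a ∈ P.ΓX i) (e : j = i + c) : g * a * g⁻¹ ∈ P.ΓX j := by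
  exact h.2.2.ΓX ha e

theorem Fl.ΓX (h : P.Fl g c) (ha : a ∈ P.ΓX i) (e : j = c + 8 - i) : g * a * g⁻¹ ∈ P.ΓX j := by
  exact h.2.2.ΓX ha e

theorem Sh.Θ (h : P.Sh g c) (ha : a ∈ P.Θ i) (e : j = i + c) : g * a * g⁻¹ ∈ P.Θ j := by
  exact P.Θ_le (H := (P.Θ j).comap (MulAut.conj g).toMonoidHom) (fun l a b t =>
    P.ΓX_le_Θ (l := l + c) (by omega) (by omega) (h.ΓX (P.X_mem l t) rfl)) ha

theorem Fl.Θ (h : P.Fl g c) (ha : a ∈ P.Θ i) (e : j = c + 8 - i) : g * a * g⁻¹ ∈ P.Θ j := by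
  exact P.Θ_le (H := (P.Θ j).comap (MulAut.conj g).toMonoidHom) (fun l a b t =>
    P.ΓX_le_Θ (l := c + 8 - l) (by omega) (by omega) (h.ΓX (P.X_mem l t) rfl)) ha

/-- `Sh.Θ` for `g` and `g⁻¹` -/
theorem Sh.nor (h : P.Sh g c) (ha : a ∈ Subgroup.normalizer (P.Θ i : Set (G × G')))
    (e : j = i + c) : g * a * g⁻¹ ∈ Subgroup.normalizer (P.Θ j : Set (G × G')) := by
  exact p1_nor (fun _ x => h.Θ x e) (fun _ x => h.inv.Θ x (by omega)) ha

theorem Fl.nor (h : P.Fl g c) (ha : a ∈ Subgroup.normalizer (P.Θ i : Set (G × G')))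
    (e : j = c + 8 - i) : g * a * g⁻¹ ∈ Subgroup.normalizer (P.Θ j : Set (G × G')) := by
  exact p1_nor (fun _ x => h.Θ x e) (fun _ x => h.inv.Θ x (by omega)) ha

theorem Sh.Γ (h : P.Sh g c) (hc : c % 2 = 0) (ha : a ∈ P.Γ i) (e : j = i + c) :
    g * a * g⁻¹ ∈ P.Γ j := by
  rcases Int.emod_two_eq_zero_or_one i with hi | hi
  · obtain ⟨a1, a2, a3⟩ := (P.mem_Γ_even hi).1 ha
    exact (P.mem_Γ_even (by omega)).2 ⟨h.1.conj_U a1 e, h.2.1.conj_U a2 e, h.nor a3 (by omega)⟩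
  · rw [P.Γ_odd hi] at ha
    rw [P.Γ_odd (by omega)]
    exact h.ΓX ha e

theorem Sh.J (h : P.Sh g c) (hc : c % 2 = 0) (ha : a ∈ P.J i j) {i' j' : ℤ} (e : i' = i + c)
    (e' : j' = j + c) : g * a * g⁻¹ ∈ P.J i' j' := by
  exact P.J_le (H := (P.J i' j').comap (MulAut.conj g).toMonoidHom) (fun l a b x hx =>
    P.Γ_le_J (l := l + c) (by omega) (by omega) (h.Γ hc hx rfl)) ha

theorem Sh.Cm (h : P.Sh g c) (hc : c % 2 = 0) (H : P.Cm i j) {i' j' : ℤ} (e : i' = i + c)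
    (e' : j' = j + c) : P.Cm i' j' := by
  intro a ha b hb
  have := h.J hc (H _ (h.inv.Γ (by omega) ha (by omega)) _ (h.inv.Γ (by omega) hb (by omega)))
    (i' := i' + 1) (j' := j' - 1) (by omega) (by omega)
  simpa [commutatorElement_def, mul_assoc] using this

end OP

end MP

end Cfsg.Agent.BN2
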