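import Cfsg.Agent.BN2.OcP1
import Cfsg.Agent.BN2.OcD

/-!
# Finite Moufang octagons (S1144): the graphs `Γ i` and the commutators at distance `≤ 5`
-/

set_option autoImplicit false
set_option linter.unusedSectionVars false
set_option linter.unusedVariables false

namespace Cfsg.Agent.BN2

open scoped commutatorElement

namespace MP

variable {G V : Type} [Group G] [MulAction G V] [Finite G] [Finite V] {M : MP G V}
  {G' V' : Type} [Group G'] [MulAction G' V'] [Finite G'] [Finite V'] {M' : MP G' V'}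

namespace OP

variable {F : Type} [Field F] [Finite F] (P : OP M M' F) {i j k r c : ℤ} {a b g : G × G'} {l : F}

include P in
theorem p2_n : (M.n : ℤ) = 8 := by rw [P.oc.n]; rfl

include P in
theorem p2_n' : (M'.n : ℤ) = 8 := by rw [P.oc'.n]; rfl

include P in
theorem p2_nn : M'.n = M.n := by rw [P.oc.n, P.oc'.n]

theorem p2_XΘ (h1 : k - 2 ≤ i) (h2 : i ≤ k + 2) (t : F) : P.X i t ∈ P.Θ k :=
  P.ΓX_le_Θ h1 h2 (P.X_mem i t)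

theorem p2_nor' (h : ∀ i, k - 2 ≤ i → i ≤ k + 2 → ∀ t, a * P.X i t * a⁻¹ ∈ P.Θ k) :
    a ∈ Subgroup.normalizer (P.Θ k : Set (G × G')) :=
  nor_iSup fun i hi _ ⟨t, e⟩ => e ▸ h i hi.1 hi.2 t

theorem p2_nor (h : ∀ i, k - 2 ≤ i → i ≤ k + 2 → ∀ t, ⁅a, P.X i t⁆ ∈ P.Θ k) :
    a ∈ Subgroup.normalizer (P.Θ k : Set (G × G')) :=
  P.p2_nor' fun i h1 h2 t => by
    simpa [commutatorElement_def] using mul_mem (h i h1 h2 t) (P.p2_XΘ h1 h2 t)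

theorem p2_one {H : Subgroup (G × G')} (h : Commute a b) : ⁅a, b⁆ ∈ H := by
  rw [h.commutator_eq]; exact one_mem _

theorem r28 (hk : k % 2 = 0) (a b : F) : ⁅P.X k a, P.X (k + 6) b⁆ =
    P.X (k + 2) (P.σ a * b) * P.X (k + 3) (a * b) * P.X (k + 4) (a * P.σ b) := Prod.ext (P.R.r28' P.oc hk a b) (P.R'.r28' P.oc' hk a b)

theorem r17 (hi : i % 2 = 1) (t u : F) :
    ⁅P.X i t, P.X (i + 6) u⁆ = P.X (i + 2) (P.σ t * u) * P.X (i + 4) (t * P.σ u) := by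
  exact Prod.ext (P.R.r17 P.oc hi t u) (P.R'.r17 P.oc' hi t u)

/-- `XX_comm`, `ΓX_iff` -/
theorem pf_ΓX (k : ℤ) : PFam M M' (k - 2) (k + 2) P.ΓX := by
  refine ⟨fun _ _ _ _ h => (P.ΓX_iff h).1, fun _ _ _ _ h => (P.ΓX_iff h).2.1,
    fun _ _ _ _ h => (P.ΓX_iff h).2.2, ?_⟩
  rintro i j h1 h2 h3 _ ⟨s, rfl⟩ _ ⟨t, rfl⟩
  exact p2_one (P.XX_comm (by omega) (by omega) _ _)

/-- `sup_iff` -/
theorem Θ_iff (hg : g ∈ P.Θ k) : g.1 = 1 ↔ g.2 = 1 := by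
  have := P.p2_n
  exact ((P.pf_ΓX k).sup_iff (by omega) P.p2_nn hg).2.2

/-- `restrict` -/
theorem Θ_lift (hg : g ∈ P.Θ k) (h : g.1 ∈ M.UU i j) (h1 : k - 3 ≤ i) (h2 : j ≤ k + 3) :
    g ∈ ⨆ (l : ℤ) (_ : (k - 2 ≤ l ∧ l ≤ k + 2) ∧ i ≤ l ∧ l ≤ j), P.ΓX l := by
  have := P.p2_n
  exact (P.pf_ΓX k).restrict P.p2_nn (by omega) (by omega) (by omega) (by omega) hg h

/-- even `i`: `X i t` normalises `Θ (i+4)` (`nor_iSup`): it commutes with `X (i+2), X (i+3), X (i+4)`;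
`r16'` at `i+5`, `r28`. -/
theorem ΓX_le (i : ℤ) : P.ΓX i ≤ P.Γ i := by
  rcases Int.emod_two_eq_zero_or_one i with hi | hi
  swap
  · exact (P.Γ_odd hi).ge
  rintro _ ⟨t, rfl⟩
  refine (P.mem_Γ_even hi).2 ⟨P.D.mem_U _ _, P.D'.mem_U _ _, P.p2_nor fun j h1 h2 s => ?_⟩
  rcases (by omega : j ≤ i + 4 ∨ i = j - 5 ∨ j = i + 6) with h | rfl | rfl
  · exact p2_one (P.XX_comm (by omega) h _ _)
  · rw [← commutatorElement_inv]
    exact inv_mem (P.r16' (i := j) (by omega) s _ ▸ P.p2_XΘ (by omega) (by omega) _)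
  · exact P.r28 hi _ s ▸ mul_mem (mul_mem (P.p2_XΘ (by omega) (by omega) _)
      (P.p2_XΘ (by omega) (by omega) _)) (P.p2_XΘ (by omega) (by omega) _)

theorem X_mem_Γ (i : ℤ) (t : F) : P.X i t ∈ P.Γ i := P.ΓX_le i (P.X_mem i t)

theorem X_mem_J (h1 : i ≤ k) (h2 : k ≤ j) (t : F) : P.X k t ∈ P.J i j :=
  P.Γ_le_J h1 h2 (P.X_mem_Γ k t)

theorem Θ_J (hg : g ∈ P.Θ k) (h : g.1 ∈ M.UU i j) (h1 : k - 3 ≤ i) (h2 : j ≤ k + 3) :
    g ∈ P.J i j := by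
  exact (iSup₂_le fun l hl => (P.ΓX_le l).trans (P.Γ_le_J hl.2.1 hl.2.2) : _ ≤ P.J i j)
    (P.Θ_lift hg h h1 h2)

theorem p2_one2 (hi : i % 2 = 0) (hg : g ∈ Subgroup.normalizer (P.Θ (i + 4) : Set (G × G')))
    (h1 : g.1 = 1) (h2 : g.2 ∈ M'.U j) (h3 : j = i ∨ j = i + 1) : g.2 = 1 :=
  P.oc'.eq_one_of_V (i := i + 6) (by omega) (P.D'.mem_V _ (by omega) 1)
    (fun e => one_ne_zero (P.D'.x_inj _ _ e)) h2
    (graph_cent (fun _ h => (P.Θ_iff h).1) h1 hg (P.p2_XΘ (i := i + 6) (by omega) (by omega) 1))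
    (Or.inl (by omega))

/-- even `i`: `graph_cent` with `X (i+6) 1 ∈ Θ (i+4)`, `eq_one_of_V` -/
theorem Γ_iff (hg : g ∈ P.Γ i) : g.1 ∈ M.U i ∧ g.2 ∈ M'.U i ∧ (g.1 = 1 ↔ g.2 = 1) := by
  rcases Int.emod_two_eq_zero_or_one i with hi | hi
  swap
  · exact P.ΓX_iff ((P.Γ_odd hi).le hg)
  obtain ⟨h1, h2, h3⟩ := (P.mem_Γ_even hi).1 hg
  refine ⟨h1, h2, fun e => P.p2_one2 hi h3 e h2 (Or.inl rfl), fun e => ?_⟩
  exact P.oc.eq_one_of_V (i := i + 6) (by omega) (P.D.mem_V _ (by omega) 1)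
    (fun e => one_ne_zero (P.D.x_inj _ _ e)) h1
    (graph_cent' (fun _ h => (P.Θ_iff h).2) e h3 (P.p2_XΘ (i := i + 6) (by omega) (by omega) 1))
    (Or.inl (by omega))

theorem p2_ext (ha : a ∈ P.Γ i) (hb : b ∈ P.Γ i) (e : a.1 = b.1) : a = b := by
  have h := (P.Γ_iff (mul_mem (inv_mem hb) ha)).2.2.1 (by simp [e])
  exact Prod.ext e (inv_mul_eq_one.1 h).symm

/-- `f⁻¹` normalises `Θ 4`: `X_comm` for `2, 4`; `f3, f5, f6` -/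
theorem f_mem : P.f ∈ P.Γ 0 := by
  refine (P.mem_Γ_even (by norm_num)).2 ⟨P.D.f_mem, P.D'.f_mem, ?_⟩
  refine (Subgroup.inv_mem_iff _).1 (P.p2_nor' fun j h1 h2 s => ?_)
  rw [inv_inv]
  have m : ∀ (i : ℤ) (t : F), 2 ≤ i → i ≤ 6 → P.X i t ∈ P.Θ (0 + 4) := fun i t a b =>
    P.p2_XΘ (by omega) (by omega) t
  rcases (by omega : (j % 2 = 0 ∧ j ≤ 4) ∨ j = 3 ∨ j = 5 ∨ j = 6) with h | rfl | rfl | rfl
  · rw [mul_assoc, (P.X_comm (a := P.f) h.1 s P.D.f_mem P.D'.f_mem (by omega) (by omega)).eq,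
      inv_mul_cancel_left]
    exact P.p2_XΘ h1 h2 s
  · rw [show P.f⁻¹ * P.X 3 s * P.f = P.X 2 s * P.X 3 s from Prod.ext (P.R.f3 s) (P.R'.f3 s)]
    exact mul_mem (m _ _ (by omega) (by omega)) (m _ _ (by omega) (by omega))
  · rw [show P.f⁻¹ * P.X 5 s * P.f = P.X 2 s * P.X 3 s * P.X 4 (P.σ s) * P.X 5 s from
      Prod.ext (P.R.f5 s) (P.R'.f5 s)]
    exact mul_mem (mul_mem (mul_mem (m _ _ (by omega) (by omega)) (m _ _ (by omega) (by omega)))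
      (m _ _ (by omega) (by omega))) (m _ _ (by omega) (by omega))
  · rw [show P.f⁻¹ * P.X 6 s * P.f = P.X 2 s * P.X 4 (P.σ s) * P.X 5 s * P.X 6 s from
      Prod.ext (P.R.f6 s) (P.R'.f6 s)]
    exact mul_mem (mul_mem (mul_mem (m _ _ (by omega) (by omega)) (m _ _ (by omega) (by omega)))
      (m _ _ (by omega) (by omega))) (m _ _ (by omega) (by omega))

theorem p2_hf (hl : l ≠ 0) (t : F) : P.h l * P.f * (P.h l)⁻¹ * P.X 0 t ∈ P.Γ 0 :=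
  mul_mem ((P.sh_h hl).Γ (by norm_num) P.f_mem (by norm_num)) (P.X_mem_Γ 0 t)

/-- `a.1` is `x 0 t` or `h l f (h l)⁻¹ x 0 t` (`Rel.U0`); the corresponding pair `d` is in `Γ 0`
(`ΓX_le`, `f_mem`, `sh_h`, `Sh.Γ`), and `d⁻¹ a = 1` by `Γ_iff`. -/
theorem Γ0 (ha : a ∈ P.Γ 0) : (∃ t, a = P.X 0 t) ∨
    ∃ l, l ≠ 0 ∧ ∃ t, a = P.h l * P.f * (P.h l)⁻¹ * P.X 0 t := by
  rcases P.R.U0 P.oc (P.Γ_iff ha).1 with ⟨t, e⟩ | ⟨l, hl, t, e⟩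
  · exact Or.inl ⟨t, P.p2_ext ha (P.X_mem_Γ 0 t) e⟩
  · exact Or.inr ⟨l, hl, t, P.p2_ext ha (P.p2_hf hl t) e⟩

/-- odd: `surj_U`; `0`: `Rel.U0`; even: `sh_ρ` -/
theorem ex1 (i : ℤ) {x : G} (hx : x ∈ M.U i) : ∃ y, (x, y) ∈ P.Γ i := by
  rcases Int.emod_two_eq_zero_or_one i with hi | hi
  swap
  · obtain ⟨t, rfl⟩ := P.D.surj_U i hi x hx
    exact ⟨_, P.X_mem_Γ i t⟩
  have hS := P.sh_ρ (i / 2)
  generalize P.ρ ^ (i / 2) = g at hS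
  obtain ⟨d, hd, e⟩ : ∃ d ∈ P.Γ 0, g.1⁻¹ * x * g.1⁻¹⁻¹ = d.1 := by
    rcases P.R.U0 P.oc (hS.1.inv.conj_U hx (by omega)) with ⟨t, e⟩ | ⟨l, hl, t, e⟩
    exacts [⟨_, P.X_mem_Γ 0 t, e⟩, ⟨_, P.p2_hf hl t, e⟩]
  refine ⟨(g * d * g⁻¹).2, ?_⟩
  convert hS.Γ (by omega) hd (by omega : i = 0 + 2 * (i / 2)) using 1
  exact Prod.ext (by simp [← e, mul_assoc]) rfl

theorem ex2 (i : ℤ) {y : G'} (hy : y ∈ M'.U i) : ∃ x, (x, y) ∈ P.Γ i := by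
  rcases Int.emod_two_eq_zero_or_one i with hi | hi
  swap
  · obtain ⟨t, rfl⟩ := P.D'.surj_U i hi y hy
    exact ⟨_, P.X_mem_Γ i t⟩
  have hS := P.sh_ρ (i / 2)
  generalize P.ρ ^ (i / 2) = g at hS
  obtain ⟨d, hd, e⟩ : ∃ d ∈ P.Γ 0, g.2⁻¹ * y * g.2⁻¹⁻¹ = d.2 := by
    rcases P.R'.U0 P.oc' (hS.2.1.inv.conj_U hy (by omega)) with ⟨t, e⟩ | ⟨l, hl, t, e⟩
    exacts [⟨_, P.X_mem_Γ 0 t, e⟩, ⟨_, P.p2_hf hl t, e⟩]
  refine ⟨(g * d * g⁻¹).1, ?_⟩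
  convert hS.Γ (by omega) hd (by omega : i = 0 + 2 * (i / 2)) using 1
  exact Prod.ext rfl (by simp [← e, mul_assoc])

/-- `i = 0`: `c = ρ⁴ m` commutes with `a` (`c_cent` in both factors), `Fl.nor` for `fl_ρm 4` moves
`Θ 4` to `Θ 12 = Θ (-4)` (`Θ_per`).  General `i`: `sh_ρ`. -/
theorem nor' (hi : i % 2 = 0) (ha : a ∈ P.Γ i) :
    a ∈ Subgroup.normalizer (P.Θ (i - 4) : Set (G × G')) := by
  have k0 : ∀ a ∈ P.Γ 0, a ∈ Subgroup.normalizer (P.Θ (-4) : Set (G × G')) := fun a ha => by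
    obtain ⟨h1, h2, h3⟩ := (P.mem_Γ_even (by norm_num)).1 ha
    have h4 := (P.fl_ρm 4).nor h3 (j := 12) (by norm_num)
    have h5 : Commute (P.ρ ^ (4 : ℤ) * P.m) a :=
      Prod.ext (P.R.c_cent P.oc h1).1 (P.R'.c_cent P.oc' h2).1
    rwa [h5.eq, mul_inv_cancel_right, P.Θ_per (i := -4) (by norm_num)] at h4
  have hS := P.sh_ρ (i / 2)
  generalize P.ρ ^ (i / 2) = g at hS
  have h := hS.nor (k0 _ (hS.inv.Γ (by omega) ha (by omega))) (j := i - 4) (by omega)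
  simpa [mul_assoc] using h

variable {P} in
/-- even `i`: `nor'`, `Fl.nor`, `Rf.conj_U`, `U_per` -/
theorem Fl.Γ (h : P.Fl g c) (hc : c % 2 = 0) (ha : a ∈ P.Γ i) (e : j = c + 8 - i) :
    g * a * g⁻¹ ∈ P.Γ j := by
  rcases Int.emod_two_eq_zero_or_one i with hi | hi
  swap
  · exact P.ΓX_le j (h.ΓX ((P.Γ_odd hi).le ha) e)
  have := P.p2_n
  have := P.p2_n'
  obtain ⟨h1, h2, -⟩ := P.Γ_iff ha
  refine (P.mem_Γ_even (by omega)).2 ⟨?_, ?_, h.nor (P.nor' hi ha) (by omega)⟩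
  · rw [U_per (i := c - M.n - i) (by omega)]
    exact h.1.conj_U h1 rfl
  · rw [U_per (i := c - M'.n - i) (by omega)]
    exact h.2.1.conj_U h2 rfl

variable {P} in
theorem Fl.J (h : P.Fl g c) (hc : c % 2 = 0) (ha : a ∈ P.J i j) {i' j' : ℤ} (e : i' = c + 8 - j)
    (e' : j' = c + 8 - i) : g * a * g⁻¹ ∈ P.J i' j' := by
  exact P.J_le (H := (P.J i' j').comap (MulAut.conj g).toMonoidHom)
    (fun l h1 h2 b hb => P.Γ_le_J (l := c + 8 - l) (by omega) (by omega) (h.Γ hc hb rfl)) ha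

/-- `a` normalises `Θ (k+4) ∋ X r t`; `comm`, `Θ_lift`, `Θ_J` -/
theorem cm_ΘR (hk : k % 2 = 0) (ha : a ∈ P.Γ k) (h1 : k + 2 ≤ r) (h2 : r ≤ k + 6) (t : F) :
    ⁅a, P.X r t⁆ ∈ P.Θ (k + 4) ∧ ⁅a, P.X r t⁆ ∈ P.J (k + 1) (r - 1) := by
  have := P.p2_n
  obtain ⟨h3, -, h4⟩ := (P.mem_Γ_even hk).1 ha
  have h5 := (comm_mem_of_nor h4 (P.p2_XΘ (i := r) (by omega) (by omega) t)).1
  exact ⟨h5, P.Θ_J h5 (comm h3 (P.D.mem_U r t) (by omega) (by omega)) (by omega) (by omega)⟩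

/-- `nor'` -/
theorem cm_ΘL (hr : r % 2 = 0) (hb : b ∈ P.Γ r) (h1 : r - 6 ≤ k) (h2 : k ≤ r - 2) (t : F) :
    ⁅P.X k t, b⁆ ∈ P.Θ (r - 4) ∧ ⁅P.X k t, b⁆ ∈ P.J (k + 1) (r - 1) := by
  have := P.p2_n
  have h5 := (comm_mem_of_nor (P.nor' hr hb) (P.p2_XΘ (i := k) (by omega) (by omega) t)).2
  exact ⟨h5, P.Θ_J h5 (comm (P.D.mem_U k t) (P.Γ_iff hb).1 (by omega) (by omega)) (by omega)
    (by omega)⟩

/-- `a ∈ Γ k`, `b ∈ Γ (k+2)`, `c = ⁅a,b⁆ ∈ U (k+1) × U' (k+1)` (`comm`, `UU_self`), `c.1 = x (k+1) t`,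
`d = X (k+1) t`.  `a, b, d` normalise `Θ (k+4)`: `b` commutes with `X (k+2), X (k+4), X (k+6)` (`X_comm`),
`X (k+3)` (`commute_succ`), and `⁅b, X (k+5) s⁆ ∈ Θ (k+6)` has first component in `UU (k+3) (k+4)`, so
it is in `ΓX (k+4)` (`cm_ΘR`, `Θ_lift`); `d` by `XX_comm`, `r16`.  So `d⁻¹ c = (1, ε)` with
`ε ∈ U' (k+1)` commuting with `x' (k+6) 1` (`graph_cent`), `ε = 1` (`eq_one_of_V`). -/
theorem cm2 (hk : k % 2 = 0) : P.Cm k (k + 2) := by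
  intro a ha b hb
  have := P.p2_n
  have := P.p2_n'
  obtain ⟨a1, a2, a3⟩ := (P.mem_Γ_even hk).1 ha
  obtain ⟨b1, b2, -⟩ := P.Γ_iff hb
  have c1 : ⁅a, b⁆.1 ∈ M.U (k + 1) :=
    UU_self (M := M) (k + 1) ▸ ob_UU (comm a1 b1 (by omega) (by omega)) le_rfl (by omega)
  have c2 : ⁅a, b⁆.2 ∈ M'.U (k + 1) :=
    UU_self (M := M') (k + 1) ▸ ob_UU (comm a2 b2 (by omega) (by omega)) le_rfl (by omega)
  obtain ⟨t, e⟩ := P.D.surj_U (k + 1) (by omega) _ c1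
  have b3 : b ∈ Subgroup.normalizer (P.Θ (k + 4) : Set (G × G')) := P.p2_nor fun j h1 h2 s => by
    rcases (by omega : j % 2 = 0 ∨ j = k + 2 + 1 ∨ j = k + 5) with h | h | rfl
    · exact p2_one (P.X_comm h s b1 b2 (by omega) (by omega)).symm
    · exact p2_one (Prod.ext (commute_succ b1 (P.D.mem_U j s) h) (commute_succ b2 (P.D'.mem_U j s) h))
    · exact (iSup₂_le fun l hl => P.ΓX_le_Θ (by omega) (by omega) : _ ≤ P.Θ (k + 4))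
        (P.Θ_lift (P.cm_ΘR (r := k + 5) (by omega) hb (by omega) (by omega) s).1
          (comm b1 (P.D.mem_U (k + 5) s) (by omega) (by omega)) (by omega) (by omega))
  have d3 : P.X (k + 1) t ∈ Subgroup.normalizer (P.Θ (k + 4) : Set (G × G')) :=
    P.p2_nor fun j h1 h2 s => by
      rcases (by omega : j ≤ k + 1 + 4 ∨ j = k + 1 + 5) with h | rfl
      · exact p2_one (P.XX_comm (by omega) h _ _)
      · rw [P.r16 (by omega)]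
        exact P.p2_XΘ (by omega) (by omega) _
  have c3 : ⁅a, b⁆ ∈ Subgroup.normalizer (P.Θ (k + 4) : Set (G × G')) :=
    mul_mem (mul_mem (mul_mem a3 b3) (inv_mem a3)) (inv_mem b3)
  have h := P.p2_one2 hk (mul_mem (inv_mem d3) c3) (inv_mul_eq_one.2 e)
    (mul_mem (inv_mem (P.D'.mem_U _ t)) c2) (Or.inr rfl)
  rw [show ⁅a, b⁆ = P.X (k + 1) t from Prod.ext e.symm (inv_mul_eq_one.1 h).symm]
  exact P.X_mem_J le_rfl (by omega) t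

/-- distance `1`: `commute_succ`; `2, 4` odd: `XX_comm`; `2` even: `cm2`; `4` even: `Rel.U04`;
`3, 5`: `cm_ΘR`, `cm_ΘL`; `6` odd: `r17`. -/
theorem cm_le (h1 : k < r) (h2 : r ≤ k + 5 ∨ (k % 2 = 1 ∧ r = k + 6)) : P.Cm k r := by
  intro a ha b hb
  obtain ⟨a1, a2, -⟩ := P.Γ_iff ha
  obtain ⟨b1, b2, -⟩ := P.Γ_iff hb
  by_cases h3 : r = k + 1
  · exact p2_one (Prod.ext (commute_succ a1 b1 h3) (commute_succ a2 b2 h3))
  rcases Int.emod_two_eq_zero_or_one k with hk | hk <;>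
    rcases Int.emod_two_eq_zero_or_one r with hr | hr
  · rcases (by omega : r = k + 2 ∨ r = k + 4) with rfl | rfl
    · exact P.cm2 hk a ha b hb
    · exact p2_one (Prod.ext (P.R.U04 P.oc hk a1 b1) (P.R'.U04 P.oc' hk a2 b2))
  · obtain ⟨t, rfl⟩ := (P.Γ_odd hr).le hb
    exact (P.cm_ΘR hk ha (by omega) (by omega) _).2
  · obtain ⟨t, rfl⟩ := (P.Γ_odd hk).le ha
    exact (P.cm_ΘL hr hb (by omega) (by omega) _).2
  · obtain ⟨s, rfl⟩ := P.mem_ΓX.1 ((P.Γ_odd hk).le ha)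
    obtain ⟨t, rfl⟩ := P.mem_ΓX.1 ((P.Γ_odd hr).le hb)
    rcases (by omega : r ≤ k + 4 ∨ r = k + 6) with h | rfl
    · exact p2_one (P.XX_comm (by omega) h _ _)
    · rw [P.r17 hk]
      exact mul_mem (P.X_mem_J (by omega) (by omega) _) (P.X_mem_J (by omega) (by omega) _)

theorem pf_of (h : ∀ k r, i ≤ k → k < r → r ≤ j → P.Cm k r) : PFam M M' i j P.Γ := by
  refine ⟨fun _ _ _ _ h => (P.Γ_iff h).1, fun _ _ _ _ h => (P.Γ_iff h).2.1,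
    fun _ _ _ _ h => (P.Γ_iff h).2.2, fun k r h1 h2 h3 x hx y hy => ?_⟩
  exact P.J_le (fun l a b => le_iSup₂_of_le (f := fun l (_ : k < l ∧ l < r) => P.Γ l) l
    ⟨by omega, by omega⟩ le_rfl) (h k r h1 h2 h3 x hx y hy)

theorem pf17 : PFam M M' 1 7 P.Γ := P.pf_of fun k r h1 h2 h3 => P.cm_le h2 (by omega)

/-- `restrict` -/
theorem J_res (hg : g ∈ P.J 1 7) (h : g.1 ∈ M.UU i j) (h1 : 1 ≤ i) (h2 : j ≤ 7) : g ∈ P.J i j := by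
  have := P.p2_n
  exact (iSup₂_le fun l hl => P.Γ_le_J hl.2.1 hl.2.2 : _ ≤ P.J i j)
    (P.pf17.restrict P.p2_nn (by omega) (by omega) (by omega) (by omega) hg h)

end OP

end MP

end Cfsg.Agent.BN2
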