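import Cfsg.Agent.BN2.OcP2

/-!
# Finite Moufang octagons (S1144): the commutators at distance `6, 7`; the isomorphism theorem
-/

set_option autoImplicit false
set_option linter.unusedSectionVars false
set_option linter.unusedVariables false

namespace Cfsg.Agent.BN2

open scoped commutatorElement

theorem p3_cj {H : Type*} [Group H] {N : Subgroup H} {a b : H} (h1 : ⁅a, b⁆ ∈ N) (h2 : b ∈ N) :
    a * b * a⁻¹ ∈ N := by
  simpa [commutatorElement_def] using mul_mem h1 h2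

theorem p3_cj' {H : Type*} [Group H] {N : Subgroup H} {a b : H} (h1 : ⁅b, a⁆ ∈ N) (h2 : b ∈ N) :
    a * b * a⁻¹ ∈ N := p3_cj (commutatorElement_inv b a ▸ inv_mem h1) h2

theorem p3_sq {H : Type*} [Group H] {a : H} (h : a * a = 1) (z : H) : a * ⁅a, z⁆ * a⁻¹ * ⁅a, z⁆ = 1 := by
  simp only [commutatorElement_def, inv_eq_of_mul_eq_one_left h, ← mul_assoc, h, one_mul]
  simp only [mul_assoc, h, inv_mul_cancel_left, mul_inv_cancel, mul_one]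

namespace MP

variable {G V : Type} [Group G] [MulAction G V] [Finite G] [Finite V] {M : MP G V}
  {G' V' : Type} [Group G'] [MulAction G' V'] [Finite G'] [Finite V'] {M' : MP G' V'}

namespace OP

variable {F : Type} [Field F] [Finite F] (P : OP M M' F) {i j k r c : ℤ} {a b g : G × G'} {l : F}

/-- `nor_iSup`, `cm_le` (pairs `(1, l)`, `2 ≤ l ≤ 7`) -/
theorem nor1 (t : F) : P.X 1 t ∈ Subgroup.normalizer (P.J 2 7 : Set (G × G')) :=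
  nor_iSup fun l hl b hb => p3_cj (P.J_mono (by omega) (by omega)
    (P.cm_le (k := 1) (r := l) (by omega) (by omega) _ (P.X_mem_Γ 1 t) b hb)) (P.Γ_le_J hl.1 hl.2 hb)

/-- `cm_le` (pairs `(l, 8)`, `3 ≤ l ≤ 7`), `cm_ΘR` for `(2, 8)` -/
theorem nor8 (u : F) : P.X 8 u ∈ Subgroup.normalizer (P.J 2 7 : Set (G × G')) :=
  nor_iSup fun l hl b hb => by
    refine p3_cj' (P.J_mono (i := l + 1) (j := 8 - 1) (by omega) (by omega) ?_) (P.Γ_le_J hl.1 hl.2 hb)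
    by_cases e : l = 2
    · exact (P.cm_ΘR (by omega) hb (by omega) (by omega) u).2
    · exact P.cm_le (by omega) (by omega) b hb _ (P.X_mem_Γ 8 u)

/-- `a = X 1 1`, `z = X 8 u`, `c = ⁅a,z⁆ ∈ UU 2 7 × UU' 2 7` (`comm`), `d = (c.1, y) ∈ J 2 7` (`PFam.lift`,
`ex1`), `ε = d⁻¹ c = (1, ε')` normalises the graph `J 2 7` (`pf17.mono`, `sup_iff`), so `ε'` centralises
`UU' 2 7` (`graph_cent`, `PFam.lift'`, `ex2`), `ε' = x' 4 s * x' 6 t` (`cent27`).  `a² = 1` gives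
`1 = a c a⁻¹ c = (a d a⁻¹) (a ε a⁻¹) d ε = (a d a⁻¹ d) (a ε a⁻¹ ε)` (`a' ε' a'⁻¹ = ε' x' 4 t` by `r16`,
`V_comm`, and `x' 4 t`... simply: `a ε a⁻¹` commutes with `d = a (a⁻¹ d a) a⁻¹`).  First components:
`a d a⁻¹ d ∈ J 2 7` has trivial first component, so it is `1`, and `a' ε' a'⁻¹ ε' = x' 4 t = 1`. -/
theorem c18a (u : F) : ∃ d ∈ P.J 2 7, ∃ s, ⁅P.X 1 1, P.X 8 u⁆ = d * (1, P.D'.x 4 s) := by
  have n := P.oc.n
  have n' := P.oc'.n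
  have gr : ∀ g ∈ P.J 2 7, g.1 ∈ M.UU 2 7 ∧ g.2 ∈ M'.UU 2 7 ∧ (g.1 = 1 ↔ g.2 = 1) := fun g hg =>
    (P.pf17.mono (by omega) le_rfl).sup_iff (by omega) (by omega) hg
  obtain ⟨y, hd⟩ := PFam.lift (Γ := P.Γ) (i := 2) (j := 7) (fun k _ _ x hx => P.ex1 k hx)
    (UU_mono (by omega) (by omega) (comm (P.D.mem_U 1 1) (P.D.mem_U 8 u) (by omega) (by omega)))
  replace hd : (⁅P.D.x 1 1, P.D.x 8 u⁆, y) ∈ P.J 2 7 := hd
  have h1 := P.nor1 1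
  have h2 : P.D'.x 1 1 * y * (P.D'.x 1 1)⁻¹ * y = 1 :=
    (gr _ (mul_mem ((Subgroup.mem_normalizer_iff.1 h1 _).1 hd) hd)).2.2.1 (p3_sq (P.D.x_sq 1 1) (P.D.x 8 u))
  have h3 : ∀ v ∈ M'.UU 2 7, Commute (y⁻¹ * ⁅P.D'.x 1 1, P.D'.x 8 u⁆) v := fun v hv => by
    obtain ⟨x, hx⟩ := PFam.lift' (Γ := P.Γ) (fun k _ _ x hx => P.ex2 k hx) hv
    have m := mul_mem (inv_mem (Subgroup.le_normalizer hd))
      (mul_mem (mul_mem (mul_mem h1 (P.nor8 u)) (inv_mem h1)) (inv_mem (P.nor8 u)))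
    exact graph_cent (fun g hg => (gr g hg).2.2.1) (inv_mul_cancel ⁅P.D.x 1 1, P.D.x 8 u⁆) m hx
  have h4 := (gr _ hd).2.1
  obtain ⟨s, t, e⟩ := P.R'.cent27 P.oc' (mul_mem (inv_mem h4)
    (UU_mono (by omega) (by omega) (comm (P.D'.mem_U 1 1) (P.D'.mem_U 8 u) (by omega) (by omega)))) h3
  have h5 := p3_sq (P.D'.x_sq 1 1) (P.D'.x 8 u)
  have h6 := h3 y h4
  rw [e] at h6
  replace e := inv_mul_eq_iff_eq_mul.1 e
  have h7 : P.D'.x 1 1 * P.D'.x 6 t * (P.D'.x 1 1)⁻¹ = P.D'.x 4 (1 * t) * P.D'.x 6 t :=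
    eq_mul_of_mul_inv_eq (P.D'.r16 P.oc' (i := 1) rfl 1 t)
  rw [e, ← conj_mul, eq_inv_of_mul_eq_one_left h2, ← h6.eq,
    ← mul_assoc, mul_assoc y⁻¹, ← inv_inv y, inv_inv y⁻¹, conj_eq_one_iff, ← conj_mul, h7,
    ← (P.oc'.V_comm (i := 4) rfl (P.D'.mem_V 4 rfl s) (P.D'.mem_U 1 1) (by omega) (by omega)).eq,
    mul_inv_cancel_right, mul_assoc, mul_assoc,
    P.D'.Wc' P.oc' (i := 6) (j := 4) (by omega) (by omega) (by omega) (by omega), P.D'.x_sq, mul_one,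
    ← P.D'.x_add, ← P.D'.x_add, add_comm, add_assoc, P.D'.add_self, add_zero, one_mul] at h5
  rw [P.D'.x_inj _ _ h5, P.D'.x_zero, mul_one] at e
  exact ⟨_, hd, s, Prod.ext (mul_one _).symm e⟩

/-- The family `Γ* 2 = ΓX 2`, `Γ* 8 = ΓX 8`, `Γ* l = Γ l` otherwise, is a `PFam` on `2..8` (`cm_le`,
`ΓX_le`, `r28`), so `K = ΓX 2 ⊔ J 3 7 ⊔ ΓX 8` is a graph; `w` normalises it (`fl_w`, `Fl.ΓX`, `Fl.J`). -/
theorem K_iff (hg : g ∈ P.ΓX 2 ⊔ P.J 3 7 ⊔ P.ΓX 8) : (g.1 = 1 ↔ g.2 = 1) ∧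
    P.w * g * P.w⁻¹ ∈ P.ΓX 2 ⊔ P.J 3 7 ⊔ P.ΓX 8 := by
  have n := P.oc.n
  have n' := P.oc'.n
  let Δ : ℤ → Subgroup (G × G') := fun l => if l = 2 ∨ l = 8 then P.ΓX l else P.Γ l
  have h1 : ∀ l, Δ l ≤ P.Γ l := fun l => by
    simp only [Δ]; split_ifs
    exacts [P.ΓX_le l, le_rfl]
  have h2 : ∀ l, 3 ≤ l → l ≤ 7 → P.Γ l ≤ Δ l := fun l a b => (if_neg (by omega)).ge
  have pf : PFam M M' 2 8 Δ := ⟨fun k _ _ g hg => (P.Γ_iff (h1 k hg)).1, fun k _ _ g hg => (P.Γ_iff (h1 k hg)).2.1,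
    fun k _ _ g hg => (P.Γ_iff (h1 k hg)).2.2, fun k r a b c x hx y hy => by
      refine P.J_le (i := k + 1) (j := r - 1) (fun l d e => (h2 l (by omega) (by omega)).trans
        (le_iSup₂_of_le (f := fun l (_ : k < l ∧ l < r) => Δ l) l ⟨by omega, by omega⟩ le_rfl)) ?_
      by_cases e : k = 2 ∧ r = 8
      · obtain ⟨t, rfl⟩ : y ∈ P.ΓX r := (show Δ r ≤ _ from (if_pos (.inr e.2)).le) hy
        exact (P.cm_ΘR (by omega) (h1 k hx) (by omega) (by omega) _).2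
      · exact P.cm_le b (by omega) x (h1 k hx) y (h1 r hy)⟩
  have h3 : ∀ l, 2 ≤ l → l ≤ 8 → Δ l ≤ ⨆ (l : ℤ) (_ : 2 ≤ l ∧ l ≤ 8), Δ l := fun l a b =>
    le_iSup₂_of_le (f := fun l (_ : 2 ≤ l ∧ l ≤ 8) => Δ l) l ⟨a, b⟩ le_rfl
  refine ⟨(pf.sup_iff (by omega) (by omega) (sup_le (sup_le ((if_pos (.inl rfl)).ge.trans (h3 2 le_rfl (by omega)))
    (P.J_le fun l a b => (h2 l a b).trans (h3 l (by omega) (by omega))))
    ((if_pos (.inr rfl)).ge.trans (h3 8 (by omega) le_rfl)) hg)).2.2, ?_⟩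
  exact (sup_le (sup_le (fun x hx => Subgroup.mem_sup_right (P.fl_w.ΓX hx rfl))
    fun x hx => Subgroup.mem_sup_left (Subgroup.mem_sup_right (P.fl_w.J rfl hx rfl rfl)))
    fun x hx => Subgroup.mem_sup_left (Subgroup.mem_sup_left (P.fl_w.ΓX hx rfl)) :
    _ ≤ (P.ΓX 2 ⊔ P.J 3 7 ⊔ P.ΓX 8).comap (MulAut.conj P.w).toMonoidHom) hg

/-- With `c = d ε`, `ε = (1, x' 4 s)` from `c18a`: `(x 2 u)⁻¹ c.1 ∈ UU 3 7` (`comm_first`, `i = 1`,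
`l = r = x 9 1`, `w_eq'`, `w_x`), so `(X 2 u)⁻¹ d ∈ J 3 7` (`J_res`), `d z ∈ K`.  `Y = X 9 1` commutes with
`z`, so `w = a Y a⁻¹` (`w_eq`) commutes with `a z a⁻¹ = c z = (d z) ε`.  Then
`(d z)⁻¹ w (d z) w⁻¹ = ε (w ε w⁻¹)⁻¹ ∈ K` has first component `1`, so `x' 4 s = w' x' 4 s w'⁻¹ = x' 6 s`
and `s = 0` (`U_inf_UU`). -/
theorem c18b (u : F) : ⁅P.X 1 1, P.X 8 u⁆ ∈ P.J 2 7 := by
  have n := P.oc.n
  have n' := P.oc'.n
  obtain ⟨d, hd, s, e⟩ := P.c18a u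
  have m9 : P.D.x 9 1 ∈ M.U (1 + M.n) := by rw [n]; exact P.D.mem_U 9 1
  have h1 := comm_first (P.D.mem_U 1 1) m9 m9 (P.D.w_eq' ▸ P.fl_w.1) (u := P.D.x 8 u)
    (by rw [n]; exact P.D.mem_U 8 u)
  rw [← P.D.w_eq', P.D.w_x, show ⁅P.D.x 1 1, P.D.x 8 u⁆ = d.1 from (congrArg Prod.fst e).trans (mul_one _)] at h1
  have h2 := P.J_res (i := 3) (j := 7) (mul_mem (inv_mem (P.X_mem_J (k := 2) (by omega) (by omega) u))
    (P.J_mono (by omega) le_rfl hd)) (UU_mono (by omega) (by omega) h1) (by omega) le_rfl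
  have h3 : d * P.X 8 u ∈ P.ΓX 2 ⊔ P.J 3 7 ⊔ P.ΓX 8 := Subgroup.mul_mem_sup
    (mul_inv_cancel_left (P.X 2 u) d ▸ Subgroup.mul_mem_sup (P.X_mem 2 u) h2) (P.X_mem 8 u)
  have h4 := (P.XX_comm (i := 9) (j := 8) (by omega) (by omega) 1 u).map (MulAut.conj (P.X 1 1))
  have h5 : ((1, P.D'.x 4 s) : G × G') * P.X 8 u = P.X 8 u * (1, P.D'.x 4 s) := Prod.ext (Commute.one_left _)
    (P.oc'.V_comm (i := 4) rfl (P.D'.mem_V 4 rfl s) (P.D'.mem_U 8 u) (by omega) (by omega))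
  rw [MulAut.conj_apply, MulAut.conj_apply, P.w_eq, eq_mul_of_mul_inv_eq e, mul_assoc, h5, ← mul_assoc] at h4
  have h6 : (d * P.X 8 u)⁻¹ * (P.w * (d * P.X 8 u) * P.w⁻¹) =
      (1, P.D'.x 4 s) * (P.w * (1, P.D'.x 4 s) * P.w⁻¹)⁻¹ := by
    rw [inv_mul_eq_iff_eq_mul, ← mul_assoc (d * _), eq_mul_inv_iff_mul_eq, conj_mul, h4.eq, mul_inv_cancel_right]
  have h7 := (P.K_iff (h6 ▸ mul_mem (inv_mem h3) (P.K_iff h3).2)).1.1 (by simp)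
  replace h7 : P.D'.x 4 s = P.D'.x (10 - 4) s := (mul_inv_eq_one.1 h7).trans (P.D'.w_x 4 s)
  rw [e, U_inf_UU (j := 6) (P.D'.mem_U 4 s) (h7 ▸ P.D'.mem_UU (by omega) (by omega) s) (by omega)]
  exact mul_mem hd (one_mem _)

/-- `t = 0` or `t = l²` (finite field of characteristic two: Frobenius is onto); conjugate by `h l`
(`Rel.act`, `ocχ σ 1 l = l²`, `ocχ_ne`, `sh_h`, `Sh.J`). -/
theorem c18 (t u : F) : ⁅P.X 1 t, P.X 8 u⁆ ∈ P.J 2 7 := by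
  by_cases h0 : t = 0
  · rw [h0, P.X_zero, commutatorElement_one_left]; exact one_mem _
  have su := Finite.injective_iff_surjective.1 P.σ.injective
  obtain ⟨l, rfl⟩ := (su.comp su) t
  have hl : l ≠ 0 := fun e => h0 (by simp [e])
  have hX : ∀ i t, P.h l * P.X i t * (P.h l)⁻¹ = P.X i (ocχ P.σ i l * t) := fun i t =>
    Prod.ext (P.R.act l hl i t) (P.R'.act l hl i t)
  have := (P.sh_h hl).J rfl (P.c18b ((ocχ P.σ 8 l)⁻¹ * u)) (i' := 2) (j' := 7) rfl rfl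
  rwa [conjugate_commutatorElement, hX, hX, mul_inv_cancel_left₀ (ocχ_ne _ _ hl), mul_one,
    show ocχ P.σ 1 l = l ^ (2 : ℤ) * P.σ l ^ (0 : ℤ) from rfl, zpow_zero, mul_one, zpow_two, ← sq,
    ← P.R.sq] at this

/-- conjugate `c18` by `m` (`m_x`, `fl_m`, `Fl.J`) -/
theorem c07 (t u : F) : ⁅P.X 0 t, P.X 7 u⁆ ∈ P.J 1 6 := by
  have hX : ∀ i t, P.m * P.X i t * P.m⁻¹ = P.X (8 - i) t := fun i t => Prod.ext (P.D.m_x i t) (P.D'.m_x i t)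
  have := P.fl_m.J rfl (inv_mem (P.c18 u t)) (i' := 1) (j' := 6) rfl rfl
  rwa [commutatorElement_inv, conjugate_commutatorElement, hX, hX] at this

/-- `nor_iSup`; `l ≤ 5`: `cm_le`; `l = 6`: `cm_ΘL`; `l = 7`: `c07` -/
theorem nor0 (t : F) : P.X 0 t ∈ Subgroup.normalizer (P.J 1 7 : Set (G × G')) :=
  nor_iSup fun l hl b hb => by
    refine p3_cj (P.J_mono (i := 0 + 1) (j := l - 1) (by omega) (by omega) ?_) (P.Γ_le_J hl.1 hl.2 hb)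
    obtain e | rfl | rfl : l ≤ 5 ∨ l = 6 ∨ l = 7 := by omega
    · exact P.cm_le (by omega) (by omega) _ (P.X_mem_Γ 0 t) b hb
    · exact (P.cm_ΘL rfl hb (by omega) (by omega) t).2
    · obtain ⟨u, rfl⟩ : b ∈ P.ΓX 7 := P.Γ_odd (i := 7) rfl ▸ hb
      exact P.c07 t _

/-- Show that `f⁻¹` normalises (`nor_iSup`).  `l ≤ 5`: `cm_le` (`f⁻¹ ∈ Γ 0`).  Let `e = X 8 1`, so
`f⁻¹ m = e f⁻¹` (`m_eq`).  `l = 7`: `X 7 s = m X 1 s m⁻¹`, `f⁻¹ X 7 s f = e (f⁻¹ X 1 s f) e⁻¹ = e X 1 s e⁻¹`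
(`commute_succ`) `= ⁅e, X 1 s⁆ X 1 s ∈ J 1 7` (`c18`).  `l = 6`: `b = m u m⁻¹`, `u ∈ Γ 2` (`Fl.Γ`, `Fl.inv`),
`f⁻¹ b f = e (f⁻¹ u f) e⁻¹ = (e c e⁻¹) (e u e⁻¹)` with `c = ⁅f⁻¹,u⁆ ∈ J 1 1 = ΓX 1` (`cm2`), and
`⁅u,e⁆ ∈ J 3 7` (`cm_ΘR`). -/
theorem norf : P.f ∈ Subgroup.normalizer (P.J 1 7 : Set (G × G')) := by
  have hf := inv_mem P.f_mem
  have h1 : P.J 1 2 ≤ (P.J 1 7).comap (MulAut.conj (P.X 8 1)).toMonoidHom := P.J_le fun l a b x hx => by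
    obtain rfl | rfl : l = 1 ∨ l = 2 := by omega
    · obtain ⟨u, rfl⟩ : x ∈ P.ΓX 1 := P.Γ_odd (i := 1) rfl ▸ hx
      exact p3_cj' (P.J_mono (by omega) le_rfl (P.c18 _ 1)) (P.Γ_le_J le_rfl (by omega) hx)
    · exact P.J_mono (by omega) le_rfl
        ((Subgroup.mem_normalizer_iff.1 (P.nor8 1) x).1 (P.Γ_le_J le_rfl (by omega) hx))
  refine inv_mem_iff.1 (nor_iSup fun l hl b hb => ?_)
  by_cases e : l ≤ 5
  · exact p3_cj (P.J_mono (by omega) (by omega) (P.cm_le (k := 0) (r := l) (by omega) (by omega) _ hf b hb))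
      (P.Γ_le_J hl.1 hl.2 hb)
  have h2 := P.fl_m.inv.Γ rfl hb rfl
  have h3 := h1 (p3_cj (P.J_mono (by omega) (by omega) (P.cm_le (by omega) (by omega) _ hf _ h2))
    (P.Γ_le_J (by omega) (by omega) h2))
  rwa [Subgroup.mem_comap, show (MulAut.conj (P.X 8 1)).toMonoidHom (P.f⁻¹ * (P.m⁻¹ * b * P.m⁻¹⁻¹) * P.f⁻¹⁻¹) =
    P.f⁻¹ * b * P.f⁻¹⁻¹ by rw [P.m_eq]; simp [mul_assoc]] at h3

/-- `Γ0`, `nor0`, `norf`, `sh_h`, `Sh.J` -/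
theorem norΓ (ha : a ∈ P.Γ 0) : a ∈ Subgroup.normalizer (P.J 1 7 : Set (G × G')) := by
  obtain ⟨t, rfl⟩ | ⟨l, hl, t, rfl⟩ := P.Γ0 ha
  · exact P.nor0 t
  have : P.h l ∈ Subgroup.normalizer (P.J 1 7 : Set (G × G')) :=
    Subgroup.mem_normalizer_fintype fun b hb => (P.sh_h hl).J rfl hb rfl rfl
  exact mul_mem (mul_mem (mul_mem this P.norf) (inv_mem this)) (P.nor0 t)

/-- `pf_of`; pairs `(0, r)`: `norΓ`, `comm_mem_of_nor`, `comm`, `J_res`; others: `cm_le` -/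
theorem pf07 : PFam M M' 0 7 P.Γ :=
  P.pf_of fun k r h0 h1 h2 => by
    have n := P.oc.n
    obtain rfl | e : k = 0 ∨ 1 ≤ k := by omega
    · exact fun a ha b hb => P.J_res (comm_mem_of_nor (P.norΓ ha) (P.Γ_le_J h1 h2 hb)).1
        (comm (P.Γ_iff ha).1 (P.Γ_iff hb).1 h1 (by omega)) le_rfl (by omega)
    · exact P.cm_le h1 (by omega)

/-- `Good.iso` with `c = 0`, `ex1`, `ex2` -/
theorem iso (P : OP M M' F) (h : M.Good) (h' : M'.Good) : Nonempty (G ≃* G') := by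
  have n := P.oc.n
  have n' := P.oc'.n
  exact h.iso h' (by omega) (by omega) (c := 0) (P.pf07.mono le_rfl (by omega)) (fun k _ _ x hx => P.ex1 k hx)
    fun k _ _ x hx => P.ex2 k hx

end OP

end MP

end Cfsg.Agent.BN2
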