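import Cfsg.Agent.BN2.Typ
import Cfsg.Agent.BN2.SL2Q
import Cfsg.Agent.BNP.DBond
import Cfsg.Agent.BNP.Quad

/-!
# Commutator relations of a finite Moufang quadrangle (S1144)

Model: `exists_quadSys` in `BNP/Quad` (copy its bookkeeping; `Qd.cm_mul_left` etc.).
-/

set_option autoImplicit false
set_option linter.unusedSectionVars false
set_option linter.unusedVariables false

namespace Cfsg.Agent.BN2

open scoped commutatorElement
open Cfsg.Agent.BNP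

/-- Dedekind (`linearIndependent_monoidHom`): if `d τ = c σ + id` with `c ≠ 0` then `σ = id`. -/
theorem sig_id0 {F : Type*} [Field F] {c d : F} (hc : c ≠ 0) (σ τ : F ≃+* F)
    (h : ∀ l, d * τ l = c * σ l + l) (l : F) : σ l = l := by
  have e1 := h 1
  have e2 := h l
  have e3 := h (l * l)
  rw [map_one, map_one] at e1
  rw [map_mul, map_mul] at e3
  have : c * (σ l - l) ^ 2 = 0 := by
    linear_combination (d * τ l + (c * σ l + l)) * e2 - d * e3 - (c * (σ l * σ l) + l * l) * e1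
  exact sub_eq_zero.1 (pow_eq_zero_iff two_ne_zero |>.1 ((mul_eq_zero.1 this).resolve_left hc))

theorem sig_ded4 {F : Type*} [Field F] {a b e d : F} (σ τ₁ τ : F →* F) (ha : a ≠ 0) (hb : b ≠ 0)
    (hσ : σ ≠ MonoidHom.id F) (h : ∀ l, a * σ l + b * l + e * τ₁ l + d * τ l = 0) :
    (τ₁ = σ ∧ a + e = 0) ∨ (τ₁ = MonoidHom.id F ∧ b + e = 0) := by
  classical
  have s := linearIndependent_iff.1 (linearIndependent_monoidHom F F)
    (Finsupp.single σ a + Finsupp.single (MonoidHom.id F) b + Finsupp.single τ₁ e +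
      Finsupp.single τ d) (by
        simp only [map_add, Finsupp.linearCombination_single]
        funext l
        simpa using h l)
  have s1 := DFunLike.congr_fun s σ
  have s2 := DFunLike.congr_fun s (MonoidHom.id F)
  simp only [Finsupp.add_apply, Finsupp.single_apply, if_neg hσ, if_neg hσ.symm, if_true,
    Finsupp.coe_zero, Pi.zero_apply, add_zero, zero_add] at s1 s2
  by_cases h1 : τ₁ = σ
  · have h2 : τ₁ ≠ MonoidHom.id F := h1 ▸ hσ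
    have h3 : τ = MonoidHom.id F := by
      by_contra k
      rw [if_neg h2, if_neg k, add_zero, add_zero] at s2
      exact hb s2
    rw [if_pos h1, if_neg (h3 ▸ hσ.symm), add_zero] at s1
    exact Or.inl ⟨h1, s1⟩
  · have h3 : τ = σ := by
      by_contra k
      rw [if_neg h1, if_neg k, add_zero, add_zero] at s1
      exact ha s1
    rw [if_neg (h3 ▸ hσ : τ ≠ MonoidHom.id F), add_zero] at s2
    by_cases h2 : τ₁ = MonoidHom.id F
    · rw [if_pos h2] at s2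
      exact Or.inr ⟨h2, s2⟩
    · rw [if_neg h2, add_zero] at s2
      exact absurd s2 hb

/-- Suppose `σ ≠ id`.  `t = 1` gives `B l = c σ l + l - d₁ τ₁ l`; so for `t ≠ 0`,
`c (1 - σ t) σ + (t² - t) id + d₁ τ₁(t) τ₁ - d_t τ_t = 0`.  For `t ∉ {0,1}` the first two
coefficients are nonzero, so by Dedekind `{τ₁, τ_t} = {σ, id}`; if `τ₁ = σ` then
`σ(t) (c - d₁) = c`, if `τ₁ = id` then `t = 1 - d₁`.  So there is at most one `t ∉ {0,1}`; every element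
is `0`, `1` or the one other element, and `σ` (injective, fixing `0, 1`) is the identity. -/
theorem sig_id {F : Type*} [Field F] {c : F} (hc : c ≠ 0) (σ : F ≃+* F) (B : F → F)
    (h : ∀ t, t ≠ 0 → ∃ (d : F) (τ : F ≃+* F), d ≠ 0 ∧
      ∀ l, d * τ l = c * σ l + t ^ 2 * l - B (t * l)) (l : F) : σ l = l := by
  by_contra hl
  have hσ : (σ : F →* F) ≠ MonoidHom.id F := fun e => hl (DFunLike.congr_fun e l)
  obtain ⟨d₁, τ₁, -, h1⟩ := h 1 one_ne_zero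
  have key : ∀ t, t ≠ 0 → t ≠ 1 → ((τ₁ : F →* F) = σ ∧ c * (1 - σ t) + d₁ * τ₁ t = 0) ∨
      ((τ₁ : F →* F) = MonoidHom.id F ∧ (t ^ 2 - t) + d₁ * τ₁ t = 0) := fun t t0 t1 => by
    obtain ⟨d, τ, -, h2⟩ := h t t0
    refine sig_ded4 (d := -d) (σ : F →* F) τ₁ τ (mul_ne_zero hc (sub_ne_zero.2 fun e => t1
      (σ.injective (e.symm.trans (map_one σ).symm)))) (fun e => t1 (mul_left_cancel₀ t0
        (by linear_combination e))) hσ fun l => ?_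
    have e1 := h1 (t * l)
    have e2 := h2 l
    rw [map_mul, map_mul, one_mul] at e1
    simp only [MonoidHom.coe_coe]
    linear_combination e1 - e2
  have l0 : l ≠ 0 := fun e => hl (by rw [e, map_zero])
  have l1 : l ≠ 1 := fun e => hl (by rw [e, map_one])
  have s0 : σ l ≠ 0 := (map_ne_zero σ).2 l0
  have s1 : σ l ≠ 1 := fun e => l1 (σ.injective (e.trans (map_one σ).symm))
  rcases key l l0 l1 with ⟨a, e⟩ | ⟨a, e⟩ <;> rcases key (σ l) s0 s1 with ⟨a', e'⟩ | ⟨a', e'⟩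
  · have k : ∀ t, τ₁ t = σ t := fun t => DFunLike.congr_fun a t
    rw [k] at e e'
    have : c * (σ (σ l) - σ l) = 0 := by linear_combination σ (σ l) * e - σ l * e'
    exact hl (σ.injective (sub_eq_zero.1 ((mul_eq_zero.1 this).resolve_left hc)))
  · exact hσ (a.symm.trans a')
  · exact hσ (a'.symm.trans a)
  · have k : ∀ t, τ₁ t = t := fun t => DFunLike.congr_fun a t
    rw [k] at e e'
    have : l * σ l * (σ l - l) = 0 := by linear_combination l * e' - σ l * e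
    exact hl (sub_eq_zero.1 ((mul_eq_zero.1 this).resolve_left (mul_ne_zero l0 s0)))

namespace MP

variable {G V : Type} [Group G] [MulAction G V] [Finite G] [Finite V] {M : MP G V}

variable (M) in
/-- The commutator relations (as `BNP.QuadSys`). -/
structure QD (F : Type) [Field F] where
  D : DB F (M.U 3)
  x1 : F → G
  x2 : M.U 3 → G
  x3 : F → G
  x1_add : ∀ l k, x1 (l + k) = x1 l * x1 k
  x2_mul : ∀ u v, x2 (u * v) = x2 u * x2 v
  x3_add : ∀ l k, x3 (l + k) = x3 l * x3 k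
  mem1 : ∀ l, x1 l ∈ M.U 0
  surj1 : ∀ g ∈ M.U 0, ∃ l, x1 l = g
  inj1 : ∀ l, x1 l = 1 → l = 0
  mem2 : ∀ v, x2 v ∈ M.U 1
  surj2 : ∀ g ∈ M.U 1, ∃ v, x2 v = g
  inj2 : ∀ v, x2 v = 1 → v = 1
  mem3 : ∀ l, x3 l ∈ M.U 2
  surj3 : ∀ g ∈ M.U 2, ∃ l, x3 l = g
  inj3 : ∀ l, x3 l = 1 → l = 0
  r14 : ∀ l v, ⁅x1 l, v.1⁆ = x2 (D.act v l) * x3 (D.a v * l)
  r24 : ∀ u v, ⁅x2 u, v.1⁆ = x3 (D.f u v)
  r13 : ∀ l k, ⁅x1 l, x3 k⁆ = x2 (D.T l k)

variable (M) in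
/-- The data before linearity is known.  `x1 = E.x`, `x2 v = w(1) v w(1)⁻¹`, `act v l = h(l)⁻¹ v h(l)`
(`act v 0 = 1`), `x3 l` = the `U 2`-component of `⁅x1 l, v₀⁆`. -/
structure QP {F : Type} [Field F] (E : M.S2 0 F) (v₀ : M.U 3) where
  x2 : M.U 3 → G
  x3 : F → G
  act : M.U 3 → F → M.U 3
  p : M.U 3 → F → F
  f : M.U 3 → M.U 3 → F
  T : F → F → M.U 3
  x2_eq : ∀ v, x2 v = E.w 1 * v * (E.w 1)⁻¹
  act_eq : ∀ v l, l ≠ 0 → (act v l : G) = (E.h l)⁻¹ * v * E.h l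
  act_zero : ∀ v, act v 0 = 1
  x3_add : ∀ l k, x3 (l + k) = x3 l * x3 k
  mem3 : ∀ l, x3 l ∈ M.U 2
  surj3 : ∀ g ∈ M.U 2, ∃ l, x3 l = g
  inj3 : ∀ l, x3 l = 1 → l = 0
  r14 : ∀ l v, ⁅E.x l, v.1⁆ = x2 (act v l) * x3 (p v l)
  r24 : ∀ u v, ⁅x2 u, v.1⁆ = x3 (f u v)
  r13 : ∀ l k, ⁅E.x l, x3 k⁆ = x2 (T l k)
  p0 : ∀ l, p v₀ l = l
  semi : ∀ v, v ≠ 1 → ∃ (c : F) (σ : F ≃+* F), c ≠ 0 ∧ ∀ l, p v l = c * σ l

theorem qp_rf (hn : M.n = 4) {F : Type} [Field F] [Finite F] (E : M.S2 0 F) {t : F} (ht : t ≠ 0) :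
    M.Rf 8 (E.w t) := (E.rf ht).per (by omega)

theorem qp_hw {F : Type} [Field F] [Finite F] (E : M.S2 0 F) {t : F} (ht : t ≠ 0) :
    E.h t * E.w 1 = E.w 1 * (E.h t)⁻¹ := by
  have := E.w_h one_ne_zero (inv_ne_zero ht)
  rw [E.h_inv ht, inv_inv] at this
  exact (mul_inv_eq_iff_eq_mul.1 this).symm

theorem qp_U2 {g : G} {i j k : ℤ} (h : g ∈ M.UU i j) (h1 : i = k) (h2 : j = k) : g ∈ M.U k := by
  rwa [h1, h2, UU_self] at h

theorem qp_uniq (hn : M.n = 4) {a a' b b' : G} (ha : a ∈ M.U 1) (ha' : a' ∈ M.U 1) (hb : b ∈ M.U 2)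
    (hb' : b' ∈ M.U 2) (e : a * b = a' * b') : a = a' ∧ b = b' :=
  uniq (j := 2) ha ha' (U_le_UU (by omega) le_rfl hb) (U_le_UU (by omega) le_rfl hb') (by omega) e

theorem qp_last (hn : M.n = 4) {v : G} (hv : v ∈ M.U 3) (h : v ≠ 1) : ∃ m, M.Rf 6 m ∧
    ∀ u ∈ M.U 0, ∃ a ∈ M.U 1, ⁅u, v⁆ = a * (m * u⁻¹ * m⁻¹) := by
  obtain ⟨l, hl, r, hr, hm⟩ := exists_mu' (M := M) (i := -1) (b := v)
    (by rwa [show (-1 : ℤ) + M.n = 3 by omega]) h
  have hm' : M.Rf 6 (l * v * r) := hm.per (by omega)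
  refine ⟨_, hm', fun u hu => ?_⟩
  have k := qp_U2 (k := 1) (comm_last (M := M) (i := 0) (b := v)
    (by rwa [show (0 : ℤ) + M.n - 1 = 3 by omega]) hl hr hm hu) (by omega) (by omega)
  refine ⟨_, inv_mem k, ?_⟩
  rw [(commute_succ (inv_mem k) (hm'.conj_U (j := 2) (inv_mem hu) (by omega)) (by omega)).eq,
    ← commutatorElement_inv]
  group

/-- First component: `comm_first` with `m = w l = y(-l⁻¹) x(l) y(-l⁻¹)` (`w_eq`, `rf`):
`⁅x l, v⁆ ∈ (w l) v (w l)⁻¹ · U 2`, and `w l = h l * w 1`, `w(1)⁻¹ h(l) w(1) = h(l)⁻¹` (`w_h`).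
Last component: for `1 ≠ v ∈ U 3` let `m_v = l v r` be `Rf (-2)` (`exists_mu'` with `i = -1`);
`comm_last`: `⁅v, u⁆ ∈ U 1 · m_v u m_v⁻¹`, so the `U 2`-component of `⁅x l, v⁆` is `m_v x(-l) m_v⁻¹`
(`U 1`, `U 2` commute).  Put `x3 l = m_{v₀} x(-l) m_{v₀}⁻¹`; `t = m_{v₀}⁻¹ m_v ∈ T`, `S2.semi`. -/
theorem exists_qp (hn : M.n = 4) {F : Type} [Field F] [Finite F] (E : M.S2 0 F) {v₀ : M.U 3}
    (h : v₀ ≠ 1) : Nonempty (M.QP E v₀) := by
  classical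
  have h' : (v₀ : G) ≠ 1 := fun e => h (Subtype.ext e)
  obtain ⟨m, hm, hm0⟩ := qp_last hn v₀.2 h'
  have w1 := qp_rf hn E (one_ne_zero : (1 : F) ≠ 0)
  obtain ⟨x2, hx2⟩ : ∃ x2 : M.U 3 → G, ∀ v, x2 v = E.w 1 * v * (E.w 1)⁻¹ := ⟨_, fun _ => rfl⟩
  obtain ⟨x3, hx3⟩ : ∃ x3 : F → G, ∀ l, x3 l = m * (E.x l)⁻¹ * m⁻¹ := ⟨_, fun _ => rfl⟩
  have mem2 : ∀ v, x2 v ∈ M.U 1 := fun v => hx2 v ▸ w1.conj_U v.2 (by omega)
  have surj2 : ∀ g ∈ M.U 1, ∃ v, x2 v = g := fun g hg =>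
    ⟨⟨_, w1.inv.conj_U hg (by omega)⟩, by rw [hx2]; group⟩
  have mem3 : ∀ l, x3 l ∈ M.U 2 := fun l => hx3 l ▸ hm.conj_U (inv_mem (E.xm l)) (by omega)
  have surj3 : ∀ g ∈ M.U 2, ∃ l, x3 l = g := fun g hg => by
    obtain ⟨l, hl⟩ := E.xs _ (inv_mem (hm.inv.conj_U (j := 0) hg (by omega)))
    exact ⟨l, by rw [hx3, hl]; group⟩
  have j3 : ∀ l k, x3 l = x3 k → l = k := fun l k e => by
    rw [hx3, hx3] at e
    exact E.x_inj (by simpa using e)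
  obtain ⟨act, ha, ha0⟩ : ∃ act : M.U 3 → F → M.U 3,
      (∀ v l, l ≠ 0 → (act v l : G) = (E.h l)⁻¹ * v * E.h l) ∧ ∀ v, act v 0 = 1 :=
    ⟨fun v l => if hl : l = 0 then 1 else ⟨(E.h l)⁻¹ * v * E.h l, by
      simpa using T_conj_U (inv_mem (E.h_T hl)) v.2⟩, fun v l hl => by simp only [dif_neg hl],
      fun v => dif_pos rfl⟩
  have ex : ∀ (v : M.U 3) l, ∃ k, ⁅E.x l, v.1⁆ = x2 (act v l) * x3 k := fun v l => by
    by_cases hl : l = 0
    · exact ⟨0, by simp [hl, ha0, hx2, hx3, E.x_zero]⟩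
    have k := comm_first (M := M) (i := 0) (u := v) (E.xm l) (E.ym (-l⁻¹)) (E.ym (-l⁻¹))
      (E.w_eq hl ▸ E.rf hl) (by rw [show (0 : ℤ) + M.n - 1 = 3 by omega]; exact v.2)
    rw [← E.w_eq hl] at k
    obtain ⟨k, hk⟩ := surj3 _ (qp_U2 k (by omega) (by omega))
    refine ⟨k, ?_⟩
    rw [hk, hx2, ha v l hl, E.w_eq_h l, qp_hw E hl]
    group
  choose p r14 using ex
  choose f r24 using fun (u v : M.U 3) =>
    surj3 _ (qp_U2 (comm (mem2 u) v.2 (by omega) (by omega)) (by omega) (by omega))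
  choose T r13 using fun l k =>
    surj2 _ (qp_U2 (comm (E.xm l) (mem3 k) (by omega) (by omega)) (by omega) (by omega))
  refine ⟨⟨x2, x3, act, p, f, T, hx2, ha, ha0, fun l k => ?_, mem3, surj3,
    fun l e => j3 _ _ (by rw [e, hx3, E.x_zero]; group), fun l v => r14 v l,
    fun u v => (r24 u v).symm, fun l k => (r13 l k).symm, fun l => ?_, fun v hv => ?_⟩⟩
  · rw [hx3, hx3, hx3, add_comm, E.x_add]; group
  · obtain ⟨a, h1, e⟩ := hm0 _ (E.xm l)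
    rw [r14, ← hx3] at e
    exact j3 _ _ (qp_uniq hn (mem2 _) h1 (mem3 _) (mem3 _) e).2
  · obtain ⟨m', hm', hv'⟩ := qp_last hn v.2 fun e => hv (Subtype.ext e)
    obtain ⟨c, σ, hc, e1, -⟩ := E.semi (hm.inv.mul_mem_T hm')
    refine ⟨c, σ, hc, fun l => ?_⟩
    obtain ⟨a, h1, e⟩ := hv' _ (E.xm l)
    rw [r14, show m' * (E.x l)⁻¹ * m'⁻¹ = x3 (c * σ l) by rw [hx3, ← e1]; group] at e
    exact j3 _ _ (qp_uniq hn (mem2 _) h1 (mem3 _) (mem3 _) e).2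

namespace QP

variable {F : Type} [Field F] [Finite F] {E : M.S2 0 F} {v₀ : M.U 3} (Q : M.QP E v₀)
  (hn : M.n = 4)
include hn

theorem mem2 (v : M.U 3) : Q.x2 v ∈ M.U 1 :=
  Q.x2_eq v ▸ (qp_rf hn E one_ne_zero).conj_U v.2 (by omega)

theorem surj2 (g : G) (hg : g ∈ M.U 1) : ∃ v, Q.x2 v = g :=
  ⟨⟨_, (qp_rf hn E one_ne_zero).inv.conj_U hg (by omega)⟩, by rw [Q.x2_eq]; group⟩

omit hn in
theorem m2 (u v : M.U 3) : Q.x2 (u * v) = Q.x2 u * Q.x2 v := by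
  simp only [Q.x2_eq, Subgroup.coe_mul]; group

omit hn in
theorem o2 : Q.x2 1 = 1 := by simp [Q.x2_eq]

omit hn in
theorem o3 : Q.x3 0 = 1 := by
  have := Q.x3_add 0 0
  rw [add_zero] at this
  exact left_eq_mul.1 this

omit hn in
theorem i3 (l : F) : Q.x3 (-l) = (Q.x3 l)⁻¹ := by
  rw [eq_inv_iff_mul_eq_one, ← Q.x3_add, neg_add_cancel, Q.o3]

omit hn in
theorem j2 {u v : M.U 3} (e : Q.x2 u = Q.x2 v) : u = v := by
  rw [Q.x2_eq, Q.x2_eq] at e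
  exact Subtype.ext (by simpa using e)

omit hn in
theorem j3 {l k : F} (e : Q.x3 l = Q.x3 k) : l = k :=
  sub_eq_zero.1 (Q.inj3 _ (by rw [sub_eq_add_neg, Q.x3_add, Q.i3, e, mul_inv_cancel]))

theorem c12 (l : F) (v : M.U 3) : Commute (E.x l) (Q.x2 v) :=
  commute_succ (E.xm l) (Q.mem2 hn v) (by omega)

theorem c23 (v : M.U 3) (l : F) : Commute (Q.x2 v) (Q.x3 l) :=
  commute_succ (Q.mem2 hn v) (Q.mem3 l) (by omega)

omit hn in
theorem c34 (l : F) (v : M.U 3) : Commute (Q.x3 l) v :=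
  commute_succ (Q.mem3 l) v.2 (by omega)

omit hn in
theorem c33 (l k : F) : Commute (Q.x3 l) (Q.x3 k) := by
  rw [Commute, SemiconjBy, ← Q.x3_add, ← Q.x3_add, add_comm]

omit hn in
theorem f0 {u v : M.U 3} (h : Commute (Q.x2 u) v) : Q.f u v = 0 :=
  Q.inj3 _ (by rw [← Q.r24, h.commutator_eq])

theorem uniq {u v : M.U 3} {l k : F} (e : Q.x2 u * Q.x3 l = Q.x2 v * Q.x3 k) : u = v ∧ l = k := by
  exact (qp_uniq hn (Q.mem2 hn u) (Q.mem2 hn v) (Q.mem3 l) (Q.mem3 k) e).imp Q.j2 Q.j3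

theorem act_one (v : M.U 3) : Q.act v 1 = v := by
  exact Subtype.ext (by rw [Q.act_eq v 1 one_ne_zero, E.h_one]; group)

theorem act_mul (v w : M.U 3) (l : F) : Q.act (v * w) l = Q.act v l * Q.act w l := by
  by_cases hl : l = 0
  · rw [hl, Q.act_zero, Q.act_zero, Q.act_zero, one_mul]
  · refine Subtype.ext ?_
    rw [Subgroup.coe_mul, Q.act_eq _ l hl, Q.act_eq _ l hl, Q.act_eq _ l hl, Subgroup.coe_mul]
    group

theorem act_act (v : M.U 3) (l k : F) : Q.act (Q.act v l) k = Q.act v (l * k) := by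
  by_cases hk : k = 0
  · rw [hk, mul_zero, Q.act_zero, Q.act_zero]
  refine Subtype.ext ?_
  by_cases hl : l = 0
  · rw [hl, zero_mul, Q.act_zero, Q.act_eq _ k hk]
    simp
  · rw [Q.act_eq _ k hk, Q.act_eq _ l hl, Q.act_eq _ _ (mul_ne_zero hl hk), E.h_mul hl hk]
    group

/-- expand `⁅x (l+k), v⁆ = x l ⁅x k, v⁆ (x l)⁻¹ ⁅x l, v⁆` -/
theorem act_add (v : M.U 3) (l k : F) :
    Q.act v (l + k) = Q.act v k * Q.T l (Q.p v k) * Q.act v l := by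
  refine (Q.uniq hn (l := Q.p v (l + k)) (k := Q.p v k + Q.p v l) ?_).1
  rw [← Q.r14, E.x_add, Qd.cm_mul_left, Q.r14, Q.r14, ← conj_mul,
    Qd.conj_of_commute (Q.c12 hn _ _), Qd.conj_eq, Q.r13, Q.m2, Q.m2, Q.x3_add, mul_assoc,
    mul_assoc, mul_assoc, mul_assoc, ← mul_assoc (Q.x3 _), ← (Q.c23 hn _ _).eq, mul_assoc]

/-- expand `⁅x l, v w⁆ = ⁅x l, v⁆ v ⁅x l, w⁆ v⁻¹`; `U 2` is central in `UU 1 3` -/
theorem p_mul (v w : M.U 3) (l : F) :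
    Q.p (v * w) l = Q.p v l + Q.p w l - Q.f (Q.act w l) v := by
  refine (Q.uniq hn (u := Q.act (v * w) l) (v := Q.act v l * Q.act w l) ?_).2
  rw [← Q.r14, Subgroup.coe_mul, Qd.cm_mul_right, Q.r14, Q.r14, ← conj_mul,
    Qd.conj_of_commute (Q.c34 _ v).symm, Qd.conj_eq' _ (Q.x2 _), Q.r24, ← Q.i3, Q.m2,
    sub_eq_add_neg, add_right_comm, Q.x3_add, Q.x3_add, mul_assoc, mul_assoc, mul_assoc,
    ← mul_assoc (Q.x3 _), ← mul_assoc (_ * Q.x3 _),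
    ← ((Q.c23 hn (Q.act w l) _).mul_right (Q.c23 hn (Q.act w l) _)).eq]
  group

theorem p_one (l : F) : Q.p 1 l = 0 := by
  refine (Q.uniq hn (u := Q.act 1 l) (v := 1) ?_).2
  rw [← Q.r14, Subgroup.coe_one, commutatorElement_one_right, Q.o2, Q.o3, one_mul]

theorem f_mul_left (u u' v : M.U 3) : Q.f (u * u') v = Q.f u v + Q.f u' v := by
  refine Q.j3 ?_
  rw [Q.x3_add, ← Q.r24, Q.m2, Qd.cm_mul_left, Q.r24, Qd.conj_of_commute (Q.c23 hn _ _), Q.r24,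
    (Q.c33 _ _).eq]

theorem f_mul_right (u v v' : M.U 3) : Q.f u (v * v') = Q.f u v + Q.f u v' := by
  refine Q.j3 ?_
  rw [Q.x3_add, ← Q.r24, Subgroup.coe_mul, Qd.cm_mul_right, Q.r24, Q.r24,
    Qd.conj_of_commute (Q.c34 _ _).symm]

theorem T_add_left (l l' k : F) : Q.T (l + l') k = Q.T l k * Q.T l' k := by
  refine Q.j2 ?_
  rw [Q.m2, ← Q.r13, add_comm, E.x_add, Qd.cm_mul_left, Q.r13, Q.r13,
    Qd.conj_of_commute (Q.c12 hn _ _)]

theorem T_add_right (l k k' : F) : Q.T l (k + k') = Q.T l k * Q.T l k' := by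
  refine Q.j2 ?_
  rw [Q.m2, ← Q.r13, Q.x3_add, Qd.cm_mul_right, Q.r13, Q.r13,
    Qd.conj_of_commute (Q.c23 hn _ _).symm]

/-- conjugation by `g = h(l)⁻¹`: `g x(k) g⁻¹ = x (l⁻² k)`, `g v g⁻¹ = act v l`,
`g x2(u) g⁻¹ = x2 (act u l⁻¹)` (`w_h`), `g x3(k) g⁻¹ = x3 (χ k)`. -/
theorem conj {l : F} (hl : l ≠ 0) : ∃ χ : F → F,
    (∀ k, (E.h l)⁻¹ * Q.x3 k * E.h l = Q.x3 (χ k)) ∧
    (∀ v k, Q.p (Q.act v l) (l⁻¹ ^ 2 * k) = χ (Q.p v k)) ∧
    ∀ u v, Q.f (Q.act u l⁻¹) (Q.act v l) = χ (Q.f u v) := by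
  have hl' := inv_ne_zero hl
  choose χ hχ using fun k => Q.surj3 _ (T_conj_U (E.h_T hl') (Q.mem3 k))
  have gv : ∀ v : M.U 3, E.h l⁻¹ * v * (E.h l⁻¹)⁻¹ = Q.act v l := fun v => by
    rw [Q.act_eq v l hl, E.h_inv hl, inv_inv]
  have g2 : ∀ u, E.h l⁻¹ * Q.x2 u * (E.h l⁻¹)⁻¹ = Q.x2 (Q.act u l⁻¹) := fun u => by
    rw [Q.x2_eq, Q.x2_eq, Q.act_eq u _ hl', show E.h l⁻¹ * (E.w 1 * u * (E.w 1)⁻¹) * (E.h l⁻¹)⁻¹ =
      E.h l⁻¹ * E.w 1 * u * (E.h l⁻¹ * E.w 1)⁻¹ by group, qp_hw E hl']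
    group
  refine ⟨χ, fun k => by rw [hχ, E.h_inv hl, inv_inv], fun v k => ?_, fun u v => Q.j3 ?_⟩
  · have e := Qd.cm_conj (E.h l⁻¹) (E.x k) v
    rw [E.h_x hl', gv, Q.r14, Q.r14, ← conj_mul, g2, ← hχ] at e
    exact (Q.uniq hn e).2
  · rw [hχ, ← Q.r24, ← Q.r24, ← Qd.cm_conj, g2, gv]

/-- Case `QT` with `v₀ ∈ Zv (x 5)`: `act v₀ l ∈ Zv (x 5)` (`Zv_conj'`), so `x2 (act v₀ l) ∈ Zv (x 3)` is
central in `A (x 3) (x 4) = UU 0 3` and `f (act v₀ l) v = 0`: `p (v v₀) l = p v l + l`; `sig_id0`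
(with `d = 0` if `v v₀ = 1`). -/
theorem lin_T (H : M.QT) (h0 : (v₀ : G) ∈ M.Zv (M.x 5)) (v : M.U 3) (l : F) :
    Q.p v l = Q.p v 1 * l := by
  by_cases hv : v = 1
  · rw [hv, Q.p_one hn, Q.p_one hn, zero_mul]
  have k : ∀ l, Q.p (v * v₀) l = Q.p v l + l := fun l => by
    have h1 : (Q.act v₀ l : G) ∈ M.Zv (M.x 5) := by
      by_cases hl : l = 0
      · rw [hl, Q.act_zero]; exact one_mem _
      · rw [Q.act_eq _ l hl]
        simpa using Pol.Zv_conj' h0 (inv_mem (E.h_T hl) 5)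
    have h2 := Pol.Zv_conj (E.w 1) h1
    rw [qp_rf hn E one_ne_zero 5, ← Q.x2_eq, show (8 : ℤ) - 5 = 3 by norm_num] at h2
    rw [Q.p_mul hn, Q.p0, Q.f0 (Pol.Zv_comm h2 (line.1 3)
      (UU_le_A le_rfl (by omega) (U_le_UU le_rfl le_rfl v.2))).symm, sub_zero]
  obtain ⟨c, σ, hc, e⟩ := Q.semi v hv
  have : ∀ l, σ l = l := by
    by_cases h1 : v * v₀ = 1
    · exact sig_id0 (d := 0) hc σ σ fun l => by rw [zero_mul, ← e, ← k, h1, Q.p_one hn]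
    · obtain ⟨d, τ, -, e'⟩ := Q.semi _ h1
      exact sig_id0 hc σ τ fun l => by rw [← e', ← e, k]
  rw [e, e, this, this, mul_one]

theorem L_T (H : M.QL) (l k : F) : Q.T l k = 1 :=
  Q.j2 (by rw [← Q.r13, Q.o2, (H.cm 0 rfl _ (E.xm l) _ (Q.mem3 k)).commutator_eq])

omit Q in
theorem L_h (H : M.QL) (l : F) {b : G} (hb : b ∈ M.U 2) : Commute (E.h l) b :=
  (S2.commute_L (fun u hu => (H.cm 0 rfl u hu b hb).symm) (fun u hu => H.cm 2 rfl b hb u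
    (by rwa [show (0 : ℤ) + M.n = 2 + 2 by omega] at hu)) (E.h_mem l)).symm

/-- Case `QL`: `T = 1`, `U 2` commutes with `U 0`, `U 4`, hence with `h l` (`commute_L`): `χ = id`, so
`p (act v t) k = p v (t² k)`.  If `v * act v₀ t = 1` for some `t ≠ 0`, then `v = act v₀ (-t)` (`act_add`,
`act_zero`) and `p v l = t² l`.  Otherwise `sig_id` with `B l = f (act v₀ l) v` (`p_mul`, `act_act`). -/
theorem lin_L (H : M.QL) (h0 : v₀ ≠ 1) (v : M.U 3) (l : F) : Q.p v l = Q.p v 1 * l := by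
  by_cases hv : v = 1
  · rw [hv, Q.p_one hn, Q.p_one hn, zero_mul]
  have k : ∀ t, t ≠ 0 → ∀ k, Q.p (Q.act v₀ t) k = t ^ 2 * k := fun t ht k => by
    obtain ⟨χ, h1, h2, -⟩ := Q.conj hn ht
    have := h2 v₀ (t ^ 2 * k)
    rw [Q.p0, show t⁻¹ ^ 2 * (t ^ 2 * k) = k by field_simp] at this
    rw [this]
    refine Q.j3 ?_
    rw [← h1, mul_assoc, ← (L_h hn H t (Q.mem3 _)).eq, inv_mul_cancel_left]
  by_cases h1 : ∃ t, t ≠ 0 ∧ v * Q.act v₀ t = 1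
  · obtain ⟨t, ht, h1⟩ := h1
    have h2 := Q.act_add hn v₀ t (-t)
    rw [add_neg_cancel, Q.act_zero, Q.L_T hn H, mul_one, ← h1] at h2
    rw [mul_right_cancel h2, k _ (neg_ne_zero.2 ht), k _ (neg_ne_zero.2 ht), mul_one]
  push Not at h1
  obtain ⟨c, σ, hc, e⟩ := Q.semi v hv
  have := sig_id hc σ (fun l => Q.f (Q.act v₀ l) v) fun t ht => by
    obtain ⟨d, τ, hd, e'⟩ := Q.semi _ (h1 t ht)
    exact ⟨d, τ, hd, fun l => by rw [← e', ← e, Q.p_mul hn, k t ht, Q.act_act hn]⟩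
  rw [e, e, this, this, mul_one]

/-- Put `a v = p v 1`.  `f_act_left` from `p_mul` for `l` and `1`.  By `conj` with `v = v₀`,
`χ_l k = χ(l) k` is linear, `χ` is multiplicative (`h_mul`), `a (act v l) = l² χ(l) a v`; put
`σ l = l χ(l)` (`σ 0 = 0`), `f_act_right` from `conj` and `f_act_left`.  `σ` is additive: if `χ = 1` it
is the identity; if `f u v ≠ 0` use `act_add`, `f_mul_right` and `f u (T l k) = 0`.  `hc` gives `T_comm`,
`f_T` and `f u (T l k) = 0` (conjugate by `w 1`, which swaps `U 1` and `U 3`). -/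
theorem qd (h0 : v₀ ≠ 1) (lin : ∀ v l, Q.p v l = Q.p v 1 * l)
    (hc : ∀ a ∈ M.U 0, ∀ b ∈ M.U 2, ∀ c, c ∈ M.U 1 ∨ c ∈ M.U 3 → Commute ⁅a, b⁆ c)
    (hσ : (∀ l, l ≠ 0 → ∀ b ∈ M.U 2, Commute (E.h l) b) ∨ ∃ u v, Q.f u v ≠ 0) :
    ∃ D : M.QD F, D.D.f = Q.f ∧ D.D.T = Q.T := by
  have am : ∀ v w, Q.p (v * w) 1 = Q.p v 1 + Q.p w 1 - Q.f w v := fun v w => by
    rw [Q.p_mul hn, Q.act_one hn]
  have fl : ∀ u v l, Q.f (Q.act u l) v = l * Q.f u v := fun u v l => by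
    have := Q.p_mul hn v u l
    rw [lin, lin v, lin u, am] at this
    linear_combination this
  obtain ⟨s, hs⟩ : ∃ s : F → F, ∀ l, s l = Q.p (Q.act v₀ l) 1 * l⁻¹ := ⟨_, fun _ => rfl⟩
  have s0 : s 0 = 0 := by rw [hs, inv_zero, mul_zero]
  have key : ∀ l, l ≠ 0 → (∀ k, (E.h l)⁻¹ * Q.x3 k * E.h l = Q.x3 (s l * l⁻¹ * k)) ∧
      (∀ v, Q.p (Q.act v l) 1 = l * s l * Q.p v 1) ∧
      ∀ u v, Q.f u (Q.act v l) = s l * Q.f u v := fun l hl => by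
    obtain ⟨χ, h1, h2, h3⟩ := Q.conj hn hl
    have e : ∀ k, χ k = s l * l⁻¹ * k := fun k => by
      rw [← Q.p0 k, ← h2, lin, Q.p0, hs]; ring
    refine ⟨fun k => by rw [h1, e], fun v => ?_, fun u v => ?_⟩
    · have := h2 v 1
      rw [e, lin] at this
      field_simp at this
      linear_combination this
    · have := h3 u v
      rw [e, fl] at this
      field_simp at this
      linear_combination this
  have f1 : ∀ u, Q.f u 1 = 0 := fun u => Q.f0 (Commute.one_right _)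
  have aa : ∀ v l, Q.p (Q.act v l) 1 = l * s l * Q.p v 1 := fun v l => by
    by_cases hl : l = 0
    · rw [hl, Q.act_zero, Q.p_one hn, zero_mul, zero_mul]
    · exact (key l hl).2.1 v
  have fr : ∀ u v l, Q.f u (Q.act v l) = s l * Q.f u v := fun u v l => by
    by_cases hl : l = 0
    · rw [hl, Q.act_zero, f1, s0, zero_mul]
    · exact (key l hl).2.2 u v
  have Tc : ∀ l k v, Q.T l k * v = v * Q.T l k := fun l k v => Q.j2 (by
    rw [Q.m2, Q.m2, ← Q.r13]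
    exact hc _ (E.xm l) _ (Q.mem3 k) _ (Or.inl (Q.mem2 hn v)))
  have fT : ∀ l k v, Q.f (Q.T l k) v = 0 := fun l k v =>
    Q.f0 (Q.r13 l k ▸ hc _ (E.xm l) _ (Q.mem3 k) _ (Or.inr v.2))
  have fT' : ∀ l k v, Q.f v (Q.T l k) = 0 := fun l k v => by
    have h1 := am (Q.T l k) v
    rw [Tc, am, fT] at h1
    linear_combination h1
  let σ : F →+* F :=
    { toFun := s
      map_one' := by rw [hs, Q.act_one hn, Q.p0, inv_one, mul_one]
      map_mul' := fun l k => by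
        by_cases hl : l = 0
        · rw [hl, zero_mul, s0, zero_mul]
        by_cases hk : k = 0
        · rw [hk, mul_zero, s0, mul_zero]
        rw [hs, ← Q.act_act hn, aa, aa, Q.p0]
        field_simp
      map_zero' := s0
      map_add' := fun l k => by
        rcases hσ with h | ⟨u, v, h⟩
        · have : ∀ l, s l = l := fun l => by
            by_cases hl : l = 0
            · rw [hl, s0]
            have e := (key l hl).1 1
            rw [mul_assoc, ← (h l hl _ (Q.mem3 _)).eq, inv_mul_cancel_left] at e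
            have e := Q.j3 e
            field_simp at e
            exact e.symm
          rw [this, this, this]
        · have e := fr u v (l + k)
          rw [Q.act_add hn, Q.f_mul_right hn, Q.f_mul_right hn, fT', fr, fr] at e
          exact mul_right_cancel₀ h (by linear_combination -e) }
  exact ⟨⟨⟨Q.act, fun v => Q.p v 1, Q.f, Q.T, σ, Q.act_one hn, Q.act_mul hn, Q.act_act hn,
    fun v l k => by rw [Q.act_add hn, lin], Q.act_zero, am, fun v e => by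
      by_contra hv
      obtain ⟨c, σ, hc, e'⟩ := Q.semi v hv
      exact hc (by rw [← e, e', map_one, mul_one]), aa, Q.f_mul_left hn, Q.f_mul_right hn, fl, fr,
    Q.T_add_left hn, Q.T_add_right hn, Tc, fT⟩, E.x, Q.x2, Q.x3, E.x_add, Q.m2, Q.x3_add, E.xm,
    E.xs, E.xi, Q.mem2 hn, Q.surj2 hn, fun v e => Q.j2 (e.trans Q.o2.symm), Q.mem3, Q.surj3, Q.inj3,
    fun l v => by rw [Q.r14, lin], Q.r24, Q.r13⟩, rfl, rfl⟩

end QP

/-- `QM.exists_S2` with `QL.qm` (`U 1 ≰ U 2`) or `QT.qm`; `exists_qp` with `v₀ ≠ 1` (in `Zv (x 5)` in case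
`QT`); `QP.qd` (case `QT`: `comm`, `Zv_comm`; `f ≢ 0`, otherwise `mem_Z` contradicts `ne`).
In case `QL`, `T = 1`; `DB.cases`.  In case `QT`: if `T = 1` `DB.cases`, otherwise `DB.exists_co`
with `f₀ ≠ 0` (`Co.hf`). -/
theorem exists_qd (H : M.QL ∨ M.QT) : ∃ (F : Type) (_ : Field F) (_ : Fintype F) (Q : M.QD F),
    ((∀ l k, Q.D.T l k = 1) ∧ (Nat.card (M.U 3) = Nat.card F ∨ Nat.card (M.U 3) = Nat.card F ^ 2)) ∨
    ((∃ l k, Q.D.T l k ≠ 1) ∧ ∃ r, Nat.card F = r ^ 2 ∧ Nat.card (M.U 3) = r ^ 3) := by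
  have nt : Nontrivial (M.U 3) := by
    obtain ⟨g, hg, h1⟩ := exists_U (M := M) 3
    exact ⟨⟨⟨g, hg⟩, 1, fun e => h1 (congrArg Subtype.val e)⟩⟩
  have lin : ∀ {F : Type} [Field F] [Finite F] (D : DB F (M.U 3)), (∀ l k, D.T l k = 1) →
      Nat.card (M.U 3) = Nat.card F ∨ Nat.card (M.U 3) = Nat.card F ^ 2 := fun D h => by
    rcases D.cases with ⟨-, h1, -⟩ | ⟨⟨l, k, h1⟩, -⟩
    exacts [h1, absurd (h l k) h1]
  rcases H with H | H
  · have hn := H.n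
    obtain ⟨F, _, _, ⟨E⟩⟩ := H.qm.exists_S2 fun h => by
      obtain ⟨g, hg, h1⟩ := exists_U (M := M) 1
      exact h1 (U_inf_UU (j := 2) hg (U_le_UU (by omega) le_rfl (h hg)) (by omega))
    obtain ⟨v₀, h0⟩ := exists_ne (1 : M.U 3)
    obtain ⟨Q⟩ := exists_qp hn E h0
    obtain ⟨D, -, hT⟩ := Q.qd hn h0 (Q.lin_L hn H h0) (fun a ha b hb c _ => by
      rw [(H.cm 0 rfl a ha b hb).commutator_eq]; exact Commute.one_left c)
      (Or.inl fun l _ b hb => QP.L_h hn H l hb)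
    have h1 : ∀ l k, D.D.T l k = 1 := fun l k => by rw [hT, Q.L_T hn H]
    exact ⟨F, _, inferInstance, D, Or.inl ⟨h1, lin _ h1⟩⟩
  · have hn := H.n
    obtain ⟨F, _, _, ⟨E⟩⟩ := H.qm.exists_S2 H.not_le
    obtain ⟨z, hz, z1⟩ := H.exists_Z (i := 5) rfl
    have h0 : (⟨z, H.Z_le (i := 3) rfl hz⟩ : M.U 3) ≠ 1 := fun e => z1 (congrArg Subtype.val e)
    obtain ⟨Q⟩ := exists_qp hn E h0
    have hf : ∃ u v, Q.f u v ≠ 0 := by
      by_contra h
      push Not at h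
      refine H.ne fun a ha => H.mem_Z (i := 1) rfl ha fun b hb => ?_
      obtain ⟨u, rfl⟩ := Q.surj2 hn a ha
      exact commutatorElement_eq_one_iff_commute.1 (by rw [Q.r24 u ⟨b, hb⟩, h, Q.o3])
    obtain ⟨D, hf', -⟩ := Q.qd hn h0 (Q.lin_T hn H hz) (fun a ha b hb c hc =>
      (Pol.Zv_comm (H.comm (i := 0) rfl ha hb) (line.1 _) (hc.elim
        (fun hc => UU_le_A (by omega) (by omega) (U_le_UU le_rfl le_rfl hc))
        fun hc => UU_le_A (by omega) (by omega) (U_le_UU le_rfl le_rfl hc))).symm) (Or.inr hf)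
    refine ⟨F, _, inferInstance, D, ?_⟩
    by_cases h1 : ∀ l k, D.D.T l k = 1
    · exact Or.inl ⟨h1, lin _ h1⟩
    push Not at h1
    obtain ⟨u, v, hf⟩ := hf
    rw [← hf'] at hf
    obtain ⟨μ, f₀, h, h2⟩ := D.D.exists_co h1
    have h3 : f₀ ≠ 0 := fun e => hf (by rw [h.hf, e, mul_zero])
    rcases h2 with ⟨-, h2, -⟩ | ⟨r, -, h4, ⟨h2, -⟩ | ⟨-, h2⟩⟩
    exacts [absurd h2 h3, absurd h2 h3, Or.inr ⟨h1, r, h4, h2⟩]

end MP

end Cfsg.Agent.BN2
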