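import Cfsg.Agent.BN2.QdA
import Cfsg.Agent.BN2.Cmp
import Cfsg.Agent.S0247

/-!
# Finite Moufang quadrangles are determined by their orders (S1144)
-/

set_option autoImplicit false
set_option linter.unusedSectionVars false
set_option linter.unusedVariables false

namespace Cfsg.Agent.BN2

open scoped commutatorElement
open Cfsg.Agent.St Cfsg.Agent.Chev Cfsg.Agent.BNP

/-- `pU` gives nilpotency; `mem_Fx_univ`, `conj_mem_H'`. -/
theorem spl_of_split0 {p : ℕ} [Fact p.Prime] {G ι W : Type*} [Group G] [Group W] [Finite G]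
    (T : Split0 p G ι W) : Spl T.toTits T.U := by
  refine ⟨T.U_le, T.conj_U, T.pU.isNilpotent, fun b hb => ?_⟩
  obtain ⟨u, hu, h, hh, rfl⟩ := T.B_eq b hb
  refine ⟨u, hu, ?_⟩
  rw [inv_mul_cancel_left]
  exact mem_Fx_univ.2 fun n hn => (T.toTits.conj_mem_H' hn hh).1

/-- If `U = ⊥` then `B` fixes the standard apartment (`dec`); this contradicts thickness: `B` is
transitive on the chambers at distance `s i` from `ap T 1` and there are at least two of them. -/
theorem Spl.ne_bot {G ι W : Type*} [Group G] [Group W] [Nonempty ι] {T : Tits G ι W}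
    {U : Subgroup G} (hU : Spl T U) : U ≠ ⊥ := by
  rintro rfl
  obtain ⟨i⟩ := ‹Nonempty ι›
  obtain ⟨z, hz, hne⟩ := exists_gen_ne (ap T 1) i (ap T (T.s i))
  obtain ⟨g, h1, h2⟩ := exists_smul_eq ((dist_ap_one (T := T) (T.s i)).trans hz.symm)
  obtain ⟨u, hu, h3⟩ := hU.dec g (Br.mem_B.2 h1)
  rw [Subgroup.mem_bot.1 hu, inv_one, one_mul] at h3
  exact hne (h2.symm.trans (h3 _ trivial))

theorem hasM_Sp {F : Type} [Field F] [Fintype F] (n p : ℕ) [Fact p.Prime] [CharP F p] :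
    HasM p (Matrix.symplecticGroup (Fin n) F) (mC n) (szC n (Fintype.card F) (Fintype.card F)) := by
  have h := Class.isSympSpace_sympB n F
  have h1 := hasM_isom (Class.Max.fmAlt (Class.sympB n F) h.isAlt h.nondeg) p ⟨1, one_ne_zero, rfl⟩
    (fun _ _ => rfl) (n := n) (r := 0) (by omega) (by simp [Class.Max.fmAlt]) (by simp; omega)
  have h2 : Nat.card (Class.Max.fmAlt (Class.sympB n F) h.isAlt h.nondeg).π.ker = Nat.card F := by
    rw [show (Class.Max.fmAlt (Class.sympB n F) h.isAlt h.nondeg).π.ker = ⊤ from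
      AddMonoidHom.ker_zero, AddSubgroup.card_top]
  rw [h2, pow_zero, one_mul, Nat.card_eq_fintype_card] at h1
  exact h1.congr (Class.spEquiv n F)

namespace MP

variable {G V : Type} [Group G] [MulAction G V] [Finite G] [Finite V] {M : MP G V}
  {G' V' : Type} [Group G'] [MulAction G' V'] [Finite G'] [Finite V'] {M' : MP G' V'}

theorem nontrivial_U (i : ℤ) : Nontrivial (M.U i) := by
  obtain ⟨g, hg, h⟩ := exists_U (M := M) i
  exact ⟨⟨g, hg⟩, 1, fun e => h (congrArg Subtype.val e)⟩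

theorem two_le_card_U (i : ℤ) : 2 ≤ Nat.card (M.U i) :=
  have := nontrivial_U (M := M) i
  Finite.one_lt_card

theorem QD.card {F : Type} [Field F] (Q : M.QD F) : Nat.card (M.U 0) = Nat.card F := by
  refine (Nat.card_congr (Equiv.ofBijective (fun l => (⟨Q.x1 l, Q.mem1 l⟩ : M.U 0))
    ⟨fun l k e => sub_eq_zero.1 (Q.inj1 _ ?_), fun g => ?_⟩)).symm
  · have := Q.x1_add (l - k) k
    rw [sub_add_cancel, show Q.x1 l = Q.x1 k from congrArg Subtype.val e] at this
    exact mul_eq_right.1 this.symm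
  · obtain ⟨l, hl⟩ := Q.surj1 g g.2
    exact ⟨l, Subtype.ext hl⟩

theorem rev7 (hn : M.n = 4) : (M.rev 7).U 0 = M.U 3 ∧ (M.rev 7).U 3 = M.U 0 := by
  rw [U_rev, U_rev, hn]
  exact ⟨rfl, rfl⟩

/-- `DB.exists_iso`, then copy `QuadSys.locP` (`BNP/Quad`, `Qd.graph`) to build a `PFam M M' 0 3`;
`Good.iso` with `c = 0`. -/
theorem QD.iso (h : M.Good) (h' : M'.Good) (hn : M.n = 4) (hn' : M'.n = 4) {F F' : Type} [Field F]
    [Field F'] [Finite F] [Finite F'] (Q : M.QD F) (Q' : M'.QD F')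
    (hF : Nat.card F = Nat.card F') (hX : Nat.card (M.U 3) = Nat.card (M'.U 3))
    (hT : (∀ l k, Q.D.T l k = 1) ↔ ∀ l k, Q'.D.T l k = 1) : Nonempty (G ≃* G') := by
  have := nontrivial_U (M := M) 3
  have := nontrivial_U (M := M') 3
  obtain ⟨φ, ψ, e, he, h1, h2, h3, h4⟩ := Q.D.exists_iso Q'.D hF hX hT
  let p0 : Multiplicative F →* G := MonoidHom.mk' (fun l => Q.x1 l.toAdd) fun l k => Q.x1_add _ _
  let q0 : Multiplicative F →* G' := MonoidHom.mk' (fun l => Q'.x1 (φ l.toAdd))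
    fun l k => by rw [← Q'.x1_add, ← map_add]; rfl
  let p1 : M.U 3 →* G := MonoidHom.mk' Q.x2 Q.x2_mul
  let q1 : M.U 3 →* G' := MonoidHom.mk' (fun v => Q'.x2 (ψ v))
    fun u v => by rw [map_mul, Q'.x2_mul]
  let p2 : Multiplicative F →* G := MonoidHom.mk' (fun l => Q.x3 l.toAdd) fun l k => Q.x3_add _ _
  let q2 : Multiplicative F →* G' := MonoidHom.mk' (fun l => Q'.x3 (e * φ l.toAdd))
    fun l k => by rw [← Q'.x3_add, ← mul_add, ← map_add]; rfl
  let p3 := (M.U 3).subtype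
  let q3 := (M'.U 3).subtype.comp ψ.toMonoidHom
  have g0 : Graph (M.U 0) (M'.U 0) (p0.prod q0).range :=
    Qd.graph p0 q0 (fun _ => Q.mem1 _) (fun _ => Q'.mem1 _) Q.surj1 (fun y hy => by
        obtain ⟨l, rfl⟩ := Q'.surj1 y hy
        obtain ⟨l, rfl⟩ := φ.surjective l
        exact ⟨.ofAdd l, rfl⟩) Q.inj1
      fun l h => (map_eq_zero_iff φ φ.injective).1 (Q'.inj1 _ h)
  have g1 : Graph (M.U 1) (M'.U 1) (p1.prod q1).range :=
    Qd.graph p1 q1 Q.mem2 (fun _ => Q'.mem2 _) Q.surj2 (fun y hy => by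
        obtain ⟨l, rfl⟩ := Q'.surj2 y hy
        obtain ⟨l, rfl⟩ := ψ.surjective l
        exact ⟨l, rfl⟩) Q.inj2 fun l h => (map_eq_one_iff ψ ψ.injective).1 (Q'.inj2 _ h)
  have g2 : Graph (M.U 2) (M'.U 2) (p2.prod q2).range :=
    Qd.graph p2 q2 (fun _ => Q.mem3 _) (fun _ => Q'.mem3 _) Q.surj3 (fun y hy => by
        obtain ⟨l, rfl⟩ := Q'.surj3 y hy
        obtain ⟨k, hk⟩ := φ.surjective (e⁻¹ * l)
        exact ⟨.ofAdd k, congrArg Q'.x3 (by
          rw [toAdd_ofAdd, hk, mul_inv_cancel_left₀ he])⟩) Q.inj3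
      fun l h => (map_eq_zero_iff φ φ.injective).1 ((mul_eq_zero.1 (Q'.inj3 _ h)).resolve_left he)
  have g3 : Graph (M.U 3) (M'.U 3) (p3.prod q3).range :=
    Qd.graph p3 q3 (fun v => v.2) (fun v => (ψ v).2) (fun y hy => ⟨⟨y, hy⟩, rfl⟩) (fun y hy =>
      ⟨ψ.symm ⟨y, hy⟩, congrArg Subtype.val (ψ.apply_symm_apply _)⟩) (fun _ h => Subtype.ext h)
      fun l h => (map_eq_one_iff ψ ψ.injective).1 (Subtype.ext h)
  let Γ : ℤ → Subgroup (G × G') := fun k => if k = 0 then (p0.prod q0).range else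
    if k = 1 then (p1.prod q1).range else if k = 2 then (p2.prod q2).range else (p3.prod q3).range
  have gr : ∀ k, 0 ≤ k → k < 4 → Graph (M.U k) (M'.U k) (Γ k) := fun k h0 hk => by
    interval_cases k
    exacts [g0, g1, g2, g3]
  have le : ∀ {k l r : ℤ}, k < l → l < r → Γ l ≤ ⨆ (l : ℤ) (_ : k < l ∧ l < r), Γ l :=
    fun {k l r} h h' => le_iSup₂_of_le (f := fun l (_ : k < l ∧ l < r) => Γ l) l ⟨h, h'⟩ le_rfl
  refine h.iso h' (by omega) (by omega) (c := 0) (Γ := Γ) ⟨fun k a b => (gr k a (by omega)).fst,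
    fun k a b => (gr k a (by omega)).snd, fun k a b => (gr k a (by omega)).iff,
    fun k r hk hkr hr x hx y hy => ?_⟩ (fun k a b => (gr k a (by omega)).ex1)
    fun k a b => (gr k a (by omega)).ex2
  by_cases h : r = k + 1
  · rw [show ⁅x, y⁆ = 1 from Prod.ext
      (commute_succ ((gr k hk (by omega)).fst x hx) ((gr r (by omega) (by omega)).fst y hy)
        h).commutator_eq
      (commute_succ ((gr k hk (by omega)).snd x hx) ((gr r (by omega) (by omega)).snd y hy)
        h).commutator_eq]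
    exact one_mem _
  obtain ⟨rfl, rfl⟩ | ⟨rfl, rfl⟩ | ⟨rfl, rfl⟩ :
    (k = 0 ∧ r = 2) ∨ (k = 1 ∧ r = 3) ∨ (k = 0 ∧ r = 3) := by omega
  · obtain ⟨l, rfl⟩ := hx
    obtain ⟨k, rfl⟩ := hy
    exact le (l := 1) (by omega) (by omega) ⟨Q.D.T l.toAdd k.toAdd,
      Prod.ext (Q.r13 _ _).symm ((congrArg Q'.x2 (h4 _ _).symm).trans (Q'.r13 _ _).symm)⟩
  · obtain ⟨u, rfl⟩ := hx
    obtain ⟨v, rfl⟩ := hy
    exact le (l := 2) (by omega) (by omega) ⟨.ofAdd (Q.D.f u v),
      Prod.ext (Q.r24 _ _).symm ((congrArg Q'.x3 (h3 _ _).symm).trans (Q'.r24 _ _).symm)⟩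
  · obtain ⟨l, rfl⟩ := hx
    obtain ⟨v, rfl⟩ := hy
    have := mul_mem (le (k := 0) (l := 1) (r := 3) (by omega) (by omega) ⟨Q.D.act v l.toAdd, rfl⟩)
      (le (k := 0) (l := 2) (r := 3) (by omega) (by omega) ⟨.ofAdd (Q.D.a v * l.toAdd), rfl⟩)
    convert this using 1
    refine Prod.ext (Q.r14 _ _) ((Q'.r14 _ _).trans ?_)
    change _ = Q'.x2 (ψ (Q.D.act v l.toAdd)) * Q'.x3 (e * φ (Q.D.a v * l.toAdd))
    rw [h1, map_mul, ← mul_assoc, ← h2]
    rfl

/-- the possible orders -/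
def QS (a b : ℕ) : Prop := IsPrimePow a ∧ (b = a ∨ b = a ^ 2 ∨ ∃ r, a = r ^ 2 ∧ b = r ^ 3)

/-- `exists_q`, `exists_qd`; `|U 0| = |F|`; `U_rev`, `card_U_even`. -/
theorem quad_sizes (hn : M.n = 4) : QS (Nat.card (M.U 0)) (Nat.card (M.U 3)) ∨
    QS (Nat.card (M.U 3)) (Nat.card (M.U 0)) := by
  have key : ∀ M : MP G V, M.QL ∨ M.QT → QS (Nat.card (M.U 0)) (Nat.card (M.U 3)) := fun M H => by
    obtain ⟨F, _, _, Q, h⟩ := exists_qd H
    rw [Q.card]
    refine ⟨Nat.card_eq_fintype_card (α := F) ▸ FiniteField.isPrimePow_card F, ?_⟩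
    rcases h with ⟨-, h | h⟩ | ⟨-, h⟩
    exacts [Or.inl h, Or.inr (Or.inl h), Or.inr (Or.inr h)]
  refine (exists_q hn).imp (key M) fun H => ?_
  have := key _ H
  rwa [(rev7 hn).1, (rev7 hn).2] at this

theorem quad_iso0 (h : M.Good) (h' : M'.Good) (hn : M.n = 4) (hn' : M'.n = 4) (H : M.QL ∨ M.QT)
    (H' : M'.QL ∨ M'.QT)
    (e : (Nat.card (M.U 0) = Nat.card (M'.U 0) ∧ Nat.card (M.U 3) = Nat.card (M'.U 3)) ∨
      (Nat.card (M.U 0) = Nat.card (M'.U 3) ∧ Nat.card (M.U 3) = Nat.card (M'.U 0))) :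
    Nonempty (G ≃* G') := by
  obtain ⟨F, _, _, Q, c⟩ := exists_qd H
  obtain ⟨F', _, _, Q', c'⟩ := exists_qd H'
  have t := two_le_card_U (M := M) 0
  rw [Q.card] at e t
  rw [Q'.card] at e
  have le : ∀ {a b : ℕ} {P P' : Prop}, (P ∧ (b = a ∨ b = a ^ 2)) ∨ (P' ∧ ∃ r, a = r ^ 2 ∧ b = r ^ 3) →
      a ≤ b := by
    rintro a b P P' (⟨-, rfl | rfl⟩ | ⟨-, r, rfl, rfl⟩)
    exacts [le_rfl, Nat.le_self_pow two_ne_zero a, by
      rcases r.eq_zero_or_pos with rfl | hr
      exacts [le_rfl, Nat.pow_le_pow_right hr (by omega)]]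
  have ex : ∀ {a b r : ℕ}, 2 ≤ a → b = a ∨ b = a ^ 2 → a = r ^ 2 → b = r ^ 3 → False := by
    rintro _ _ r ha e rfl rfl
    have hr : 2 ≤ r := by
      by_contra q
      obtain rfl | rfl : r = 0 ∨ r = 1 := by omega
      all_goals simp at ha
    rw [← pow_mul] at e
    rcases e with e | e <;> exact absurd (rc_pow_ne hr e) (by omega)
  have l1 := le c
  have l2 := le c'
  have e1 : Nat.card F = Nat.card F' := by clear c c'; omega
  have e2 : Nat.card (M.U 3) = Nat.card (M'.U 3) := by clear c c'; omega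
  refine Q.iso h h' hn hn' Q' e1 e2 ?_
  rw [← e1, ← e2] at c'
  rcases c with ⟨c1, c2⟩ | ⟨⟨l, k, c1⟩, r, c2, c3⟩ <;>
    rcases c' with ⟨d1, d2⟩ | ⟨⟨l', k', d1⟩, r', d2, d3⟩
  · exact iff_of_true c1 d1
  · exact (ex t c2 d2 d3).elim
  · exact (ex t d2 c2 c3).elim
  · exact iff_of_false (fun q => c1 (q l k)) fun q => d1 (q l' k')

/-- Replace `M`, `M'` by `rev 7` if necessary (`exists_q`, `Good.rev`: `2 * 4 - 1 = 7`) and take `QD`s
(`exists_qd`).  With `a = |F| ≥ 2`, `b = |U 3|` and `{a, b} = {a', b'}`, the types `(q,q)`, `(q,q²)`,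
`(r²,r³)` force `a = a'`, `b = b'` and the same truth value of `T = 1`.  `QD.iso`. -/
theorem quad_iso (h : M.Good) (h' : M'.Good) (hn : M.n = 4) (hn' : M'.n = 4)
    (e : (Nat.card (M.U 0) = Nat.card (M'.U 0) ∧ Nat.card (M.U 3) = Nat.card (M'.U 3)) ∨
      (Nat.card (M.U 0) = Nat.card (M'.U 3) ∧ Nat.card (M.U 3) = Nat.card (M'.U 0))) :
    Nonempty (G ≃* G') := by
  have r : ∀ {G V : Type} [Group G] [MulAction G V] [Finite G] [Finite V] {M : MP G V},
      M.Good → M.n = 4 → (M.rev 7).Good := fun {G V} _ _ _ _ M h hn => by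
    have := h.rev
    rwa [hn] at this
  rcases exists_q hn with H | H <;> rcases exists_q hn' with H' | H'
  · exact quad_iso0 h h' hn hn' H H' e
  · exact quad_iso0 h (r h' hn') hn hn' H H' (by rw [(rev7 hn').1, (rev7 hn').2]; exact e.symm)
  · exact quad_iso0 (r h hn) h' hn hn' H H' (by rw [(rev7 hn).1, (rev7 hn).2]; tauto)
  · exact quad_iso0 (r h hn) (r h' hn') hn hn' H H' (by
      rw [(rev7 hn).1, (rev7 hn).2, (rev7 hn').1, (rev7 hn').2]; tauto)

/-- `exists_good` for the Tits system of `HasM` (`a = 0`, `b = 1`, `mC 2 0 1 = 4`, `relIndex_eq_qq`,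
`spl_of_split0`, `faith_iff`), `quad_iso`. -/
theorem quad_model (h : M.Good) (hn : M.n = 4) {p : ℕ} [Fact p.Prime] {H : Type} [Group H]
    [Finite H] {s t : ℕ} (hH : HasM p H (mC 2) (szC 2 s t))
    (h1 : ∀ N : Subgroup H, N.Normal → N = ⊥ ∨ ∀ B : Subgroup H, N ≤ B → B.index ≤ 2)
    (h2 : ∀ N : Subgroup H, N.Normal → ¬ p ∣ N.index → N = ⊤)
    (e : (Nat.card (M.U 0) = s ∧ Nat.card (M.U 3) = t) ∨
      (Nat.card (M.U 0) = t ∧ Nat.card (M.U 3) = s)) : Nonempty (G ≃* H) := by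
  obtain ⟨W, _, T, a1, a2⟩ := hH
  have := T.toTits.finite_W
  have o4 : orderOf (T.s 0 * T.s 1) = 4 := a1 0 1
  have hc : T.s 0 * T.s 1 ≠ T.s 1 * T.s 0 := fun q => by
    have : orderOf (T.s 0 * T.s 1) ∣ 2 := orderOf_dvd_of_pow_eq_one (by
      rw [sq]
      nth_rewrite 1 [q]
      rw [mul_assoc, ← mul_assoc (T.s 0), T.cox.sq, one_mul, T.cox.sq])
    rw [o4] at this
    omega
  have q0 : qq T.toTits 0 = s := Nat.succ_injective ((relIndex_eq_qq _ 0).symm.trans (a2 0))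
  have q1 : qq T.toTits 1 = t := Nat.succ_injective ((relIndex_eq_qq _ 1).symm.trans (a2 1))
  have hf : Faith T.toTits := by
    rw [faith_iff]
    refine (h1 _ inferInstance).resolve_right fun q => ?_
    have b1 := q _ T.B.normalCore_le
    have b2 := Nat.le_of_dvd (Nat.pos_of_ne_zero T.B.index_ne_zero_of_finite)
      (Subgroup.relIndex_dvd_index_of_le (T.B_le_par {0}))
    rw [relIndex_eq_qq, q0] at b2
    have := two_le_card_U (M := M) 0
    have := two_le_card_U (M := M) 3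
    omega
  obtain ⟨V', _, _, M', g1, -, g2, g3, g4, -⟩ := exists_good T.toTits (a := 0) (b := 1) (by decide)
    hc hf (spl_of_split0 T.toSplit0) (h2 _ inferInstance fun q => T.toSplit0.not_dvd_index_U
      (q.trans (Subgroup.index_dvd_of_le Subgroup.le_normalClosure)))
  rw [o4] at g2
  rw [g2, show ((4 : ℕ) : ℤ) - 1 = 3 from rfl, q1] at g4
  rw [q0] at g3
  exact quad_iso h g1 hn g2 (by rw [g3, g4]; exact e)

theorem quad_simple (h : M.Good) (hn : M.n = 4) {p : ℕ} [Fact p.Prime] {H : Type} [Group H]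
    [Finite H] [IsSimpleGroup H] {s t : ℕ} (hH : HasM p H (mC 2) (szC 2 s t))
    (e : (Nat.card (M.U 0) = s ∧ Nat.card (M.U 3) = t) ∨
      (Nat.card (M.U 0) = t ∧ Nat.card (M.U 3) = s)) : Nonempty (G ≃* H) := by
  refine quad_model h hn hH (fun N hN => hN.eq_bot_or_eq_top.imp_right ?_)
    (fun N hN h0 => hN.eq_bot_or_eq_top.resolve_left ?_) e
  · rintro rfl B hB
    rw [top_le_iff.1 hB, Subgroup.index_top]
    omega
  · rintro rfl
    obtain ⟨W, _, T, -⟩ := hH
    rw [Subgroup.index_bot] at h0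
    exact h0 ((T.pU.card_eq_or_dvd.resolve_left fun q => (spl_of_split0 T.toSplit0).ne_bot
      (Subgroup.card_eq_one.1 q)).trans (Subgroup.card_subgroup_dvd_card _))

/-- `quad_sizes`, `rc_exists_field`.  Models: `(q,q)`: `PSp 2 F` (the proof of `model_Sp` in
`BNP/ModelForm` works for `n = 2` and gives `HasM` for the symplectic group; `HasM.map` to the
quotient by the centre); `(q,q²)`: `PSU 4 F q` (`hasM_SU`, `n = 2`, `r = 0`); `(r²,r³)`: `PSU 5 F r`.
These are simple (`S0270`, `S0283`) except `PSp 2 (F₂)`; there use the symplectic group itself,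
`≅ S₆` (`S0247`), whose normal subgroups are `1, A₆, S₆`; `quad_model` gives `G ≅ S₆`, not simple.
For simple `H`, `h1` is trivial and for `h2`: `N = ⊥` would give `p ∤ |H|`, but `U ≠ ⊥` is a `p`-group. -/
theorem quad_lie [IsSimpleGroup G] (h : M.Good) (hn : M.n = 4) : Lie G := by
  have key : ∀ a b, QS a b → (Nat.card (M.U 0) = a ∧ Nat.card (M.U 3) = b) ∨
      (Nat.card (M.U 0) = b ∧ Nat.card (M.U 3) = a) → Lie G := by
    rintro a b ⟨ha, rfl | rfl | ⟨r, rfl, rfl⟩⟩ e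
    · obtain ⟨F, _, _, hF⟩ := rc_exists_field ha
      obtain ⟨p, _⟩ := CharP.exists F
      have hp : Fact p.Prime := ⟨CharP.char_is_prime F p⟩
      have hS := hasM_Sp (F := F) 2 p
      rw [hF] at hS
      by_cases h3 : 3 ≤ Fintype.card F
      · have := S0270.result (F := F) 2 le_rfl fun _ => h3
        exact Or.inr (Or.inl ⟨F, _, inferInstance, 2, le_rfl, fun _ => h3, quad_simple h hn
          (hS.map _ (QuotientGroup.mk'_surjective _) (QuotientGroup.ker_mk' _).le) e⟩)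
      have h2 : Fintype.card F = 2 := by have := ha.two_le; omega
      obtain ⟨φ⟩ := S0247.result h2
      obtain rfl : p = 2 := (Nat.prime_dvd_prime_iff_eq hp.out Nat.prime_two).1
        ((CharP.cast_eq_zero_iff F p 2).1 (h2 ▸ FiniteField.cast_card_eq_zero F))
      have i2 : (alternatingGroup (Fin 6)).index = 2 := alternatingGroup.index_eq_two
      have al : ∀ N : Subgroup (Equiv.Perm (Fin 6)), N.Normal → N ≠ ⊥ →
          alternatingGroup (Fin 6) ≤ N := fun N _ h0 =>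
        Equiv.Perm.alternatingGroup_le_of_normal (by simp) ((N.nontrivial_iff_ne_bot).2 h0)
      obtain ⟨ψ⟩ := quad_model h hn (hS.congr φ.symm) (fun N hN => or_iff_not_imp_left.2
        fun h0 B hB => Nat.le_of_dvd two_pos (i2 ▸ Subgroup.index_dvd_of_le ((al N hN h0).trans hB)))
        (fun N hN h0 => by
          have h4 : N ≠ ⊥ := fun q => h0 (by
            rw [q, ← i2]; exact Subgroup.index_dvd_of_le bot_le)
          have := i2 ▸ Subgroup.index_dvd_of_le (al N hN h4)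
          rcases (Nat.dvd_prime Nat.prime_two).1 this with q | q
          · exact Subgroup.index_eq_one.1 q
          · exact absurd (q ▸ dvd_rfl) h0) e
      have := ψ.symm.isSimpleGroup
      rcases (alternatingGroup.normal (α := Fin 6)).eq_bot_or_eq_top with q | q <;> rw [q] at i2
      · rw [Subgroup.index_bot, Nat.card_perm, Nat.card_fin] at i2
        exact absurd i2 (by decide)
      · rw [Subgroup.index_top] at i2
        exact absurd i2 (by decide)
    · obtain ⟨F, _, _, hF⟩ := rc_exists_field (ha.pow two_ne_zero)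
      obtain ⟨p, _⟩ := CharP.exists F
      have hp : Fact p.Prime := ⟨CharP.char_is_prime F p⟩
      have hS := hasM_SU (n := 2) (r := 0) hF (by omega) p
      rw [pow_zero, one_mul] at hS
      have := S0283.result hF (2 * 2 + 0) (by omega) (by omega)
      exact Or.inr (Or.inr (Or.inl ⟨F, _, inferInstance, 2 * 2 + 0, _, hF, by omega, by omega,
        quad_simple h hn (hS.map _ (QuotientGroup.mk'_surjective _) (QuotientGroup.ker_mk' _).le)
          e.symm⟩))
    · obtain ⟨F, _, _, hF⟩ := rc_exists_field ha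
      obtain ⟨p, _⟩ := CharP.exists F
      have hp : Fact p.Prime := ⟨CharP.char_is_prime F p⟩
      have hS := hasM_SU (n := 2) (r := 1) hF (by omega) p
      rw [pow_one, ← pow_succ] at hS
      have := S0283.result hF (2 * 2 + 1) (by omega) (by omega)
      exact Or.inr (Or.inr (Or.inl ⟨F, _, inferInstance, 2 * 2 + 1, _, hF, by omega, by omega,
        quad_simple h hn (hS.map _ (QuotientGroup.mk'_surjective _) (QuotientGroup.ker_mk' _).le)
          e⟩))
  rcases quad_sizes hn with q | q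
  · exact key _ _ q (Or.inl ⟨rfl, rfl⟩)
  · exact key _ _ q (Or.inr ⟨rfl, rfl⟩)

end MP

end Cfsg.Agent.BN2
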