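import Cfsg.Agent.BN2.MP
import Cfsg.Agent.BN2.N6a

/-!
# Root calculus in a finite Moufang polygon (S1144)

Read `BN2/Defs`, `BN2/Sp`, `BN2/Main` (`E1_all, D_eq_one, R_le_X, X_tr, X_tr'`), `BN2/MP`.
`U i = QQ x (i+1) (i+n-1)` fixes `x i, …, x (i+n)`, is regular on `Γ(x i) ∖ x (i+1)` (`X_tr`,
`QQ_eq_one`) and on `Γ(x (i+n)) ∖ x (i+n-1)` (`X_tr'`, `QQ_eq_one'`).
-/

set_option autoImplicit false
set_option linter.unusedSectionVars false
set_option linter.unusedVariables false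

namespace Cfsg.Agent.BN2

open scoped commutatorElement

namespace MP

variable {G V : Type} [Group G] [MulAction G V] [Finite G] [Finite V] {M : MP G V}
  {i j k c : ℤ} {a b g u t m : G}

variable (M) in
/-- `g` acts on the apartment as the rotation `i ↦ i + c` -/
def Rot (c : ℤ) (g : G) : Prop := ∀ i, g • M.x i = M.x (i + c)

theorem three_le' : (3 : ℤ) ≤ M.n := by exact_mod_cast M.three_le

/-- `IsAp.per`. -/
theorem x_per (h : j = i + 2 * M.n) : M.x j = M.x i := by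
  exact M.ap.per h

/-- `mem_U` and `x_per`. -/
theorem U_per (h : j = i + 2 * M.n) : M.U j = M.U i := by
  ext g
  rw [mem_U, mem_U]
  refine ⟨fun H k a b => ?_, fun H k a b => ?_⟩
  · rw [← x_per (j := k + 2 * M.n) rfl]; exact H _ (by omega) (by omega)
  · rw [x_per (i := k - 2 * M.n) (by ring)]; exact H _ (by omega) (by omega)

/-- `QQ_fix`. -/
theorem U_fix (hg : g ∈ M.U i) (h1 : i ≤ k) (h2 : k ≤ i + M.n) : g • M.x k = M.x k := by
  have := three_le' (M := M)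
  exact Pol.QQ_fix line hg (by omega) (by omega) (by omega)

/-- `QQ_eq_one`. -/
theorem U_eq_one (hg : g ∈ M.U i) {z : V} (hz : M.adj (M.x i) z) (hne : z ≠ M.x (i + 1))
    (hf : g • z = z) : g = 1 := by
  exact Pol.QQ_eq_one line hg (by omega) (by rwa [add_sub_cancel_right]) hne hf

/-- `QQ_eq_one'`. -/
theorem U_eq_one' (hg : g ∈ M.U i) {z : V} (hz : M.adj (M.x (i + M.n)) z)
    (hne : z ≠ M.x (i + M.n - 1)) (hf : g • z = z) : g = 1 := by
  exact Pol.QQ_eq_one' line hg (by omega) (by rwa [sub_add_cancel]) hne hf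

theorem U_tr (i : ℤ) : M.Tr (M.U i) (M.x i) (M.x (i + 1)) := SP.X_tr M.hn line i

theorem U_tr' (i : ℤ) : M.Tr (M.U i) (M.x (i + M.n)) (M.x (i + M.n - 1)) := SP.X_tr' M.hn line i

/-- `card_le_sz`, `sz_le_card`. -/
theorem card_U (i : ℤ) : Nat.card (M.U i) = M.sz (M.x i) := by
  have := three_le' (M := M)
  have h1 : M.adj (M.x i) (M.x (i - 1)) := line.adj_pred (by ring)
  have h2 : M.x (i - 1) ≠ M.x (i + 1) := (line.ne' (by ring)).symm
  exact le_antisymm (Pol.card_le_sz (line.1 i) h1 h2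
    (fun g hg => ⟨U_fix hg le_rfl (by omega), U_fix hg (by omega) (by omega)⟩)
    fun g hg => U_eq_one hg h1 h2).1 (Pol.sz_le_card (line.1 i) (U_tr i))

/-- `sz_of_ty`, `ty_even`. -/
theorem card_U_even (h : (j - i) % 2 = 0) : Nat.card (M.U j) = Nat.card (M.U i) := by
  rw [card_U, card_U, Pol.sz_of_ty (Pol.ty_even line h)]

/-- `two_le_sz`. -/
theorem exists_U (i : ℤ) : ∃ g ∈ M.U i, g ≠ 1 := by
  have h := Pol.two_le_sz (P := M.toPol) (M.x i)
  rw [← card_U] at h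
  exact (Subgroup.nontrivial_iff_exists_ne_one _).1 (Finite.one_lt_card_iff_nontrivial.1 h)

theorem U_le_R (h1 : i ≤ k) (h2 : k ≤ j) (h3 : j < i + M.n) : M.U k ≤ M.R M.x j (i + M.n) :=
  fun _ hu => Pol.QQ_R line hu (by have := three_le' (M := M); omega) (by omega) (by omega) h3

theorem dec0 (hg : g ∈ M.R M.x j (i + M.n)) (h1 : i ≤ j) (h2 : j < i + M.n) :
    ∃ a ∈ M.U i, a⁻¹ * g ∈ M.R M.x j (i + 1 + M.n) := by
  obtain ⟨a, ha, e⟩ := (U_tr' (M := M) i).fix (line.1 _) (line.ne' (by ring))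
    (hg.2 _ h2.le le_rfl) (hg.2 _ (by omega) (by omega))
  have h3 := mul_mem (inv_mem (U_le_R le_rfl h1 h2 ha)) hg
  refine ⟨a, ha, h3.1, fun k h4 h5 => ?_⟩
  rcases h5.eq_or_lt with rfl | h5
  · rwa [add_right_comm]
  · exact h3.2 k h4 (by omega)

theorem R_eq_one (hg : g ∈ M.R M.x j k) (h : j + M.n + 1 ≤ k) : g = 1 :=
  SP.D_eq_one M.hn M.ap (SP.mem_D_of M.ap hg h)

/-- Fundamental: `UU i j = R x j (i+n)`.  `≤`: `QQ_R` for each `U k`.  `≥`: induction on `j - i`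
(downwards in the length of the fixed path): for `j = i - 1` use `mem_D_of, D_eq_one`; otherwise
`g` fixes `x j … x (i+n)`; by `U_tr' i` (`Tr.fix` of `BN2/N6a`) there is `u ∈ U i` with `u⁻¹ g` fixing
`x (i+n+1)`, so `u⁻¹ g ∈ R x j (i+1+n) = UU (i+1) j`. -/
theorem UU_eq_R (h1 : i - 1 ≤ j) (h2 : j < i + M.n) : M.UU i j = M.R M.x j (i + M.n) := by
  refine le_antisymm (UU_le fun k a b => U_le_R a b h2) ?_
  induction i, (show i ≤ j + 1 by omega) using Int.leInductionDown with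
  | base => exact fun g hg => R_eq_one hg (by omega) ▸ one_mem _
  | pred i hi ih =>
    intro g hg
    obtain ⟨a, ha, h3⟩ := dec0 hg (by omega) h2
    rw [sub_add_cancel] at h3
    exact (Subgroup.mul_mem_cancel_left _ (inv_mem (U_le_UU le_rfl (by omega) ha))).1
      (UU_mono (by omega) le_rfl (ih (by omega) (by omega) h3))

theorem UU_fix (hg : g ∈ M.UU i j) (h1 : j ≤ k) (h2 : k ≤ i + M.n) : g • M.x k = M.x k :=
  (UU_le (H := MulAction.stabilizer G (M.x k))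
    (fun _ a b _ hu => U_fix hu (by omega) (by omega)) hg :)

/-- `QQ_A`. -/
theorem UU_le_A (h1 : j ≤ k) (h2 : k < i + M.n) : M.UU i j ≤ M.A (M.x k) (M.x (k + 1)) := by
  have := three_le' (M := M)
  exact UU_le fun l a b _ hu => Pol.QQ_A line hu (by omega) (by omega) (by omega)

/-- `UU_eq_R` with `R x k (k+1) = A (x k) (x (k+1))`. -/
theorem A_eq (k : ℤ) : M.A (M.x k) (M.x (k + 1)) = M.UU (k + 1 - M.n) k := by
  have := three_le' (M := M)
  rw [UU_eq_R (by omega) (by omega), sub_add_cancel]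
  refine le_antisymm (fun g hg => ⟨hg, fun l a b => ?_⟩) fun g hg => hg.1
  rcases b.eq_or_lt with rfl | b
  · exact Pol.A_fix' hg
  · rw [show l = k by omega]; exact M.A_fix hg

/-- `≤`: `QQ_mono`; `≥`: `QQ_R`, `UU_eq_R`. -/
theorem UU_eq_QQ (h1 : i - 1 ≤ j) (h2 : j + 2 ≤ i + M.n) :
    M.UU i j = M.QQ M.x (j + 1) (i + M.n - 1) := by
  refine le_antisymm (UU_le fun l a b => Pol.QQ_mono (by omega) (by omega)) fun g hg => ?_
  rw [UU_eq_R h1 (by omega)]
  exact Pol.QQ_R line hg (by omega) (by omega) (by omega) (by omega)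

theorem Q_eq (k : ℤ) : M.Q (M.x k) = M.UU (k + 1 - M.n) (k - 1) := by
  have := three_le' (M := M)
  rw [UU_eq_QQ (by omega) (by omega)]
  exact le_antisymm (fun g hg l a b => by rwa [show l = k by omega])
    fun g hg => hg k (by omega) (by omega)

/-- both are `R` groups (`mem_R_of`). -/
theorem mem_UU_inf {i' j' : ℤ} (hg : g ∈ M.UU i j) (hg' : g ∈ M.UU i' j') (h1 : i ≤ i')
    (h2 : j ≤ j') (h3 : j' < i + M.n) : g ∈ M.UU i' j := by
  have h : g ∈ M.R M.x j (i' + M.n) := ⟨UU_le_A le_rfl (by omega) hg, fun k a b => by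
    by_cases e : k ≤ i + M.n
    exacts [UU_fix hg a e, UU_fix hg' (by omega) b]⟩
  by_cases e : i' - 1 ≤ j
  · rwa [UU_eq_R e (by omega)]
  · exact R_eq_one h (by omega) ▸ one_mem _

theorem U_inf_UU (ha : a ∈ M.U i) (h : a ∈ M.UU (i + 1) j) (hj : j < i + M.n) : a = 1 := by
  by_cases e : j < i + 1
  · exact UU_bot e h
  · exact UU_bot (lt_add_one i) (mem_UU_inf (U_le_UU le_rfl le_rfl ha) h (by omega) (by omega) hj)

theorem U_inf_UU' (ha : a ∈ M.U j) (h : a ∈ M.UU i (j - 1)) (hj : j < i + M.n) : a = 1 := by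
  by_cases e : j - 1 < i
  · exact UU_bot e h
  · exact UU_bot (sub_one_lt j) (mem_UU_inf h (U_le_UU le_rfl le_rfl ha) (by omega) (by omega) hj)

theorem isPGroup_UU (h : j < i + M.n) : IsPGroup M.p (M.UU i j) := by
  exact (M.A_p (line.1 j)).to_le (UU_le_A le_rfl h)

/-- elements of `U i` have `p`-power order -/
theorem pow_U (hg : g ∈ M.U i) : ∃ k : ℕ, g ^ M.p ^ k = 1 := by
  have := three_le' (M := M)
  exact SP.pow_eq_one_of_A (line.1 i) (UU_le_A le_rfl (by omega) (U_le_UU le_rfl le_rfl hg))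

/-- `R_conj`. -/
theorem conj_UU_of_fix (hu : u ∈ M.UU i j) (h2 : j < i + M.n)
    (hg : ∀ k, j ≤ k → k ≤ i + M.n → g • M.x k = M.x k) : g * u * g⁻¹ ∈ M.UU i j := by
  by_cases e : j < i
  · rw [UU_bot e hu, mul_one, mul_inv_cancel]; exact one_mem _
  rw [UU_eq_R (by omega) h2] at hu ⊢
  exact Pol.R_conj hu h2 hg

/-- `U k` normalises `UU i j` for `i - 1 ≤ k ≤ j + 1`: `UU_eq_QQ, QQ_conj, U_fix`
(`UU_bot` if `j < i - 1`). -/
theorem conj_UU (hu : u ∈ M.UU i j) (h : j + 2 ≤ i + M.n) (hg : g ∈ M.U k) (h1 : i - 1 ≤ k)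
    (h2 : k ≤ j + 1) : g * u * g⁻¹ ∈ M.UU i j := by
  by_cases e : j < i
  · rw [UU_bot e hu, mul_one, mul_inv_cancel]; exact one_mem _
  rw [UU_eq_QQ (by omega) h] at hu ⊢
  exact Pol.QQ_conj hu fun l a b => U_fix hg (by omega) (by omega)

/-- the same for `g ∈ UU (i-1) (j+1)` (closure induction, `UU_le` with a normaliser, or `UU_fix`) -/
theorem conj_UU' (hu : u ∈ M.UU i j) (h : j + 2 ≤ i + M.n) (hg : g ∈ M.UU (i - 1) (j + 1)) :
    g * u * g⁻¹ ∈ M.UU i j := by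
  by_cases e : j < i
  · rw [UU_bot e hu, mul_one, mul_inv_cancel]; exact one_mem _
  rw [UU_eq_QQ (by omega) h] at hu ⊢
  exact Pol.QQ_conj hu fun l a b => UU_fix hg a (by omega)

theorem comm_gen (ha : a ∈ M.UU i (j - 1)) (hb : b ∈ M.UU (i + 1) j) (h1 : i < j)
    (h2 : j < i + M.n) : ⁅a, b⁆ ∈ M.UU (i + 1) (j - 1) := by
  have hK : ∀ k, j ≤ k → k ≤ i + M.n → ⁅a, b⁆ ∈ M.K (M.x k) := fun k h3 h4 => by
    rcases h4.eq_or_lt with rfl | h4
    · exact (Pol.comm_K ((UU_eq_QQ (by omega) (by omega)).le hb _ (by omega) (by omega)).1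
        (UU_fix ha (by omega) le_rfl)).1
    · exact (Pol.comm_K ((UU_eq_QQ (by omega) (by omega)).le ha k (by omega) (by omega)).1
        (UU_fix hb h3 (by omega))).2
  have a1 := UU_le_A (k := j) (by omega) h2 ha
  have b1 := UU_le_A (k := j) le_rfl (by omega) hb
  rw [UU_eq_R (by omega) (by omega)]
  refine SP.mem_R_of line (k := j) (mul_mem (mul_mem (mul_mem a1 b1) (inv_mem a1)) (inv_mem b1))
    (fun l h3 h4 => ?_) (by omega) (by omega)
  by_cases h5 : l ≤ j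
  · exact Pol.K_fix line (hK j le_rfl h2.le) h3 (by omega)
  · exact Pol.K_fix line (hK (l - 1) (by omega) (by omega)) (by omega) (by omega)

/-- `⁅a,b⁆ ∈ A (x j) (x (j+1))`, and it lies in `K (x k)` for `j ≤ k < i+n` (`comm_K`, from `a`) and
for `j < k ≤ i+n` (from `b`), so it fixes `x (j-1), …, x (i+n+1)`; `UU_eq_R`. -/
theorem comm (ha : a ∈ M.U i) (hb : b ∈ M.U j) (h1 : i < j) (h2 : j < i + M.n) :
    ⁅a, b⁆ ∈ M.UU (i + 1) (j - 1) := by
  exact comm_gen (U_le_UU le_rfl (by omega) ha) (U_le_UU (by omega) le_rfl hb) h1 h2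

theorem commute_succ (ha : a ∈ M.U i) (hb : b ∈ M.U j) (h : j = i + 1) : Commute a b := by
  have := three_le' (M := M)
  exact commutatorElement_eq_one_iff_commute.1
    (UU_bot (by omega) (comm ha hb (by omega) (by omega)))

/-- commutators of `U i` with `UU (i+1) j` and of `U j` with `UU i (j-1)`: same proof as `comm` -/
theorem comm_UU (ha : a ∈ M.U i) (hb : b ∈ M.UU (i + 1) j) (h2 : j < i + M.n) :
    ⁅a, b⁆ ∈ M.UU (i + 1) (j - 1) := by
  by_cases e : j < i + 1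
  · rw [UU_bot e hb, commutatorElement_one_right]; exact one_mem _
  exact comm_gen (U_le_UU le_rfl (by omega) ha) hb (by omega) h2

theorem comm_UU' (ha : a ∈ M.UU i (j - 1)) (hb : b ∈ M.U j) (h2 : j < i + M.n) :
    ⁅a, b⁆ ∈ M.UU (i + 1) (j - 1) := by
  by_cases e : j - 1 < i
  · rw [UU_bot e ha, commutatorElement_one_left]; exact one_mem _
  exact comm_gen ha (U_le_UU (by omega) le_rfl hb) (by omega) h2

theorem dec (hg : g ∈ M.UU i j) (h1 : i ≤ j) (h2 : j < i + M.n) :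
    ∃ a ∈ M.U i, ∃ b ∈ M.UU (i + 1) j, g = a * b := by
  obtain ⟨a, ha, h3⟩ := dec0 ((UU_eq_R (by omega) h2).le hg) h1 h2
  exact ⟨a, ha, _, (UU_eq_R (by omega) (by omega)).ge h3, (mul_inv_cancel_left a g).symm⟩

theorem dec' (hg : g ∈ M.UU i j) (h1 : i ≤ j) (h2 : j < i + M.n) :
    ∃ b ∈ M.UU i (j - 1), ∃ a ∈ M.U j, g = b * a := by
  obtain ⟨a, ha, e⟩ := (U_tr (M := M) j).fix (b := M.x (j - 1)) (line.adj_pred (by ring))
    (line.ne' (by ring)).symm (UU_fix (inv_mem hg) le_rfl h2.le)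
    (UU_fix (inv_mem hg) (by omega) (by omega))
  have h3 := mul_mem hg (U_le_UU h1 le_rfl ha)
  refine ⟨g * a, (UU_eq_R (by omega) (by omega)).ge (SP.mem_R_of line (UU_le_A le_rfl h2 h3)
    (fun l a b => ?_) (by omega) h2), _, inv_mem ha, (mul_inv_cancel_right g a).symm⟩
  rcases a.eq_or_lt with rfl | a
  · rwa [← mul_inv_rev, inv_smul_eq_iff, eq_comm] at e
  · exact UU_fix h3 (by omega) b

theorem uniq {a' b' : G} (ha : a ∈ M.U i) (ha' : a' ∈ M.U i) (hb : b ∈ M.UU (i + 1) j)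
    (hb' : b' ∈ M.UU (i + 1) j) (hj : j < i + M.n) (e : a * b = a' * b') : a = a' ∧ b = b' := by
  have h : a'⁻¹ * a = b' * b⁻¹ := by rw [eq_mul_inv_iff_mul_eq, mul_assoc, e, inv_mul_cancel_left]
  have h1 := (inv_mul_eq_one.1
    (U_inf_UU (mul_mem (inv_mem ha') ha) (h ▸ mul_mem hb' (inv_mem hb)) hj)).symm
  exact ⟨h1, mul_left_cancel (h1 ▸ e)⟩

theorem uniq' {a' b' : G} (ha : a ∈ M.U j) (ha' : a' ∈ M.U j) (hb : b ∈ M.UU i (j - 1))
    (hb' : b' ∈ M.UU i (j - 1)) (hj : j < i + M.n) (e : b * a = b' * a') : b = b' ∧ a = a' := by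
  have h : a * a'⁻¹ = b⁻¹ * b' := by rw [eq_inv_mul_iff_mul_eq, ← mul_assoc, e, mul_inv_cancel_right]
  have h1 := mul_inv_eq_one.1
    (U_inf_UU' (mul_mem ha (inv_mem ha')) (h ▸ mul_mem (inv_mem hb) hb') hj)
  exact ⟨mul_right_cancel (h1 ▸ e), h1⟩

/-- `|UU i j| = |U i| |UU (i+1) j|` (`dec`, `uniq`). -/
theorem card_UU (h1 : i ≤ j) (h2 : j < i + M.n) :
    Nat.card (M.UU i j) = Nat.card (M.U i) * Nat.card (M.UU (i + 1) j) := by
  rw [← Nat.card_prod]
  refine (Nat.card_congr (Equiv.ofBijective (fun p : M.U i × M.UU (i + 1) j => (⟨p.1 * p.2,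
    mul_mem (U_le_UU le_rfl h1 p.1.2) (UU_mono (by omega) le_rfl p.2.2)⟩ : M.UU i j))
    ⟨fun p q e => ?_, fun g => ?_⟩)).symm
  · have := uniq p.1.2 q.1.2 p.2.2 q.2.2 h2 (congrArg Subtype.val e)
    exact Prod.ext (Subtype.ext this.1) (Subtype.ext this.2)
  · obtain ⟨a, ha, b, hb, e⟩ := dec g.2 h1 h2
    exact ⟨(⟨a, ha⟩, ⟨b, hb⟩), Subtype.ext e.symm⟩

end MP

end Cfsg.Agent.BN2
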