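import Cfsg.Agent.BN2.Rt

/-!
# Reflections, torus, `μ`-elements in a finite Moufang polygon (S1144)

Read `BN2/Defs`, `BN2/Sp`, `BN2/Main` (`E1_all, D_eq_one, R_le_X, X_tr, X_tr'`), `BN2/MP`.
`U i = QQ x (i+1) (i+n-1)` fixes `x i, …, x (i+n)`, is regular on `Γ(x i) ∖ x (i+1)` (`X_tr`,
`QQ_eq_one`) and on `Γ(x (i+n)) ∖ x (i+n-1)` (`X_tr'`, `QQ_eq_one'`).
-/

set_option autoImplicit false
set_option linter.unusedSectionVars false
set_option linter.unusedVariables false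

namespace Cfsg.Agent.BN2

open scoped commutatorElement

namespace MP

variable {G V : Type} [Group G] [MulAction G V] [Finite G] [Finite V] {M : MP G V}
  {i j k c : ℤ} {a b g u t m : G}

/-! ### auxiliary facts -/

theorem rtb_adj (i : ℤ) : M.adj (M.x i) (M.x (i - 1)) := line.adj_pred (by ring)

theorem rtb_ne (i : ℤ) : M.x (i + 1) ≠ M.x (i - 1) := line.ne' (by ring)

theorem rtb_fix_opp (hg : g ∈ M.U (i + M.n)) :
    g • M.x i = M.x i ∧ g • M.x (i - 1) = M.x (i - 1) := by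
  have h3 := M.three_le'
  rw [← x_per (i := i) (j := i + 2 * M.n) rfl, ← x_per (i := i - 1) (j := i - 1 + 2 * M.n) rfl]
  exact ⟨U_fix hg (by omega) (by omega), U_fix hg (by omega) (by omega)⟩

theorem rtb_tr_opp (i : ℤ) : M.Tr (M.U (i + M.n)) (M.x i) (M.x (i - 1)) := by
  have := U_tr' (M := M) (i + M.n)
  rwa [x_per (i := i) (by ring), x_per (i := i - 1) (j := i + M.n + M.n - 1) (by ring)] at this

theorem rtb_eq_one_opp (hg : g ∈ M.U (i + M.n)) {z : V} (hz : M.adj (M.x i) z)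
    (hne : z ≠ M.x (i - 1)) (hf : g • z = z) : g = 1 :=
  U_eq_one' hg (by rwa [x_per (i := i) (by ring)]) (by rwa [x_per (i := i - 1) (by ring)]) hf

theorem rtb_swap (h : M.Rf (2 * i) g) :
    g • M.x (i + 1) = M.x (i - 1) ∧ g • M.x (i - 1) = M.x (i + 1) :=
  ⟨by rw [h]; congr 1; ring, by rw [h]; congr 1; ring⟩

/-! ### reflections, rotations, the torus -/

theorem Rf.per {d : ℤ} (h : M.Rf c g) (e : d = c + 2 * M.n ∨ c = d + 2 * M.n) : M.Rf d g := by
  intro k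
  rw [h k]
  rcases e with rfl | rfl
  · exact (x_per (by ring)).symm
  · exact x_per (by ring)

theorem Rf.inv (h : M.Rf c g) : M.Rf c g⁻¹ := by
  intro k
  rw [inv_smul_eq_iff, h, sub_sub_cancel]

theorem Rf.mul_Rf {d : ℤ} {g' : G} (h : M.Rf c g) (h' : M.Rf d g') : M.Rot (c - d) (g * g') := by
  intro k
  rw [mul_smul, h', h]; congr 1; ring

theorem Rf.mul_mem_T {g' : G} (h : M.Rf c g) (h' : M.Rf c g') : g * g' ∈ M.T := by
  intro k
  rw [mul_smul, h', h, sub_sub_cancel]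

theorem Rf.mul_T (h : M.Rf c g) (ht : t ∈ M.T) : M.Rf c (g * t) := by
  intro k
  rw [mul_smul, mem_T.1 ht, h]

theorem Rf.T_mul (h : M.Rf c g) (ht : t ∈ M.T) : M.Rf c (t * g) := by
  intro k
  rw [mul_smul, h, mem_T.1 ht]

theorem Rf.conj_T (h : M.Rf c g) (ht : t ∈ M.T) : g * t * g⁻¹ ∈ M.T := by
  exact (h.mul_T ht).mul_mem_T h.inv

/-- `Q_conj`. -/
theorem Rf.conj_U (h : M.Rf c g) (hu : u ∈ M.U i) (e : j = c - M.n - i) :
    g * u * g⁻¹ ∈ M.U j := by
  refine mem_U.2 fun k h1 h2 => ?_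
  have := Pol.Q_conj g (mem_U.1 hu (c - k) (by omega) (by omega))
  rwa [h, sub_sub_cancel] at this

theorem Rf.conj_UU {i' j' : ℤ} (h : M.Rf c g) (hu : u ∈ M.UU i j) (e : i' = c - M.n - j)
    (e' : j' = c - M.n - i) : g * u * g⁻¹ ∈ M.UU i' j' := by
  exact UU_le (H := (M.UU i' j').comap (MulAut.conj g).toMonoidHom)
    (fun k h1 h2 v hv => U_le_UU (k := c - M.n - k) (by omega) (by omega) (h.conj_U hv rfl)) hu

theorem Rot.inv (h : M.Rot c g) : M.Rot (-c) g⁻¹ := by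
  intro k
  rw [inv_smul_eq_iff, h, neg_add_cancel_right]

theorem Rot.mul {d : ℤ} {g' : G} (h : M.Rot c g) (h' : M.Rot d g') : M.Rot (c + d) (g * g') := by
  intro k
  rw [mul_smul, h', h]; congr 1; ring

theorem Rot.conj_U (h : M.Rot c g) (hu : u ∈ M.U i) (e : j = i + c) : g * u * g⁻¹ ∈ M.U j := by
  refine mem_U.2 fun k h1 h2 => ?_
  have := Pol.Q_conj g (mem_U.1 hu (k - c) (by omega) (by omega))
  rwa [h, sub_add_cancel] at this

theorem Rot.conj_UU {i' j' : ℤ} (h : M.Rot c g) (hu : u ∈ M.UU i j) (e : i' = i + c)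
    (e' : j' = j + c) : g * u * g⁻¹ ∈ M.UU i' j' := by
  exact UU_le (H := (M.UU i' j').comap (MulAut.conj g).toMonoidHom)
    (fun k h1 h2 v hv => U_le_UU (k := k + c) (by omega) (by omega) (h.conj_U hv rfl)) hu

theorem Rot.conj_T (h : M.Rot c g) (ht : t ∈ M.T) : g * t * g⁻¹ ∈ M.T := by
  intro k
  rw [mul_smul, mul_smul, h.inv, mem_T.1 ht, h, neg_add_cancel_right]

theorem Rot.conj_Rf {d : ℤ} (h : M.Rot c g) (hm : M.Rf d m) : M.Rf (d + 2 * c) (g * m * g⁻¹) := by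
  intro k
  rw [mul_smul, mul_smul, h.inv, hm, h]; congr 1; ring

theorem Rf.conj_Rf {d : ℤ} (h : M.Rf c g) (hm : M.Rf d m) : M.Rf (2 * c - d) (g * m * g⁻¹) := by
  intro k
  rw [mul_smul, mul_smul, h.inv, hm, h]; congr 1; ring

/-- `exists_shift` -/
theorem exists_rot (h : c % 2 = 0) : ∃ g, M.Rot c g := Pol.exists_shift (P := M.toPol) M.ap h

theorem T_conj_U (ht : t ∈ M.T) (hu : u ∈ M.U i) : t * u * t⁻¹ ∈ M.U i := by
  exact Rot.conj_U (c := 0) (fun k => by rw [add_zero]; exact mem_T.1 ht k) hu (add_zero i).symm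

theorem T_conj_UU (ht : t ∈ M.T) (hu : u ∈ M.UU i j) : t * u * t⁻¹ ∈ M.UU i j := by
  exact Rot.conj_UU (c := 0) (fun k => by rw [add_zero]; exact mem_T.1 ht k) hu (add_zero i).symm
    (add_zero j).symm

theorem T_conj_L (ht : t ∈ M.T) (hu : u ∈ M.L i) : t * u * t⁻¹ ∈ M.L i := by
  have : M.L i ≤ (M.L i).comap (MulAut.conj t).toMonoidHom :=
    sup_le (fun v hv => U_le_L i (T_conj_U ht hv)) (fun v hv => U_le_L' i (T_conj_U ht hv))
  exact this hu

theorem L_per (h : j = i + M.n) : M.L j = M.L i := by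
  subst h
  rw [L, L, U_per (i := i) (j := i + M.n + M.n) (by ring), sup_comm]

theorem L_fix (hg : g ∈ M.L i) : g • M.x i = M.x i ∧ g • M.x (i + M.n) = M.x (i + M.n) := by
  have h3 := M.three_le'
  have : M.L i ≤ MulAction.stabilizer G (M.x i) ⊓ MulAction.stabilizer G (M.x (i + M.n)) :=
    sup_le (fun v hv => ⟨U_fix hv le_rfl (by omega), U_fix hv (by omega) le_rfl⟩)
      (fun v hv => ⟨(rtb_fix_opp hv).1, U_fix hv le_rfl (by omega)⟩)
  exact this hg

/-- `fix_ap` -/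
theorem mem_T_of (h : ∀ k, i ≤ k → k ≤ i + M.n + 1 → g • M.x k = M.x k) : g ∈ M.T := by
  exact fun k => Pol.fix_ap (P := M.toPol) M.ap h k

/-- `eq_between` on `[i+1, i+n]` for the lines `g • x` and `x (2i - ·)`, the same on the other
side, then `ap_eq`. -/
theorem rf_of (h1 : g • M.x (i + 1) = M.x (i - 1)) (h2 : g • M.x (i - 1) = M.x (i + 1))
    (h3 : g • M.x (i + M.n) = M.x (i + M.n)) : M.Rf (2 * i) g := by
  have hn := M.three_le'
  have hp : M.toPol.Ap fun k => g • M.x k := IsAp.smul (P := M.toPol) M.ap g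
  have hq : M.toPol.Ap fun k => M.x (2 * i - k) := IsAp.rev (P := M.toPol) M.ap (2 * i)
  have e1 : ∀ k, i + 1 ≤ k → k ≤ i + M.n → g • M.x k = M.x (2 * i - k) := fun k a b =>
    Pol.eq_between hp.1 hq.1 (i := i + 1) (j := i + M.n) (by omega)
      (by rw [h1]; congr 1; ring) (by rw [h3]; exact x_per (by ring)) a b
  have e2 : ∀ k, i - M.n ≤ k → k ≤ i - 1 → g • M.x k = M.x (2 * i - k) := fun k a b =>
    Pol.eq_between hp.1 hq.1 (i := i - M.n) (j := i - 1) (by omega)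
      (by rw [← x_per (i := i - M.n) (j := i + M.n) (by ring), h3]; congr 1; ring)
      (by rw [h2]; congr 1; ring) a b
  refine fun k => Pol.ap_eq hp hq (a := i + 1) (fun k a b => ?_) k
  by_cases hk : k ≤ i + M.n
  · exact e1 k a hk
  · rw [x_per (i := k - 2 * M.n) (j := k) (by ring), e2 _ (by omega) (by omega)]
    exact x_per (by ring)

/-- `D_eq_one` (move the edge with `A_line`). -/
theorem T_inf_A (ht : t ∈ M.T) (h : t ∈ M.A (M.x k) (M.x (k + 1))) : t = 1 := by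
  exact SP.D_eq_one M.hn M.ap (SP.mem_D_of M.ap (i := k) (j := k + M.n + 1)
    ⟨h, fun l _ _ => mem_T.1 ht l⟩ le_rfl)

theorem T_inf_UU (ht : t ∈ M.T) (h : t ∈ M.UU i j) (hj : j < i + M.n) : t = 1 := by
  exact T_inf_A ht (UU_le_A (k := i + M.n - 1) (by omega) (by omega) h)

/-- `split` (shifted apartment) and `A_eq`. -/
theorem stab_edge (h1 : g • M.x k = M.x k) (h2 : g • M.x (k + 1) = M.x (k + 1)) :
    ∃ a ∈ M.UU (k + 1 - M.n) k, ∃ t ∈ M.T, g = a * t := by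
  obtain ⟨a, ha, e⟩ := M.split _ (M.ap.shift k) g (by simpa using h1)
    (by simpa [add_comm 1 k] using h2)
  refine ⟨a, ?_, a⁻¹ * g, fun l => ?_, by group⟩
  · rw [← A_eq]; simpa [add_comm 1 k] using ha
  · have := e (l - k)
    simp only [sub_add_cancel] at this
    rw [mul_smul, ← this, inv_smul_smul]

/-- `U_tr i` makes `u⁻¹ g` fix `x (i-1)`; `mem_T_of`. -/
theorem stab_root (h : ∀ k, i ≤ k → k ≤ i + M.n → g • M.x k = M.x k) :
    ∃ u ∈ M.U i, ∃ t ∈ M.T, g = u * t := by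
  have h3 := M.three_le'
  obtain ⟨u, hu, e⟩ := U_tr (M := M) i (M.x (i - 1)) (g • M.x (i - 1)) (rtb_adj i)
    (by have := M.adj_smul g (rtb_adj i); rwa [h i le_rfl (by omega)] at this) (rtb_ne i).symm
    (fun e => rtb_ne (M := M) i (smul_left_cancel g
      ((h (i + 1) (by omega) (by omega)).trans e.symm)))
  refine ⟨u, hu, u⁻¹ * g, mem_T_of (i := i - 1) fun k a b => ?_, by group⟩
  rw [mul_smul, inv_smul_eq_iff]
  rcases a.eq_or_lt with rfl | a
  · exact e.symm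
  · rw [h k (by omega) (by omega), U_fix hu (by omega) (by omega)]

/-- `U (i+n) = U (i-n)` fixes `x i, x (i-1), x (i+n)` and is transitive on `Γ(x i) ∖ x (i-1)`
(`U_tr'`).  `a x(i-1) ≠ x(i-1), x (i+1)`.  Choose `l` with `l • a • x (i-1) = x (i+1)` and `r` with
`r • x (i+1) = a⁻¹ • x (i-1)`; `rf_of`. -/
theorem exists_mu (ha : a ∈ M.U i) (h1 : a ≠ 1) :
    ∃ l ∈ M.U (i + M.n), ∃ r ∈ M.U (i + M.n), M.Rf (2 * i) (l * a * r) := by
  have h3 := M.three_le'
  have key : ∀ v ∈ M.U i, v ≠ 1 → M.adj (M.x i) (v • M.x (i - 1)) ∧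
      v • M.x (i - 1) ≠ M.x (i - 1) := fun v hv hv1 =>
    ⟨by have := M.adj_smul v (rtb_adj i); rwa [U_fix hv le_rfl (by omega)] at this,
      fun e => hv1 (U_eq_one hv (rtb_adj i) (rtb_ne i).symm e)⟩
  obtain ⟨l, hl, el⟩ := rtb_tr_opp (M := M) i _ (M.x (i + 1)) (key a ha h1).1 (line.1 i)
    (key a ha h1).2 (rtb_ne i)
  obtain ⟨r, hr, er⟩ := rtb_tr_opp (M := M) i (M.x (i + 1)) _ (line.1 i)
    (key a⁻¹ (inv_mem ha) (inv_ne_one.2 h1)).1 (rtb_ne i) (key a⁻¹ (inv_mem ha) (inv_ne_one.2 h1)).2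
  refine ⟨l, hl, r, hr, rf_of ?_ ?_ ?_⟩
  · rw [mul_smul, mul_smul, er, smul_inv_smul, (rtb_fix_opp hl).2]
  · rw [mul_smul, mul_smul, (rtb_fix_opp hr).2, el]
  · rw [mul_smul, mul_smul, U_fix hr le_rfl (by omega), U_fix ha (by omega) le_rfl,
      U_fix hl le_rfl (by omega)]

/-- `exists_mu` for `i + n`, `U_per`, `Rf.per`. -/
theorem exists_mu' (hb : b ∈ M.U (i + M.n)) (h1 : b ≠ 1) :
    ∃ l ∈ M.U i, ∃ r ∈ M.U i, M.Rf (2 * i) (l * b * r) := by
  obtain ⟨l, hl, r, hr, h⟩ := exists_mu hb h1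
  rw [U_per (i := i) (by ring)] at hl hr
  exact ⟨l, hl, r, hr, h.per (Or.inr (by ring))⟩

/-- both `l, l'` send `a x (i-1)` to `x (i+1)` (`U_eq_one'` for `U (i-n)`); then `r, r'` agree on
`x (i+1)`. -/
theorem mu_uniq {l r l' r' : G} (ha : a ∈ M.U i) (hl : l ∈ M.U (i + M.n)) (hr : r ∈ M.U (i + M.n))
    (hl' : l' ∈ M.U (i + M.n)) (hr' : r' ∈ M.U (i + M.n)) (h : M.Rf (2 * i) (l * a * r))
    (h' : M.Rf (2 * i) (l' * a * r')) : l = l' ∧ r = r' := by
  have h3 := M.three_le'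
  obtain ⟨a1, a2⟩ := rtb_swap h
  obtain ⟨b1, b2⟩ := rtb_swap h'
  rw [mul_smul, mul_smul, (rtb_fix_opp hr).2] at a2
  rw [mul_smul, mul_smul, (rtb_fix_opp hr').2] at b2
  have e : l'⁻¹ * l = 1 := by
    refine rtb_eq_one_opp (mul_mem (inv_mem hl') hl) (z := a • M.x (i - 1)) ?_ ?_ ?_
    · have := M.adj_smul a (rtb_adj i); rwa [U_fix ha le_rfl (by omega)] at this
    · intro e
      rw [e, (rtb_fix_opp hl).2] at a2
      exact rtb_ne i a2.symm
    · rw [mul_smul, a2, ← b2, inv_smul_smul]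
  obtain rfl : l = l' := (inv_mul_eq_one.1 e).symm
  refine ⟨rfl, (inv_mul_eq_one.1 (rtb_eq_one_opp (mul_mem (inv_mem hr') hr) (line.1 i) (rtb_ne i)
    ?_)).symm⟩
  rw [mul_smul (l * a)] at a1 b1
  rw [mul_smul, smul_left_cancel (l * a) (a1.trans b1.symm), inv_smul_smul]

/-- if `a = 1` (or `l = 1`, `r = 1`) the product cannot swap `x (i-1)` and `x (i+1)`. -/
theorem mu_ne {l r : G} (ha : a ∈ M.U i) (hl : l ∈ M.U (i + M.n)) (hr : r ∈ M.U (i + M.n))
    (h : M.Rf (2 * i) (l * a * r)) : a ≠ 1 ∧ l ≠ 1 ∧ r ≠ 1 := by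
  have h3 := M.three_le'
  obtain ⟨a1, a2⟩ := rtb_swap h
  rw [mul_smul, mul_smul, (rtb_fix_opp hr).2] at a2
  refine ⟨?_, ?_, ?_⟩
  · rintro rfl
    rw [one_smul, (rtb_fix_opp hl).2] at a2
    exact rtb_ne i a2.symm
  · rintro rfl
    rw [one_smul] at a2
    exact rtb_ne i (smul_left_cancel a ((U_fix ha (by omega) (by omega)).trans a2.symm))
  · rintro rfl
    rw [mul_one, mul_smul, U_fix ha (by omega) (by omega)] at a1
    exact rtb_ne i (smul_left_cancel l (a1.trans (rtb_fix_opp hl).2.symm))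

/-- `m = l a r`, `u' = m u m⁻¹ ∈ U (i+1)`.  `r` commutes with `u`, so `a u a⁻¹ = l⁻¹ u' l`, hence
`u'⁻¹ ⁅a,u⁆ = ⁅u'⁻¹, l⁻¹⁆ u⁻¹ ∈ UU (i+2) (i+n-1)`; it is also in `UU (i+1) (i+n-2)`; `mem_UU_inf`. -/
theorem comm_first {l r : G} (ha : a ∈ M.U i) (hl : l ∈ M.U (i + M.n)) (hr : r ∈ M.U (i + M.n))
    (h : M.Rf (2 * i) (l * a * r)) (hu : u ∈ M.U (i + M.n - 1)) :
    (l * a * r * u * (l * a * r)⁻¹)⁻¹ * ⁅a, u⁆ ∈ M.UU (i + 2) (i + M.n - 2) := by
  have h3 := M.three_le'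
  have hu' : l * a * r * u * (l * a * r)⁻¹ ∈ M.U (i + 1) := by
    rw [U_per (i := i + 1 - 2 * M.n) (by ring)]
    exact h.conj_U hu (by ring)
  have hc : u * r = r * u := commute_succ hu hr (by ring)
  refine mem_UU_inf (i := i + 1) (j' := i + M.n - 1) ?_ ?_ (by omega) (by omega) (by omega)
  · refine mul_mem (inv_mem (U_le_UU le_rfl (by omega) hu')) ?_
    exact UU_mono le_rfl (by omega) (comm ha hu (by omega) (by omega))
  · have e : (l * a * r * u * (l * a * r)⁻¹)⁻¹ * ⁅a, u⁆ =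
        ⁅(l * a * r * u * (l * a * r)⁻¹)⁻¹, l⁻¹⁆ * u⁻¹ := by
      have : l * a * r * u * (l * a * r)⁻¹ = l * a * u * (l * a)⁻¹ := by
        rw [mul_assoc (l * a) r u, ← hc]; group
      rw [this, commutatorElement_def, commutatorElement_def]; group
    rw [e]
    refine mul_mem (UU_mono (by omega) le_rfl (comm (inv_mem hu') (inv_mem hl) (by omega)
      (by omega))) (inv_mem (U_le_UU (by omega) le_rfl hu))

/-- mirror image: `m = l b r`, `u' = m u m⁻¹ ∈ U (i+n-2)`, `b u b⁻¹ = l⁻¹ u' l`,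
`⁅b,u⁆ u'⁻¹ = ⁅l⁻¹,u'⁆ u' u⁻¹ u'⁻¹ ∈ UU i (i+n-3)`, also in `UU (i+1) (i+n-2)`. -/
theorem comm_last {l r : G} (hb : b ∈ M.U (i + M.n - 1)) (hl : l ∈ M.U (i - 1))
    (hr : r ∈ M.U (i - 1)) (h : M.Rf (2 * (i - 1)) (l * b * r)) (hu : u ∈ M.U i) :
    ⁅b, u⁆ * (l * b * r * u * (l * b * r)⁻¹)⁻¹ ∈ M.UU (i + 1) (i + M.n - 3) := by
  have h3 := M.three_le'
  have hu' : l * b * r * u * (l * b * r)⁻¹ ∈ M.U (i + M.n - 2) := by
    rw [U_per (i := i - M.n - 2) (by ring)]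
    exact h.conj_U hu (by ring)
  have hc : r * u = u * r := commute_succ hr hu (by ring)
  refine mem_UU_inf (i := i) (j' := i + M.n - 2) ?_ ?_ (by omega) (by omega) (by omega)
  · have e : ⁅b, u⁆ * (l * b * r * u * (l * b * r)⁻¹)⁻¹ =
        ⁅l⁻¹, l * b * r * u * (l * b * r)⁻¹⁆ * (l * b * r * u * (l * b * r)⁻¹ * u⁻¹ *
          (l * b * r * u * (l * b * r)⁻¹)⁻¹) := by
      have : l * b * r * u * (l * b * r)⁻¹ = l * b * u * (l * b)⁻¹ := by
        rw [mul_assoc (l * b) r u, hc]; group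
      rw [this, commutatorElement_def, commutatorElement_def]; group
    rw [e]
    refine mul_mem (UU_mono (by omega) (by omega) (comm (inv_mem hl) hu' (by omega) (by omega)))
      (conj_UU (inv_mem (U_le_UU le_rfl (by omega) hu)) (by omega) hu' (by omega) (by omega))
  · refine mul_mem ?_ (inv_mem (U_le_UU (by omega) le_rfl hu'))
    rw [← commutatorElement_inv]
    exact inv_mem (UU_mono le_rfl (by omega) (comm hu hb (by omega) (by omega)))

/-- if `⁅a,u⁆` has trivial first component then `a = 1` or `u = 1` (`comm_first`, `U_inf_UU`). -/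
theorem first_ne (ha : a ∈ M.U i) (hu : u ∈ M.U (i + M.n - 1))
    (h : ⁅a, u⁆ ∈ M.UU (i + 2) (i + M.n - 2)) : a = 1 ∨ u = 1 := by
  have h3 := M.three_le'
  refine or_iff_not_imp_left.2 fun h1 => ?_
  obtain ⟨l, hl, r, hr, hm⟩ := exists_mu ha h1
  have hu' : l * a * r * u * (l * a * r)⁻¹ ∈ M.U (i + 1) := by
    rw [U_per (i := i + 1 - 2 * M.n) (by ring)]
    exact hm.conj_U hu (by ring)
  have h2 := mul_mem (comm_first ha hl hr hm hu) (inv_mem h)
  rw [mul_inv_cancel_right, inv_mem_iff] at h2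
  exact conj_eq_one_iff.1 (U_inf_UU hu' (UU_mono (by omega) le_rfl h2) (by omega))

theorem last_ne (ha : a ∈ M.U i) (hu : u ∈ M.U (i + M.n - 1))
    (h : ⁅a, u⁆ ∈ M.UU (i + 1) (i + M.n - 3)) : a = 1 ∨ u = 1 := by
  have h3 := M.three_le'
  refine or_iff_not_imp_right.2 fun h1 => ?_
  obtain ⟨l, hl, r, hr, hm⟩ := exists_mu' (i := i - 1) (b := u)
    (by rwa [show i - 1 + M.n = i + M.n - 1 by ring]) h1
  have hu' : l * u * r * a * (l * u * r)⁻¹ ∈ M.U (i + M.n - 2) := by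
    rw [U_per (i := i - M.n - 2) (by ring)]
    exact hm.conj_U ha (by ring)
  have h2 := mul_mem h (comm_last hu hl hr hm ha)
  rw [← commutatorElement_inv a u, mul_inv_cancel_left, inv_mem_iff] at h2
  exact conj_eq_one_iff.1 (U_inf_UU' (i := i + 1) hu' (UU_mono le_rfl (by omega) h2) (by omega))

/-- an element `u ∈ U j` centralising `U i` and `U (i+n)` commutes with a `μ`-element, so
`u ∈ U j ⊓ U (2i + n - j)`, which is trivial unless `2 j = 2 i + n`. -/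
theorem eq_one_of_cent (hu : u ∈ M.U j) (h1 : i < j) (h2 : j < i + M.n) (h3 : 2 * j ≠ 2 * i + M.n)
    (c1 : ∀ a ∈ M.U i, Commute u a) (c2 : ∀ a ∈ M.U (i + M.n), Commute u a) : u = 1 := by
  obtain ⟨a, ha, ha1⟩ := exists_U (M := M) i
  obtain ⟨l, hl, r, hr, hm⟩ := exists_mu ha ha1
  have hc : Commute u (l * a * r) := ((c2 l hl).mul_right (c1 a ha)).mul_right (c2 r hr)
  have hu' : u ∈ M.U (2 * i + M.n - j) := by
    rw [U_per (i := 2 * i - M.n - j) (by ring)]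
    have := hm.conj_U hu rfl
    rwa [← hc.eq, mul_inv_cancel_right] at this
  rcases lt_or_gt_of_ne h3 with h | h
  · exact U_inf_UU hu (U_le_UU (by omega) le_rfl hu') (by omega)
  · exact U_inf_UU hu' (U_le_UU (by omega) le_rfl hu) (by omega)

/-- `→`: `⁅t,u⁆ ∈ U i` fixes `x (i-1)`.  `←`: every neighbour of `x i` is `x (i+1)` or
`u • x (i-1)`. -/
theorem T_K_iff (ht : t ∈ M.T) : t ∈ M.K (M.x i) ↔ ∀ u ∈ M.U i, Commute t u := by
  have h3 := M.three_le'
  constructor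
  · intro hK u hu
    have hu1 : M.adj (M.x i) (u⁻¹ • M.x (i - 1)) := by
      have := M.adj_smul u⁻¹ (rtb_adj i); rwa [U_fix (inv_mem hu) le_rfl (by omega)] at this
    have := U_eq_one (mul_mem (T_conj_U ht hu) (inv_mem hu)) (rtb_adj i) (rtb_ne i).symm (by
      rw [mul_smul, mul_smul, mul_smul, (inv_mem hK : t⁻¹ ∈ M.K (M.x i)).2 _ hu1, smul_inv_smul,
        mem_T.1 ht])
    exact commutatorElement_eq_one_iff_commute.1 this
  · intro h
    refine ⟨mem_T.1 ht i, fun z hz => ?_⟩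
    by_cases e : z = M.x (i + 1)
    · rw [e, mem_T.1 ht]
    · obtain ⟨u, hu, rfl⟩ := U_tr (M := M) i (M.x (i - 1)) z (rtb_adj i) hz (rtb_ne i).symm e
      rw [← mul_smul, (h u hu).eq, mul_smul, mem_T.1 ht]

/-- every neighbour of `x (i+n)` is `x (i+n-1)` or `u • x (i+n+1)`, `u ∈ U i`; then `T_K_iff`. -/
theorem T_cent_opp (ht : t ∈ M.T) (h : ∀ u ∈ M.U i, Commute t u) (e : j = i + M.n) :
    ∀ u ∈ M.U j, Commute t u := by
  subst e
  refine (T_K_iff ht).1 ⟨mem_T.1 ht _, fun z hz => ?_⟩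
  by_cases e : z = M.x (i + M.n - 1)
  · rw [e, mem_T.1 ht]
  · obtain ⟨u, hu, rfl⟩ := U_tr' (M := M) i (M.x (i + M.n + 1)) z (line.1 _) hz (rtb_ne _) e
    rw [← mul_smul, (h u hu).eq, mul_smul, mem_T.1 ht]

/-- `Pol.eq_one`. -/
theorem T_rigid (ht : t ∈ M.T) (h1 : ∀ u ∈ M.U i, Commute t u)
    (h2 : ∀ u ∈ M.U (i + 1), Commute t u) : t = 1 := by
  have h3 := M.three_le'
  exact Pol.eq_one line (a := i) (k := i) (fun k _ _ => mem_T.1 ht k) le_rfl (by omega)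
    ((T_K_iff ht).2 h1) ((T_K_iff ht).2 h2)

/-- an element commuting with `1 ≠ u ∈ U i` and fixing `x i` fixes `x (i+1)` (the unique fixed
neighbour of `u`); same at the other end. -/
theorem fix_of_commute (hu : u ∈ M.U i) (h1 : u ≠ 1) (hc : Commute g u) :
    (g • M.x i = M.x i → g • M.x (i + 1) = M.x (i + 1)) ∧
    (g • M.x (i + M.n) = M.x (i + M.n) → g • M.x (i + M.n - 1) = M.x (i + M.n - 1)) := by
  have h3 := M.three_le'
  constructor
  · intro hg
    by_contra e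
    refine h1 (U_eq_one hu ?_ e ?_)
    · have := M.adj_smul g (line.1 i); rwa [hg] at this
    · rw [← mul_smul, ← hc.eq, mul_smul, U_fix hu (by omega) (by omega)]
  · intro hg
    by_contra e
    refine h1 (U_eq_one' hu ?_ e ?_)
    · have := M.adj_smul g (rtb_adj (i + M.n)); rwa [hg] at this
    · rw [← mul_smul, ← hc.eq, mul_smul, U_fix hu (by omega) (by omega)]

theorem Gen.shift (h : M.Gen) (c : ℤ) : (M.shift c).Gen := by
  refine top_le_iff.1 (Eq.trans_le (Eq.symm h) (iSup_le fun k => le_iSup_of_le (k - c) ?_))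
  rw [U_shift, sub_add_cancel]

theorem Gen.rev (h : M.Gen) (c : ℤ) : (M.rev c).Gen := by
  refine top_le_iff.1 (Eq.trans_le (Eq.symm h) (iSup_le fun k => le_iSup_of_le (c - M.n - k) ?_))
  rw [U_rev, sub_sub_cancel]

theorem UU_shift (c i j : ℤ) : (M.shift c).UU i j = M.UU (i + c) (j + c) := by
  refine le_antisymm (UU_le fun k a b => ?_) (UU_le fun k a b => ?_)
  · rw [U_shift]; exact U_le_UU (by omega) (by omega)
  · rw [show k = k - c + c by ring, ← U_shift]; exact U_le_UU (by omega) (by omega)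

theorem UU_rev (c i j : ℤ) : (M.rev c).UU i j = M.UU (c - M.n - j) (c - M.n - i) := by
  refine le_antisymm (UU_le fun k a b => ?_) (UU_le fun k a b => ?_)
  · rw [U_rev]; exact U_le_UU (by omega) (by omega)
  · rw [show k = c - M.n - (c - M.n - k) by ring, ← U_rev]; exact U_le_UU (by omega) (by omega)

theorem T_shift (c : ℤ) : (M.shift c).T = M.T := by
  ext g
  exact ⟨fun h k => by simpa [shift_x] using h (k - c), fun h k => h (k + c)⟩

theorem T_rev (c : ℤ) : (M.rev c).T = M.T := by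
  ext g
  exact ⟨fun h k => by simpa [rev_x] using h (c - k), fun h k => h (c - k)⟩

theorem L_shift (c i : ℤ) : (M.shift c).L i = M.L (i + c) := by
  rw [L, L, U_shift, U_shift, shift_n, add_right_comm i]

end MP

end Cfsg.Agent.BN2
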