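import Cfsg.Agent.BN2.RtB

/-!
# `SL₂`-coordinates of a rank one group (S1144)

API for `MP.S2` (see `RootSub/Steinberg2`: `StRel`, `w_x, w_y, h_x, h_y, w_eq, bruhat,
exists_hom`).  Lemmas of `StRel` that need `hgen` are obtained through
`φ : SL(2,F) →* G` (`exists_hom`) from `stRel_sl2` (where `xx, yy` generate; or apply them in the
subgroup `L i`).
-/

set_option autoImplicit false
set_option linter.unusedSectionVars false
set_option linter.unusedVariables false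

namespace Cfsg.Agent.BN2

open scoped commutatorElement MatrixGroups
open Cfsg.Agent.RootSub

/-- Dedekind: an additive family of nonzero semilinear maps containing the identity is linear.
For `l ≠ 0`: `φ (l+1) = φ l + id`; if `l + 1 = 0` then `c σ + id = 0`, otherwise
`c' σ' = c σ + id`; `linearIndependent_monoidHom` (distinct ring homs are independent) forces
`σ = id`. -/
theorem lin_of_add {F K : Type*} [Field F] [Field K] (φ : F → K → K)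
    (h0 : ∀ u, φ 0 u = 0) (h1 : ∀ u, φ 1 u = u) (ha : ∀ l k u, φ (l + k) u = φ l u + φ k u)
    (hs : ∀ l, l ≠ 0 → ∃ (c : K) (σ : K ≃+* K), c ≠ 0 ∧ ∀ u, φ l u = c * σ u) (l : F) (u : K) :
    φ l u = φ l 1 * u := by
  by_cases hl : l = 0
  · rw [hl, h0, h0, zero_mul]
  obtain ⟨c, σ, hc, e⟩ := hs l hl
  suffices σ u = u by rw [e, e, this, map_one, mul_one]
  have k : ∀ u, φ (l + 1) u = c * σ u + u := fun u => by rw [ha, e, h1]
  by_cases hl' : l + 1 = 0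
  · have e1 := k 1
    have e2 := k u
    rw [hl', h0] at e1 e2
    rw [map_one] at e1
    linear_combination e2 - σ u * e1
  · obtain ⟨c', σ', -, e'⟩ := hs _ hl'
    have e1 := (e' 1).symm.trans (k 1)
    have e2 := (e' u).symm.trans (k u)
    have e3 := (e' (u * u)).symm.trans (k (u * u))
    rw [map_one, map_one] at e1
    rw [map_mul, map_mul] at e3
    have : c * (σ u - u) ^ 2 = 0 := by
      linear_combination (c' * σ' u + (c * σ u + u)) * e2 - c' * e3 -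
        (c * (σ u * σ u) + u * u) * e1
    exact sub_eq_zero.1 (pow_eq_zero_iff two_ne_zero |>.1 ((mul_eq_zero.1 this).resolve_left hc))

section abs

variable {Γ : Type*} [Group Γ] {N : Subgroup Γ} [N.Normal] {X X' Y a b b' a' P Q R : Γ}

theorem qm_key (e1 : a⁻¹ * ⁅X, b⁆ ∈ N) (e2 : b'⁻¹ * ⁅Y, a⁆ ∈ N) (e3 : a'⁻¹ * ⁅X, b' * b⁆ ∈ N)
    (c1 : ⁅Y, b⁆ ∈ N) (c2 : ⁅X, a⁆ ∈ N) (c3 : ⁅a, b'⁆ ∈ N)
    (ind : (X * Y * X * b * (X * Y * X)⁻¹)⁻¹ * (a * a') * (b' * b) ∈ N →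
      (X * Y * X * b * (X * Y * X)⁻¹)⁻¹ * (a * a') ∈ N) :
    (X * Y * X * b * (X * Y * X)⁻¹)⁻¹ * ⁅X, b⁆ ∈ N := by
  simp only [← QuotientGroup.eq_one_iff, commutatorElement_def, QuotientGroup.mk_mul,
    QuotientGroup.mk_inv] at *
  generalize (X : Γ ⧸ N) = X, (Y : Γ ⧸ N) = Y, (a : Γ ⧸ N) = a, (b : Γ ⧸ N) = b,
    (a' : Γ ⧸ N) = a', (b' : Γ ⧸ N) = b' at *
  rw [inv_mul_eq_one, eq_mul_inv_iff_mul_eq] at e1 e2 e3
  rw [mul_inv_eq_one] at c1 c2 c3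
  have k : X * Y * X * b * (X * Y * X)⁻¹ = a * a' * (b' * b) :=
    calc _ = X * (Y * (X * b * X⁻¹) * Y⁻¹) * X⁻¹ := by group
      _ = X * (Y * a * Y⁻¹ * (Y * b * Y⁻¹)) * X⁻¹ := by rw [← e1]; group
      _ = X * a * X⁻¹ * (X * (b' * b) * X⁻¹) := by
        rw [← e2, c1, ← mul_inv_eq_iff_eq_mul.1 c3]; group
      _ = _ := by rw [c2, ← e3]; group
  have h := ind (by rw [k]; group)
  rw [k, inv_mul_eq_one, mul_eq_left] at h
  rw [h, mul_one, mul_one, mul_inv_cancel] at e3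
  rw [k, h, e3, ← e1]
  group

theorem qm_add (e1 : a⁻¹ * ⁅X, b⁆ ∈ N) (c : ⁅X', a⁆ ∈ N) (k1 : P⁻¹ * ⁅X' * X, b⁆ ∈ N)
    (k2 : Q⁻¹ * ⁅X, b⁆ ∈ N) (k3 : R⁻¹ * ⁅X', b⁆ ∈ N) : P⁻¹ * (Q * R) ∈ N := by
  simp only [← QuotientGroup.eq_one_iff, commutatorElement_def, QuotientGroup.mk_mul,
    QuotientGroup.mk_inv, inv_mul_eq_one] at *
  rw [mul_inv_eq_one, e1] at c
  rw [k1, k2, k3, ← c]
  group

end abs

namespace MP

variable {G V : Type} [Group G] [MulAction G V] [Finite G] [Finite V] {M : MP G V}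

variable (M) in
/-- `A B / N` is a quadratic module for `L i`. -/
structure QM (i : ℤ) (A B N : Subgroup G) : Prop where
  nA : ∀ a ∈ A, ∀ n ∈ N, a * n * a⁻¹ ∈ N
  nB : ∀ a ∈ B, ∀ n ∈ N, a * n * a⁻¹ ∈ N
  nU : ∀ a ∈ M.U i, ∀ n ∈ N, a * n * a⁻¹ ∈ N
  nV : ∀ a ∈ M.U (i + M.n), ∀ n ∈ N, a * n * a⁻¹ ∈ N
  AA : ∀ a ∈ A, ∀ b ∈ A, ⁅a, b⁆ ∈ N
  AB : ∀ a ∈ A, ∀ b ∈ B, ⁅a, b⁆ ∈ N
  BB : ∀ a ∈ B, ∀ b ∈ B, ⁅a, b⁆ ∈ N
  ind : ∀ a ∈ A, ∀ b ∈ B, a * b ∈ N → a ∈ N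
  UA : ∀ u ∈ M.U i, ∀ a ∈ A, ⁅u, a⁆ ∈ N
  UB : ∀ u ∈ M.U i, ∀ b ∈ B, ∃ a ∈ A, a⁻¹ * ⁅u, b⁆ ∈ N
  VB : ∀ u ∈ M.U (i + M.n), ∀ b ∈ B, ⁅u, b⁆ ∈ N
  VA : ∀ u ∈ M.U (i + M.n), ∀ a ∈ A, ∃ b ∈ B, b⁻¹ * ⁅u, a⁆ ∈ N
  mA : ∀ m, M.Rf (2 * i) m → ∀ a ∈ A, m * a * m⁻¹ ∈ B
  mB : ∀ m, M.Rf (2 * i) m → ∀ b ∈ B, m * b * m⁻¹ ∈ A

theorem QM.nor {N : Subgroup G} {a : G} (h : ∀ n ∈ N, a * n * a⁻¹ ∈ N) :
    a ∈ Subgroup.normalizer (N : Set G) := Subgroup.mem_normalizer_fintype h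

theorem QM.nL {i : ℤ} {A B N : Subgroup G} (Q : M.QM i A B N) :
    M.L i ≤ Subgroup.normalizer (N : Set G) :=
  sup_le (fun a ha => QM.nor (Q.nU a ha)) fun a ha => QM.nor (Q.nV a ha)

namespace S2

variable {i : ℤ} {F : Type} [Field F] [Finite F] (E : M.S2 i F) {s t u : F} {g : G}

/-- `x` with values in `L i` -/
def xL (t : F) : M.L i := ⟨E.x t, U_le_L i (E.xm t)⟩

/-- `y` with values in `L i` -/
def yL (t : F) : M.L i := ⟨E.y t, U_le_L' i (E.ym t)⟩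

theorem stL : StRel E.xL E.yL :=
  ⟨fun t u => Subtype.ext (E.st.xadd t u), fun t u => Subtype.ext (E.st.yadd t u),
    fun t u h => Subtype.ext (E.st.wx t u h), fun t u h => Subtype.ext (E.st.wy t u h)⟩

theorem L_le {H : Subgroup G} (h1 : ∀ t, E.x t ∈ H) (h2 : ∀ t, E.y t ∈ H) : M.L i ≤ H :=
  sup_le (fun g hg => (E.xs g hg).elim fun t e => e ▸ h1 t)
    fun g hg => (E.ys g hg).elim fun t e => e ▸ h2 t

theorem genL : Subgroup.closure (Set.range E.xL ∪ Set.range E.yL) = ⊤ :=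
  eq_top_iff.2 fun g _ => by
    obtain ⟨k, hk, e⟩ := E.L_le (H := (Subgroup.closure (Set.range E.xL ∪ Set.range E.yL)).map
      (M.L i).subtype) (fun t => ⟨_, Subgroup.subset_closure (Or.inl ⟨t, rfl⟩), rfl⟩)
      (fun t => ⟨_, Subgroup.subset_closure (Or.inr ⟨t, rfl⟩), rfl⟩) g.2
    exact (Subtype.ext e : k = g) ▸ hk

theorem x_add (t u : F) : E.x (t + u) = E.x t * E.x u := (E.st.xadd t u).symm

theorem y_add (t u : F) : E.y (t + u) = E.y t * E.y u := (E.st.yadd t u).symm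

theorem x_zero : E.x 0 = 1 := E.st.x_zero

theorem y_zero : E.y 0 = 1 := E.st.y_zero

theorem x_neg (t : F) : E.x (-t) = (E.x t)⁻¹ := (E.st.x_inv t).symm

theorem y_neg (t : F) : E.y (-t) = (E.y t)⁻¹ := (E.st.y_inv t).symm

theorem x_inj : Function.Injective E.x := fun t u e =>
  sub_eq_zero.1 (E.xi _ (by rw [sub_eq_add_neg, x_add, x_neg, e, mul_inv_cancel]))

theorem y_inj : Function.Injective E.y := fun t u e =>
  sub_eq_zero.1 (E.yi _ (by rw [sub_eq_add_neg, y_add, y_neg, e, mul_inv_cancel]))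

include E in
theorem card : Nat.card F = Nat.card (M.U i) :=
  Nat.card_congr (Equiv.ofBijective (fun t => ⟨E.x t, E.xm t⟩)
    ⟨fun _ _ e => E.x_inj (congrArg Subtype.val e),
      fun g => (E.xs g g.2).imp fun _ e => Subtype.ext e⟩)

include E in
/-- `x 1` has `p`-power order (`pow_U`), so `(p : F) ^ k = 0`. -/
theorem charP : CharP F M.p := by
  have h : ∀ n : ℕ, E.x n = E.x 1 ^ n := fun n => by
    induction n with
    | zero => rw [Nat.cast_zero, x_zero, pow_zero]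
    | succ n ih => rw [Nat.cast_succ, x_add, ih, pow_succ]
  obtain ⟨k, hk⟩ := pow_U (E.xm 1)
  have := E.xi _ ((h _).trans hk)
  rw [Nat.cast_pow] at this
  exact (CharP.charP_iff_prime_eq_zero M.prime).2 (pow_eq_zero_iff'.1 this).1

theorem w_x (ht : t ≠ 0) (u : F) : E.w t * E.x u * (E.w t)⁻¹ = E.y (-(t⁻¹ ^ 2 * u)) :=
  E.st.wx t u ht

theorem w_y (ht : t ≠ 0) (u : F) : E.w t * E.y u * (E.w t)⁻¹ = E.x (-(t ^ 2 * u)) :=
  mul_inv_eq_iff_eq_mul.2 (E.st.w_y ht u)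

theorem h_x (ht : t ≠ 0) (u : F) : E.h t * E.x u * (E.h t)⁻¹ = E.x (t ^ 2 * u) :=
  mul_inv_eq_iff_eq_mul.2 (E.st.h_x ht u)

theorem h_y (ht : t ≠ 0) (u : F) : E.h t * E.y u * (E.h t)⁻¹ = E.y (t⁻¹ ^ 2 * u) :=
  mul_inv_eq_iff_eq_mul.2 (E.st.h_y ht u)

theorem w_eq (ht : t ≠ 0) : E.w t = E.y (-t⁻¹) * E.x t * E.y (-t⁻¹) := E.st.w_eq ht

theorem w_inv (t : F) : (E.w t)⁻¹ = E.w (-t) := E.st.w_inv t

theorem w_eq_h (t : F) : E.w t = E.h t * E.w 1 := (inv_mul_cancel_right _ _).symm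

theorem h_one : E.h 1 = 1 := StRel.h_one

theorem h_mul (hs : s ≠ 0) (ht : t ≠ 0) : E.h (s * t) = E.h s * E.h t :=
  congrArg Subtype.val (E.stL.h_mul E.genL hs ht)

theorem h_inv (ht : t ≠ 0) : E.h t⁻¹ = (E.h t)⁻¹ :=
  eq_inv_of_mul_eq_one_left (by rw [← E.h_mul (inv_ne_zero ht) ht, inv_mul_cancel₀ ht, h_one])

theorem h_comm (hs : s ≠ 0) (ht : t ≠ 0) : Commute (E.h s) (E.h t) :=
  congrArg Subtype.val (E.stL.h_comm E.genL hs ht)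

theorem w_h (hs : s ≠ 0) (ht : t ≠ 0) : E.w s * E.h t * (E.w s)⁻¹ = (E.h t)⁻¹ := by
  have e1 : E.w s * E.h t = E.w (s * t⁻¹) := congrArg Subtype.val (E.stL.w_h E.genL hs ht)
  have e2 : E.w (s * t⁻¹) * E.w (-s) = E.h (-(s * t⁻¹ * (-s)⁻¹)) := congrArg Subtype.val
    (E.stL.w_mul_w E.genL (mul_ne_zero hs (inv_ne_zero ht)) (neg_ne_zero.2 hs))
  rw [e1, w_inv, e2, ← E.h_inv ht]
  congr 1
  field_simp

theorem w_sq (ht : t ≠ 0) : E.w t * E.w t = E.h (-1) := by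
  have e : E.w t * E.w t = E.h (-(t * t⁻¹)) := congrArg Subtype.val (E.stL.w_mul_w E.genL ht ht)
  rwa [mul_inv_cancel₀ ht] at e

theorem w_mem (t : F) : E.w t ∈ M.L i := (StRel.w E.xL E.yL t).2

theorem h_mem (t : F) : E.h t ∈ M.L i := (StRel.h E.xL E.yL t).2

/-- `w = w t` fixes `x i, x (i+n)` (`L_fix`).  `x 1 = w (y _) w⁻¹` fixes `w • x (i-1)`, so
`w • x (i-1) = x (i+1)` (`U_eq_one`); likewise `w • x (i+1) = x (i-1)` (`U_eq_one'` for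
`U (i+n) = U (i-n)`); `rf_of`. -/
theorem rf (ht : t ≠ 0) : M.Rf (2 * i) (E.w t) := by
  obtain ⟨h1, h2⟩ := L_fix (E.w_mem t)
  refine rf_of ?_ ?_ h2 <;> by_contra k
  · refine pow_ne_zero 2 (inv_ne_zero ht) ?_
    have := E.yi _ (rtb_eq_one_opp (E.ym (-(t⁻¹ ^ 2 * 1)))
      (h1 ▸ M.adj_smul (E.w t) (line.adj' rfl)) k (by
        rw [← E.w_x ht, mul_smul, inv_smul_smul, mul_smul,
          U_fix (E.xm 1) (by omega) (by have := M.three_le'; omega)]))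
    rwa [neg_eq_zero, mul_one] at this
  · refine pow_ne_zero 2 ht ?_
    have := E.xi _ (U_eq_one (E.xm (-(t ^ 2 * 1))) (h1 ▸ M.adj_smul (E.w t) (rtb_adj i)) k (by
        rw [← E.w_y ht, mul_smul, inv_smul_smul, mul_smul, (rtb_fix_opp (E.ym 1)).2]))
    rwa [neg_eq_zero, mul_one] at this

theorem h_T (ht : t ≠ 0) : E.h t ∈ M.T := (E.rf ht).mul_mem_T (E.rf one_ne_zero).inv

/-- `mu_uniq`, `w_eq`, `rf`. -/
theorem mu (ht : t ≠ 0) {l r : G} (hl : l ∈ M.U (i + M.n)) (hr : r ∈ M.U (i + M.n))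
    (h : M.Rf (2 * i) (l * E.x t * r)) : l = E.y (-t⁻¹) ∧ r = E.y (-t⁻¹) ∧ l * E.x t * r = E.w t := by
  obtain ⟨h1, h2⟩ := mu_uniq (E.xm t) hl hr (E.ym _) (E.ym _) h (E.w_eq ht ▸ E.rf ht)
  exact ⟨h1, h2, by rw [h1, h2, E.w_eq ht]⟩

/-- `bruhat` in `L i`: `x a * w t * x b` sends `x (i+1)` to `x a • x (i-1) ≠ x (i+1)`, and
`x a * h t ∈ T` gives `x a ∈ T`, `T_inf_UU`. -/
theorem T_inf_L (hg : g ∈ M.T) (hL : g ∈ M.L i) : ∃ t, t ≠ 0 ∧ g = E.h t := by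
  have h3 := M.three_le'
  rcases E.stL.bruhat E.genL ⟨g, hL⟩ with ⟨a, t, ht, e⟩ | ⟨a, t, b, ht, e⟩
  · have e : g = E.x a * E.h t := congrArg Subtype.val e
    have := T_inf_UU ((mul_mem_cancel_right (E.h_T ht)).1 (e ▸ hg))
      (U_le_UU le_rfl le_rfl (E.xm a)) (by omega)
    exact ⟨t, ht, by rw [e, this, one_mul]⟩
  · have e : g = E.x a * E.w t * E.x b := congrArg Subtype.val e
    have := hg (i + 1)
    rw [e, mul_smul, mul_smul, U_fix (E.xm b) (by omega) (by omega), (rtb_swap (E.rf ht)).1,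
      ← U_fix (k := i + 1) (E.xm a) (by omega) (by omega)] at this
    exact absurd (smul_left_cancel _ this).symm (rtb_ne i)

/-- an element commuting with `U i` and `U (i+n)` commutes with `L i` -/
theorem commute_L {M : MP G V} {i : ℤ} {g l : G} (h1 : ∀ u ∈ M.U i, Commute g u)
    (h2 : ∀ u ∈ M.U (i + M.n), Commute g u) (hl : l ∈ M.L i) : Commute g l :=
  (Subgroup.mem_centralizer_singleton_iff.1 ((sup_le (fun u hu =>
    Subgroup.mem_centralizer_singleton_iff.2 (h1 u hu).symm) fun u hu =>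
    Subgroup.mem_centralizer_singleton_iff.2 (h2 u hu).symm :
      M.L i ≤ Subgroup.centralizer {g}) hl)).symm

/-- The torus acts semilinearly.  `g x(u) g⁻¹ = x (φ u)`, `g y(u) g⁻¹ = y (ψ u)` with additive
bijections.  `g (y(-u⁻¹) x(u) y(-u⁻¹)) g⁻¹` is `Rf (2i)`, so by `mu`: `ψ (-u⁻¹) = -(φ u)⁻¹` and
`g w(u) g⁻¹ = w (φ u)`.  Hence `g h(l) g⁻¹ = w (φ l) w(φ 1)⁻¹ = h (φ l / φ 1)`; conjugating `h_x`:
`φ (l² u) = (φ l / φ 1)² φ u`.  With `σ = φ / φ 1`: `σ (l² u) = σ(l)² σ(u)`; in characteristic two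
every element is a square; otherwise replace `l` by `l + 1` to get `σ (2 l u) = 2 σ l σ u`
(`l = 0, -1` are trivial). -/
theorem semi (hg : g ∈ M.T) : ∃ (c : F) (σ : F ≃+* F), c ≠ 0 ∧
    (∀ u, g * E.x u * g⁻¹ = E.x (c * σ u)) ∧ (∀ u, g * E.y u * g⁻¹ = E.y (c⁻¹ * σ u)) ∧
    ∀ t, t ≠ 0 → g * E.h t * g⁻¹ = E.h (σ t) := by
  choose φ hφ using fun u => E.xs _ (T_conj_U hg (E.xm u))
  choose ψ hψ using fun u => E.ys _ (T_conj_U hg (E.ym u))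
  have add : ∀ u v, φ (u + v) = φ u + φ v := fun u v =>
    E.x_inj (by rw [x_add, hφ, hφ, hφ, x_add, conj_mul])
  have φ0 : φ 0 = 0 := E.xi _ (by rw [hφ, x_zero]; simp)
  have ne : ∀ u, u ≠ 0 → φ u ≠ 0 := fun u hu e =>
    hu (E.xi _ (conj_eq_one_iff.1 (by rw [← hφ, e, x_zero] : g * E.x u * g⁻¹ = 1)))
  have hw : ∀ u, u ≠ 0 → ψ (-u⁻¹) = -(φ u)⁻¹ ∧ g * E.w u * g⁻¹ = E.w (φ u) := fun u hu => by
    have e : g * E.w u * g⁻¹ = E.y (ψ (-u⁻¹)) * E.x (φ u) * E.y (ψ (-u⁻¹)) := by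
      rw [hφ, hψ, E.w_eq hu, conj_mul, conj_mul]
    obtain ⟨h1, -, h2⟩ := E.mu (ne u hu) (E.ym _) (E.ym _)
      (e ▸ ((E.rf hu).T_mul hg).mul_T (inv_mem hg))
    exact ⟨E.y_inj h1, e.trans h2⟩
  have hc := ne 1 one_ne_zero
  have hh : ∀ l, l ≠ 0 → g * E.h l * g⁻¹ = E.h (φ l * (φ 1)⁻¹) := fun l hl => by
    rw [show E.h l = E.w l * (E.w 1)⁻¹ from rfl, ← conj_mul, ← conj_inv, (hw l hl).2,
      (hw 1 one_ne_zero).2, E.h_mul (ne l hl) (inv_ne_zero hc), E.h_inv hc, E.w_eq_h,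
      E.w_eq_h (φ 1)]
    group
  have sq : ∀ l u, φ (l ^ 2 * u) = (φ l * (φ 1)⁻¹) ^ 2 * φ u := fun l u => by
    by_cases hl : l = 0
    · simp [hl, φ0]
    refine E.x_inj ?_
    rw [hφ, ← E.h_x hl, ← E.h_x (mul_ne_zero (ne l hl) (inv_ne_zero hc)), ← hh l hl, hφ]
    group
  have mul : ∀ l u, φ (l * u) * (φ 1)⁻¹ = φ l * (φ 1)⁻¹ * (φ u * (φ 1)⁻¹) := fun l u => by
    by_cases h2 : ringChar F = 2
    · obtain ⟨m, rfl⟩ := FiniteField.isSquare_of_char_two h2 l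
      have := sq m 1
      rw [mul_one] at this
      rw [← pow_two, sq, this]
      field_simp
    · have h3 := sq (l + 1) u
      rw [show (l + 1) ^ 2 * u = l ^ 2 * u + (l * u + l * u) + u by ring, add, add, add, add,
        sq] at h3
      refine mul_left_cancel₀ (Ring.two_ne_zero h2) ?_
      linear_combination (φ 1)⁻¹ * h3 + (2 * φ l * (φ 1)⁻¹ ^ 2 * φ u +
        (φ 1 * (φ 1)⁻¹ + 1) * (φ 1)⁻¹ * φ u) * mul_inv_cancel₀ hc
  let σ : F →+* F :=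
    { toFun := fun u => φ u * (φ 1)⁻¹, map_one' := mul_inv_cancel₀ hc, map_mul' := mul,
      map_zero' := by rw [φ0, zero_mul], map_add' := fun u v => by rw [add, add_mul] }
  have e : ∀ u, φ u = φ 1 * σ u := fun u => by
    show _ = φ 1 * (φ u * (φ 1)⁻¹)
    field_simp
  refine ⟨φ 1, RingEquiv.ofBijective σ (Finite.injective_iff_bijective.1 σ.injective), hc,
    fun u => by rw [← hφ, e u]; rfl, fun u => ?_, hh⟩
  show _ = E.y ((φ 1)⁻¹ * σ u)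
  by_cases hu : u = 0
  · simp [hu, y_zero]
  have := (hw (-u⁻¹) (neg_ne_zero.2 (inv_ne_zero hu))).1
  rw [inv_neg, inv_inv, neg_neg, e (-u⁻¹), map_neg, map_inv₀, mul_inv, inv_neg, inv_inv, mul_neg,
    neg_neg] at this
  rw [← hψ, this]

/-- special case of `semi` (compare at `u = 1`) -/
theorem lin (hg : g ∈ M.T) {c : F} (h : ∀ u, g * E.x u * g⁻¹ = E.x (c * u)) :
    (∀ u, g * E.y u * g⁻¹ = E.y (c⁻¹ * u)) ∧ ∀ t, t ≠ 0 → Commute g (E.h t) := by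
  obtain ⟨c', σ, hc, h1, h2, h3⟩ := E.semi hg
  have k : ∀ u, c' * σ u = c * u := fun u => E.x_inj ((h1 u).symm.trans (h u))
  obtain rfl : c' = c := by simpa using k 1
  have k' : ∀ u, σ u = u := fun u => mul_left_cancel₀ hc (k u)
  exact ⟨fun u => by rw [h2, k'], fun t ht => mul_inv_eq_iff_eq_mul.1 (by rw [h3 t ht, k'])⟩

/-- Quadratic modules.  Write the module additively, `f_t b = ⁅x t, b⁆`, `g_s a = ⁅y s, a⁆` mod `N`;
`f_t` is additive in `t` (`⁅u u', b⁆ = u ⁅u',b⁆ u⁻¹ ⁅u,b⁆`, `UA`).  For `b ∈ B`: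
`w t = x t y(-t⁻¹) x t` sends `b` to `b + f b`, then `b + f b + g f b`, whose image under `x t` lies in
`A` (`mB`), so `b + g f b = 0` (`ind`) and `w t · b = f_t b`. -/
theorem w_B {A B N : Subgroup G} (Q : M.QM i A B N) (ht : t ≠ 0) {b : G} (hb : b ∈ B) :
    (E.w t * b * (E.w t)⁻¹)⁻¹ * ⁅E.x t, b⁆ ∈ N := by
  obtain ⟨a, ha, e1⟩ := Q.UB _ (E.xm t) b hb
  obtain ⟨b', hb', e2⟩ := Q.VA _ (E.ym (-t⁻¹)) a ha
  obtain ⟨a', ha', e3⟩ := Q.UB _ (E.xm t) _ (mul_mem hb' hb)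
  exact qm_key (N := N.subgroupOf (Subgroup.normalizer (N : Set G)))
    (X := ⟨_, Q.nL (E.xL t).2⟩) (Y := ⟨_, Q.nL (E.yL (-t⁻¹)).2⟩) (a := ⟨a, QM.nor (Q.nA a ha)⟩)
    (b := ⟨b, QM.nor (Q.nB b hb)⟩) (a' := ⟨a', QM.nor (Q.nA a' ha')⟩)
    (b' := ⟨b', QM.nor (Q.nB b' hb')⟩) e1 e2 e3 (Q.VB _ (E.ym _) b hb) (Q.UA _ (E.xm t) a ha)
    (Q.AB a ha b' hb') (Q.ind _ (mul_mem (inv_mem (Q.mB _ (E.rf ht) b hb)) (mul_mem ha ha')) _
      (mul_mem hb' hb))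

theorem h_add0 {A B N : Subgroup G} (Q : M.QM i A B N) (hs : s ≠ 0) (ht : t ≠ 0) {a P : G}
    (ha : a ∈ A) (hP : P ∈ A) (h : P⁻¹ * ⁅E.x (s + t), (E.w 1)⁻¹ * a * (E.w 1)⁻¹⁻¹⁆ ∈ N) :
    P⁻¹ * (E.h s * a * (E.h s)⁻¹ * (E.h t * a * (E.h t)⁻¹)) ∈ N := by
  have hb := Q.mA _ (E.rf one_ne_zero).inv a ha
  have e : ∀ t, E.h t * a * (E.h t)⁻¹ = E.w t * ((E.w 1)⁻¹ * a * (E.w 1)⁻¹⁻¹) * (E.w t)⁻¹ :=
    fun t => by rw [E.w_eq_h t]; group
  rw [e, e]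
  rw [add_comm, x_add] at h
  generalize (E.w 1)⁻¹ * a * (E.w 1)⁻¹⁻¹ = b at hb h
  obtain ⟨a', ha', e1⟩ := Q.UB _ (E.xm s) b hb
  exact qm_add (N := N.subgroupOf (Subgroup.normalizer (N : Set G)))
    (X := ⟨_, Q.nL (E.xL s).2⟩) (X' := ⟨_, Q.nL (E.xL t).2⟩) (a := ⟨a', QM.nor (Q.nA a' ha')⟩)
    (b := ⟨b, QM.nor (Q.nB b hb)⟩) (P := ⟨P, QM.nor (Q.nA P hP)⟩)
    (Q := ⟨_, QM.nor (Q.nA _ (Q.mB _ (E.rf hs) b hb))⟩)
    (R := ⟨_, QM.nor (Q.nA _ (Q.mB _ (E.rf ht) b hb))⟩) e1 (Q.UA _ (E.xm t) a' ha') h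
    (E.w_B Q hs hb) (E.w_B Q ht hb)

/-- `h t · a = w t · (w 1⁻¹ · a) = f_t b` with `b = (w 1)⁻¹ a (w 1) ∈ B`: additive in `t`. -/
theorem h_add {A B N : Subgroup G} (Q : M.QM i A B N) (hs : s ≠ 0) (ht : t ≠ 0) (hst : s + t ≠ 0)
    {a : G} (ha : a ∈ A) : (E.h (s + t) * a * (E.h (s + t))⁻¹)⁻¹ *
      (E.h s * a * (E.h s)⁻¹ * (E.h t * a * (E.h t)⁻¹)) ∈ N := by
  have hb := Q.mA _ (E.rf one_ne_zero).inv a ha
  have e : E.h (s + t) * a * (E.h (s + t))⁻¹ =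
      E.w (s + t) * ((E.w 1)⁻¹ * a * (E.w 1)⁻¹⁻¹) * (E.w (s + t))⁻¹ := by
    rw [E.w_eq_h (s + t)]; group
  exact E.h_add0 Q hs ht ha (e ▸ Q.mB _ (E.rf hst) _ hb) (e ▸ E.w_B Q hst hb)

/-- `f_t b + f_{-t} b = f_0 b = 0` -/
theorem h_neg {A B N : Subgroup G} (Q : M.QM i A B N) (ht : t ≠ 0) {a : G} (ha : a ∈ A) :
    E.h (-t) * a * (E.h (-t))⁻¹ * (E.h t * a * (E.h t)⁻¹) ∈ N := by
  have := E.h_add0 Q (neg_ne_zero.2 ht) ht ha (one_mem A) (by simp [x_zero])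
  rwa [inv_one, one_mul] at this

/-- fixed point freeness: if `s ≠ t` then `h s · a = h t · a + h (s-t) · a` (`h_add`), or
`t = ... ` use `h_neg`; and `h r · a ∈ N` gives `a ∈ N` (`L i` normalises `N`). -/
theorem h_free {A B N : Subgroup G} (Q : M.QM i A B N) (hs : s ≠ 0) (ht : t ≠ 0) {a : G}
    (ha : a ∈ A) (h : (E.h s * a * (E.h s)⁻¹)⁻¹ * (E.h t * a * (E.h t)⁻¹) ∈ N) :
    s = t ∨ a ∈ N := by
  refine or_iff_not_imp_left.2 fun e => ?_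
  have h1 := E.h_add Q ht (sub_ne_zero.2 e) (by rwa [add_sub_cancel]) ha
  rw [add_sub_cancel, ← mul_assoc, mul_mem_cancel_left h] at h1
  exact (Subgroup.mem_normalizer_iff.1 (Q.nL (E.h_mem _)) a).2 h1

/-- `exists_hom`, range `L i`; the kernel is central (`sl2_ker_le_center`), `-1 = w(1)²`. -/
theorem equiv (h : E.h (-1) ≠ 1) : Nonempty (M.L i ≃* SL(2, F)) := by
  obtain ⟨φ, hx, hy⟩ := E.st.exists_hom
  have h1 : φ.range = M.L i := le_antisymm (by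
    rw [MonoidHom.range_eq_map, Subgroup.map_le_iff_le_comap, top_le_iff]
    exact sl2_eq_top (fun r => by rw [Subgroup.mem_comap, hx]; exact (E.xL r).2)
      fun r => by rw [Subgroup.mem_comap, hy]; exact (E.yL r).2)
    (E.L_le (fun t => ⟨_, hx t⟩) fun t => ⟨_, hy t⟩)
  have h2 := sl2_ker_le_center φ fun k => by
    obtain ⟨g, hg, e⟩ := k ⟨yy 1, yy_mem_lower 1, hy 1⟩
    obtain ⟨r, rfl⟩ := mem_upper.1 hg
    rw [hx] at e
    exact one_ne_zero (E.yi 1 (rtb_eq_one_opp (E.ym 1) (line.adj' rfl) (rtb_ne i)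
      (e ▸ U_fix (E.xm r) (by omega) (by have := M.three_le'; omega))))
  have h3 : φ (-1) = E.h (-1) := by
    have : (-1 : SL(2, F)) = StRel.w xx yy 1 * StRel.w xx yy 1 := by
      apply sl2_ext <;> simp [StRel.w, sl2_mul_apply]
    rw [this, ← E.w_sq one_ne_zero]
    simp only [StRel.w, w, map_mul, hx, hy]
  exact ⟨(MulEquiv.subgroupCongr h1.symm).trans (MonoidHom.ofInjective
    ((injective_iff_map_eq_one φ).2 fun g hg => (sl2_mem_center_iff.1 (h2 hg)).resolve_right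
      fun e => h (by rw [← h3, ← e, hg]))).symm⟩

/-- transport along an element moving `U i, U (i+n)` to `U j, U (j+n)` -/
def conj (g : G) (j : ℤ) (h1 : ∀ u, u ∈ M.U i ↔ g * u * g⁻¹ ∈ M.U j)
    (h2 : ∀ u, u ∈ M.U (i + M.n) ↔ g * u * g⁻¹ ∈ M.U (j + M.n)) : M.S2 j F where
  x t := g * E.x t * g⁻¹
  y t := g * E.y t * g⁻¹
  st := ⟨fun t u => by rw [conj_mul, E.st.xadd], fun t u => by rw [conj_mul, E.st.yadd],
    fun t u h => by rw [← E.st.wx t u h]; group, fun t u h => by rw [← E.st.wy t u h]; group⟩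
  xm t := (h1 _).1 (E.xm t)
  xs u hu := (E.xs (g⁻¹ * u * g) ((h1 _).2 (by simpa [mul_assoc] using hu))).imp fun t e => by
    rw [e]; group
  xi t e := E.xi t (conj_eq_one_iff.1 e)
  ym t := (h2 _).1 (E.ym t)
  ys u hu := (E.ys (g⁻¹ * u * g) ((h2 _).2 (by simpa [mul_assoc] using hu))).imp fun t e => by
    rw [e]; group
  yi t e := E.yi t (conj_eq_one_iff.1 e)

theorem conj_h (g : G) (j : ℤ) (h1 h2) (t : F) : (E.conj g j h1 h2).h t = g * E.h t * g⁻¹ := by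
  simp only [h, StRel.h, StRel.w, conj]
  group

theorem conj_w (g : G) (j : ℤ) (h1 h2) (t : F) : (E.conj g j h1 h2).w t = g * E.w t * g⁻¹ := by
  simp only [w, StRel.w, conj]
  group

/-- transport along a rotation -/
def rot {c : ℤ} (hg : M.Rot c g) : M.S2 (i + c) F :=
  E.conj g _ (fun u => ⟨fun h => hg.conj_U h rfl, fun h => by
      simpa [mul_assoc] using hg.inv.conj_U h (j := i) (by ring)⟩)
    fun u => ⟨fun h => hg.conj_U h (by ring), fun h => by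
      simpa [mul_assoc] using hg.inv.conj_U h (j := i + M.n) (by ring)⟩

include E in
/-- `exists_rot`, `rot` -/
theorem even {j : ℤ} (h : (j - i) % 2 = 0) : Nonempty (M.S2 j F) := by
  obtain ⟨g, hg⟩ := exists_rot (M := M) h
  exact ⟨add_sub_cancel i j ▸ E.rot hg⟩

end S2

end MP

end Cfsg.Agent.BN2
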