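import Cfsg.Agent.BN2.S2

/-!
# Orientation of finite Moufang quadrangles, hexagons, octagons (S1144)

See `BN2/FF` (`FF`), `BN2/F3`, `BN2/N4a`, `BN2/N6a`, `BN2/Rt`, `BN2/RtB`.
-/

set_option autoImplicit false
set_option linter.unusedSectionVars false
set_option linter.unusedVariables false

namespace Cfsg.Agent.BN2

open scoped commutatorElement

namespace MP

variable {G V : Type} [Group G] [MulAction G V] [Finite G] [Finite V] {M : MP G V}
  {i j k : ℤ} {a b g u : G}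

theorem ty_sg (h : M.Sg (M.x i)) (e : (j - i) % 2 = 0) : M.Sg (M.x j) :=
  h.of_ty (Pol.ty_even line e).symm

theorem ty_nsg (h0 : ¬ M.Sg (M.x 0)) (h1 : ¬ M.Sg (M.x 1)) (i : ℤ) : ¬ M.Sg (M.x i) := fun h => by
  rcases Int.emod_two_eq_zero_or_one i with e | e
  exacts [h0 (ty_sg h (by omega)), h1 (ty_sg h (by omega))]

theorem ty_nm (he : M.n % 2 = 0) : M.n = 2 * M.m := by unfold Pol.m; omega

theorem ty_U_A (ha : a ∈ M.U i) (h1 : i ≤ k) (h2 : k < i + M.n) : a ∈ M.A (M.x k) (M.x (k + 1)) :=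
  UU_le_A h1 h2 (U_le_UU le_rfl le_rfl ha)

theorem ty_rf {m : G} (h : M.Rf (2 * i) m) (hu : u ∈ M.U j) (e : k = 2 * i + M.n - j) :
    m * u * m⁻¹ ∈ M.U k := by
  rw [U_per (i := 2 * i - M.n - j) (by omega)]
  exact h.conj_U hu rfl

theorem ty_QQ (c : ℤ) {l l' : ℤ} (ha : a ∈ M.U i) (h1 : i < l + c) (h2 : l' + c < i + M.n) :
    a ∈ M.QQ (fun k => M.x (k + c)) l l' :=
  Pol.QQ_shift.2 fun k b b' => mem_U.1 ha k (by omega) (by omega)

theorem ty_U (c : ℤ) {l l' : ℤ} (ha : a ∈ M.QQ (fun k => M.x (k + c)) l l') (h1 : l + c ≤ i + 1)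
    (h2 : i + M.n ≤ l' + c + 1) : a ∈ M.U i :=
  mem_U.2 fun k b b' => Pol.QQ_shift.1 ha k (by omega) (by omega)

theorem ty_ball (he : M.n % 2 = 0) (hg : g ∈ M.Ball M.m (M.x j)) (e : j = i + M.m) : g ∈ M.U i := by
  have := ty_nm he
  exact SP.mem_X_of_K M.hn line fun k a b => Pol.Ball_K line hg (by omega) (by omega)

theorem ty_occ (he : M.n % 2 = 0) (hs : ∀ i, ¬ M.Sg (M.x i)) (hu : u ∈ M.U i) (e : k = i + M.m - 1) :
    ∃ a ∈ M.U (i - 1), a * u ∈ M.Z (M.x k) (M.x (k + 1)) := by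
  have hm := ty_nm he
  have h2 := Pol.two_le_m (P := M.toPol)
  have tr := (SP.FF (P := M.toSP) (line.shift i) (hs _) (hs _)).1
  simp only [zero_add] at tr
  rw [show (M.m : ℤ) - 1 + i = k by omega, show (M.m : ℤ) + i = k + 1 by omega, add_comm 1 i] at tr
  have ad : ∀ v ∈ M.U i, M.adj (M.x i) (v • M.x (i - 1)) := fun v hv => by
    have := M.adj_smul v (rtb_adj i); rwa [U_fix hv le_rfl (by omega)] at this
  obtain ⟨z, hz, ez⟩ := tr (M.x (i - 1)) (u • M.x (i - 1)) (rtb_adj i) (ad u hu) (rtb_ne i).symm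
    fun r => rtb_ne (M := M) i (smul_left_cancel u ((U_fix hu (by omega) (by omega)).trans r.symm))
  have hz' : z ∈ M.UU (i - 1) i := by
    rw [UU_eq_QQ (by omega) (by omega)]
    refine SP.mem_QQ_of line (SP.Z_Q (line.1 k) hz) (by omega) (by omega) fun l a b => ?_
    by_cases c : l ≤ k
    · exact Pol.Ball_K line (Pol.Z_ball (line.1 k) hz) (by omega) (by omega)
    · exact Pol.Ball_K line (Pol.Z_ball' (line.1 k) hz) (by omega) (by omega)
  obtain ⟨a, ha, v, hv, rfl⟩ := dec hz' (by omega) (by omega)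
  rw [sub_add_cancel, UU_self] at hv
  rw [mul_smul, (mem_U.1 ha i (by omega) (by omega)).1.2 _ (ad v hv)] at ez
  have := U_eq_one (mul_mem (inv_mem hu) hv) (rtb_adj i) (rtb_ne i).symm (by
    rw [mul_smul, ez, inv_smul_smul])
  exact ⟨a, ha, inv_mul_eq_one.1 this ▸ hz⟩

theorem ty_occ' (he : M.n % 2 = 0) (hs : ∀ i, ¬ M.Sg (M.x i)) (ha : a ∈ M.U i) (e : k = i + M.m) :
    ∃ u ∈ M.U (i + 1), a * u ∈ M.Z (M.x k) (M.x (k + 1)) := by
  have hm := ty_nm he
  obtain ⟨u, hu, hz⟩ := ty_occ (M := M.rev (M.n + i)) (i := 0) (k := M.m - 1) (u := a) he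
    (fun _ => hs _) (by rwa [U_rev, show (M.n : ℤ) + i - M.n - 0 = i by ring]) (by rw [zero_add]; rfl)
  rw [U_rev, show (M.n : ℤ) + i - M.n - (0 - 1) = i + 1 by ring] at hu
  rw [rev_x, rev_x, show (M.n : ℤ) + i - (M.m - 1) = k + 1 by omega,
    show (M.n : ℤ) + i - (M.m - 1 + 1) = k by omega, ← (commute_succ ha hu rfl).eq] at hz
  exact ⟨u, hu, Pol.Z_swap hz⟩

theorem ty_cent {H : Type*} [Group H] {a b c z w : H} (h1 : ⁅c, a⁆ = z) (h2 : ⁅c, b⁆ = w)
    (za : Commute z a) (zb : Commute z b) (zw : Commute z w) (wa : Commute w a) (wb : Commute w b) :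
    Commute ⁅a, b⁆ c := by
  have e1 : c * a * c⁻¹ = z * a := by rw [← h1, commutatorElement_def]; group
  have e2 : c * b * c⁻¹ = w * b := by rw [← h2, commutatorElement_def]; group
  have e3 : c * ⁅a, b⁆ * c⁻¹ = ⁅a, b⁆ := by
    calc _ = c * a * c⁻¹ * (c * b * c⁻¹) * (c * a * c⁻¹)⁻¹ * (c * b * c⁻¹)⁻¹ := by
          rw [commutatorElement_def]; group
      _ = z * (a * (w * b) * a⁻¹) * z⁻¹ * b⁻¹ * w⁻¹ := by rw [e1, e2]; group
      _ = w * ⁅a, b⁆ * w⁻¹ := by
          rw [((za.mul_right (zw.mul_right zb)).mul_right za.inv_right).eq, mul_inv_cancel_right,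
            ← mul_assoc a, ← wa.eq, commutatorElement_def]; group
      _ = _ := by
          rw [commutatorElement_def,
            (((wa.mul_right wb).mul_right wa.inv_right).mul_right wb.inv_right).eq, mul_inv_cancel_right]
  exact (mul_inv_eq_iff_eq_mul.1 e3).symm

theorem ty_qm {i1 i2 j1 j2 : ℤ} {N : Subgroup G} (e1 : i1 = i + 1) (e2 : i2 = i + 2)
    (f1 : j1 = i + M.n - 1) (f2 : j2 = i + M.n - 2) (hN : M.UU i2 j2 ≤ N)
    (nA : ∀ a ∈ M.U i1, ∀ n ∈ N, a * n * a⁻¹ ∈ N) (nB : ∀ a ∈ M.U j1, ∀ n ∈ N, a * n * a⁻¹ ∈ N)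
    (nU : ∀ a ∈ M.U i, ∀ n ∈ N, a * n * a⁻¹ ∈ N) (nV : ∀ a ∈ M.U (i + M.n), ∀ n ∈ N, a * n * a⁻¹ ∈ N)
    (AA : ∀ a ∈ M.U i1, ∀ b ∈ M.U i1, ⁅a, b⁆ ∈ N) (BB : ∀ a ∈ M.U j1, ∀ b ∈ M.U j1, ⁅a, b⁆ ∈ N)
    (ind : ∀ a ∈ M.U i1, ∀ b ∈ M.U j1, a * b ∈ N → a ∈ N) : M.QM i (M.U i1) (M.U j1) N := by
  have h3 := M.three_le'
  refine ⟨nA, nB, nU, nV, AA, fun a ha b hb => hN (UU_mono (by omega) (by omega)
    (comm ha hb (by omega) (by omega))), BB, ind, fun u hu a ha => ?_, fun u hu b hb => ?_,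
    fun u hu b hb => ?_, fun u hu a ha => ?_, fun m hm a ha => ty_rf hm ha (by omega),
    fun m hm a ha => ty_rf hm ha (by omega)⟩
  · rw [(commute_succ hu ha e1).commutator_eq]; exact one_mem _
  · obtain ⟨a, ha, r, hr, e⟩ := dec (comm hu hb (by omega) (by omega)) (by omega) (by omega)
    exact ⟨a, e1 ▸ ha, by rw [e, inv_mul_cancel_left]; exact hN (UU_mono (by omega) (by omega) hr)⟩
  · rw [(commute_succ hb hu (by omega)).symm.commutator_eq]; exact one_mem _
  · obtain ⟨r, hr, b, hb, e⟩ := dec' (comm ha hu (by omega) (by omega)) (by omega) (by omega)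
    refine ⟨b⁻¹, f1 ▸ inv_mem hb, ?_⟩
    rw [← commutatorElement_inv, e, mul_inv_rev, inv_mul_cancel_left]
    exact inv_mem (hN (UU_mono (by omega) (by omega) hr))

theorem ty_ind {i2 j1 j2 : ℤ} (ha : a ∈ M.U i) (hb : b ∈ M.U j1) (h : a * b ∈ M.UU i2 j2) (e : i < i2)
    (e1 : i < j1) (e2 : j2 ≤ j1) (e3 : j1 < i + M.n) : a = 1 :=
  U_inf_UU ha (by simpa using mul_mem (UU_mono (by omega) e2 h) (inv_mem (U_le_UU (by omega) le_rfl hb)))
    e3

theorem ty_nor {l : ℤ} (h : ∀ k, i ≤ k → k ≤ l → ∀ n ∈ M.U k, ⁅a, n⁆ ∈ M.UU i l) :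
    ∀ n ∈ M.UU i l, a * n * a⁻¹ ∈ M.UU i l := fun n hn =>
  UU_le (H := (M.UU i l).comap (MulAut.conj a).toMonoidHom) (fun k h1 h2 v hv => by
    have := mul_mem (h k h1 h2 v hv) (U_le_UU h1 h2 hv)
    rwa [commutatorElement_def, inv_mul_cancel_right] at this) hn

/-- No `σ`-vertices, `n = 2m`.  `FF` for the line `x (· + i)`: `Z = Z (x (i+m-1)) (x (i+m))` is
transitive on `Γ(x i) ∖ x (i+1)`; `Z ≤ QQ (i+1) (i+n-2) = UU (i-1) i` (`Z_ball, Z_ball', Z_Q,
QQ_of_ball`, `UU_eq_QQ`); `U (i-1)` fixes `Γ(x i)`, so (regularity) every `u ∈ U i` occurs in some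
`z = a u ∈ Z`, `a ∈ U (i-1)`; for the reversed line every `a ∈ U (i-1)` occurs.  `z` is central in
`A = UU (i-m) (i+m-1)` (`A_eq`).  For `b ∈ U (i+r)`, `0 ≤ r < m`: `1 = ⁅a u, b⁆ = a ⁅u,b⁆ a⁻¹ ⁅a,b⁆`.
`r = 0`: `⁅a,b⁆ = 1` (`commute_succ`), so `U i` is abelian.  Induction on `r`: if `U i` and `U (i+r)`
commute for all `i`, then so do `U (i-1)` and `U (i+r)`. -/
theorem tau_comm (he : M.n % 2 = 0) (h0 : ¬ M.Sg (M.x 0)) (h1 : ¬ M.Sg (M.x 1)) (ha : a ∈ M.U i)
    (hb : b ∈ M.U j) (h2 : i ≤ j) (h3 : 2 * (j - i) ≤ M.n) : Commute a b := by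
  have hm := ty_nm he
  have hs := ty_nsg h0 h1
  have h2m := Pol.two_le_m (P := M.toPol)
  obtain ⟨r, rfl⟩ : ∃ r : ℕ, j = i + r := ⟨(j - i).toNat, by omega⟩
  induction r generalizing i a with
  | zero =>
    obtain ⟨c, hc, hz⟩ := ty_occ he hs ha rfl
    have e1 : Commute (c * a) b := (Pol.Z_comm hz (ty_U_A hb (by omega) (by omega))).symm
    simpa using (commute_succ hc hb (by omega)).inv_left.mul_left e1
  | succ r ih =>
    obtain ⟨c, hc, hz⟩ := ty_occ' he hs ha rfl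
    have e1 : Commute (a * c) b := (Pol.Z_comm hz (ty_U_A hb (by omega) (by omega))).symm
    simpa using e1.mul_left (ih hc (by rwa [show i + 1 + r = i + (r + 1 : ℕ) by omega]) (by omega)
      (by omega)).inv_left

/-- An element `u ∈ U i` commuting with `U j` for `|j - i| ≤ m = n/2` is a central elation: it is
central in `A (x c) (x (c+1))` and `A (x c) (x (c-1))`, `c = i + m`.  For a line `p` with `p 0 = x c`: if
`p 1 ≠ x (c-1)`, then (`Pol.trans`, or `tr_A` + `T_aux`/`exists_turn`) an element of `A (x (c-1)) (x c)`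
moves `x (c+k)` to `p k` for `0 ≤ k ≤ m`, and `u` fixes `x (c+k)`; symmetric if `p 1 ≠ x (c+1)`
(`Z_side`, `Z_ball_of_fix` do this). -/
theorem ball_of_comm {m : ℕ} (hm : M.n = 2 * m) (hu : u ∈ M.U i)
    (h : ∀ j, i - m ≤ j → j ≤ i + m → ∀ b ∈ M.U j, Commute u b) : u ∈ M.Ball m (M.x (i + m)) := by
  have h3 := M.three_le
  obtain rfl : m = M.m := by unfold Pol.m; omega
  have hz : u ∈ M.Z (M.x (i + M.m)) (M.x (i + M.m + 1)) :=
    Pol.mem_Z.2 ⟨ty_U_A hu (by omega) (by omega), fun a ha => by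
      rw [A_eq] at ha
      exact Subgroup.mem_centralizer_singleton_iff.1 (UU_le (H := Subgroup.centralizer {u})
        (fun k h1 h2 b hb => Subgroup.mem_centralizer_singleton_iff.2
          (h k (by omega) h2 b hb).symm.eq) ha)⟩
  simpa using Pol.Z_ball_of_fix (line.rev (i + M.m)) (w := M.x (i + M.m + 1)) (z := u)
    (by simpa using line.1 _) (rtb_ne _).symm (by simpa using hz)
    (U_fix hu (by omega) (by omega))

/-- Otherwise all root groups consist of central elations (`tau_comm`, `ball_of_comm`).  For `a ∈ U 0`,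
`b ∈ U 5`: `⁅a,b⁆ = a (b a⁻¹ b⁻¹) ∈ Ball 3 (x 5)` (both centres `x 4`, `b • x 4` are neighbours of
`x 5`), `⁅a,b⁆ = (a b a⁻¹) b⁻¹ ∈ Ball 3 (x 8)`, so it is in `UU 1 4 = R x 4 9` and fixes `x 2, …, x 11`:
trivial (`mem_R_of`, `R_eq_one`).  So `b` centralises `U 0` and `U 8`: `eq_one_of_cent`, `exists_U`. -/
theorem oct_sg (hn : M.n = 8) : M.Sg (M.x 0) ∨ (M.rev 15).Sg ((M.rev 15).x 0) := by
  by_contra! h
  have h1 : ¬ M.Sg (M.x 1) := fun r => h.2 (ty_sg (j := 15 - 0) r (by omega))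
  have tc : ∀ {i j : ℤ} {a b : G}, a ∈ M.U i → b ∈ M.U j → i - 4 ≤ j → j ≤ i + 4 → Commute a b :=
    fun {i j a b} ha hb c1 c2 => (le_total i j).elim
      (fun c => tau_comm (by omega) h.1 h1 ha hb c (by omega))
      fun c => (tau_comm (by omega) h.1 h1 hb ha c (by omega)).symm
  have bl : ∀ {i : ℤ} {a : G}, a ∈ M.U i → a ∈ M.Ball 4 (M.x (i + (4 : ℕ))) := fun ha =>
    ball_of_comm (by omega) ha fun j c1 c2 b hb => tc ha hb c1 c2
  obtain ⟨b, hb, b1⟩ := exists_U (M := M) 5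
  refine b1 (eq_one_of_cent (i := 0) hb (by omega) (by omega) (by omega) (fun a ha => ?_)
    fun a ha => tc hb ha (by omega) (by omega))
  have c1 := (Pol.comm_Ball (Pol.Ball_move (k := 3) (i := 5) line (bl ha) (by omega) (by omega))
    (U_fix hb le_rfl (by omega))).1
  have c2 := (Pol.comm_Ball (Pol.Ball_move (k := 3) (i := 8) line (bl hb) (by omega) (by omega))
    (U_fix ha (by omega) (by omega))).2
  refine commutatorElement_eq_one_iff_commute.1 (Pol.eq_one line (a := 2) (k := 5) (fun k k1 k2 => ?_)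
    (by omega) (by omega) (Pol.Ball_K line c1 (by omega) (by omega))
    (Pol.Ball_K line c1 (by omega) (by omega)))
  by_cases e : k ≤ 8
  · exact Pol.Ball_fix line c1 (by omega) (by omega)
  · exact Pol.Ball_fix line c2 (by omega) (by omega)

variable (M) in
/-- hexagon whose even root groups consist of central elations -/
structure Hx : Prop where
  n : M.n = 6
  ball : ∀ i, i % 2 = 0 → M.U i ≤ M.Ball 3 (M.x (i + 3))
  ab : ∀ i, ∀ a ∈ M.U i, ∀ b ∈ M.U i, Commute a b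

theorem ty_hx (hn : M.n = 6) (hs : M.Sg (M.x 1)) : M.Hx := by
  have hz : ∀ i, i % 2 = 0 → M.U i ≤ M.Zv (M.x (i + 3)) := fun i hi a ha => by
    have := (SP.N6_QQ (P := M.toSP) hn (line.shift i) (ty_sg hs (by omega))).le
      (ty_QQ i ha (by omega) (by omega))
    rwa [add_comm] at this
  refine ⟨hn, fun i hi a ha => (SP.N6_C (P := M.toSP) hn (ty_sg hs (by omega))).le (hz i hi ha),
    fun i a ha b hb => ?_⟩
  rcases Int.emod_two_eq_zero_or_one i with e | e
  · exact Pol.Zv_comm (hz i e hb) (line.1 _) (ty_U_A ha (by omega) (by omega))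
  · have := SP.N6_ab (P := M.toSP) hn (line.shift (i + 3)) (ty_sg hs (by omega))
      (ty_QQ _ ha (by omega) (by omega)) (ty_QQ _ hb (by omega) (by omega))
    exact commutatorElement_eq_one_iff_commute.1 (U_eq_one' (mul_mem (mul_mem (mul_mem ha hb)
      (inv_mem ha)) (inv_mem hb)) (line.1 _) (rtb_ne _) (Pol.K_fix line this (by omega) (by omega)))

/-- If `Sg (x 1)`: `N6_QQ`, `N6_C` (`U i = Zv (x (i+3))` for even `i`, shift the line), `N6_ab`
(for odd `i`: `⁅a,b⁆ ∈ U i ⊓ K (x (i+6))`, `U_eq_one'`).  If `Sg (x 0)` use `M.rev 11`.  Otherwise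
`tau_comm`, `ball_of_comm`. -/
theorem exists_hx (hn : M.n = 6) : M.Hx ∨ (M.rev 11).Hx := by
  by_cases h1 : M.Sg (M.x 1)
  · exact .inl (ty_hx hn h1)
  by_cases h0 : M.Sg (M.x 0)
  · exact .inr (ty_hx hn (ty_sg (j := 11 - 1) h0 (by omega)))
  refine .inl ⟨hn, fun i _ a ha => ball_of_comm (m := 3) (by omega) ha fun j c1 c2 b hb => ?_,
    fun i a ha b hb => tau_comm (by omega) h0 h1 ha hb le_rfl (by omega)⟩
  exact (le_total i j).elim (fun c => tau_comm (by omega) h0 h1 ha hb c (by omega))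
    fun c => (tau_comm (by omega) h0 h1 hb ha c (by omega)).symm

namespace Hx

variable (H : M.Hx)
include H

theorem shift {c : ℤ} (hc : c % 2 = 0) : (M.shift c).Hx := by
  refine ⟨H.n, fun i hi => ?_, fun i => ?_⟩ <;> rw [U_shift]
  · rw [shift_x, add_right_comm]; exact H.ball _ (by omega)
  · exact H.ab _

theorem rev {c : ℤ} (hc : c % 2 = 0) : (M.rev c).Hx := by
  have := H.n
  refine ⟨H.n, fun i hi => ?_, fun i => ?_⟩ <;> rw [U_rev]
  · rw [rev_x, show c - (i + 3) = c - M.n - i + 3 by omega]; exact H.ball _ (by omega)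
  · exact H.ab _

/-- for `i < j`: `⁅a,b⁆ ∈ Ball 3 (x (i+3))` (`b` fixes the centre) and it lies in `UU (i+1) (j-1)`, so it
fixes `x (i+7)`; `C_eq_one`.  Symmetric for `j < i`. -/
theorem comm (hi : i % 2 = 0) (ha : a ∈ M.U i) (hb : b ∈ M.U j) (h1 : i - 3 ≤ j) (h2 : j ≤ i + 3) :
    Commute a b := by
  have hn := H.n
  have hm := SP.N6_m (P := M.toSP) hn
  have c := Pol.comm_Ball (H.ball i hi ha) (U_fix hb (k := i + 3) h2 (by omega))
  rw [← hm] at c
  rcases lt_trichotomy i j with e | rfl | e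
  · exact commutatorElement_eq_one_iff_commute.1 (Pol.C_eq_one (by omega) line c.2 (.inl rfl)
      (UU_fix (MP.comm ha hb e (by omega)) (by omega) (by omega)))
  · exact H.ab i a ha b hb
  · exact (commutatorElement_eq_one_iff_commute.1 (Pol.C_eq_one (by omega) line c.1 (.inr rfl)
      (UU_fix (MP.comm hb ha e (by omega)) (by omega) (by omega)))).symm

/-- `⁅a,b⁆ ∈ Ball 2 (x (i+4)) ⊓ Ball 2 (x (i+6))` fixes `x (i+2), …, x (i+8)`; `UU_eq_R`, `UU_self`. -/
theorem comm4 (hi : i % 2 = 0) (ha : a ∈ M.U i) (hb : b ∈ M.U j) (h : j = i + 4) :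
    ⁅a, b⁆ ∈ M.U (i + 2) := by
  have hn := H.n
  subst h
  have c1 := (Pol.comm_Ball (Pol.Ball_move (k := 2) (i := i + 4) line (H.ball i hi ha) (by omega)
    (by omega)) (U_fix hb le_rfl (by omega))).2
  have c2 := (Pol.comm_Ball (Pol.Ball_move (k := 2) (i := i + 6) line (H.ball _ (by omega) hb)
    (by omega) (by omega)) (U_fix ha (by omega) (by omega))).1
  rw [← UU_self, UU_eq_R (by omega) (by omega)]
  refine SP.mem_R_of line (k := i + 4) (UU_le_A (by omega) (by omega) (MP.comm ha hb (by omega) (by omega)))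
    (fun k k1 k2 => ?_) (by omega) (by omega)
  by_cases e : k ≤ i + 6
  · exact Pol.Ball_fix line c1 (by omega) (by omega)
  · exact Pol.Ball_fix line c2 (by omega) (by omega)

/-- `nb_centre` (`BN2/N8b`): `b` fixes the centre `x (i+3)` of `a`; `U_eq_one`. -/
theorem nondeg (hi : i % 2 = 0) (ha : a ∈ M.U i) (hb : b ∈ M.U j) (h : j = i + 4)
    (hc : Commute a b) : a = 1 ∨ b = 1 := by
  have hn := H.n
  have hm := SP.N6_m (P := M.toSP) hn
  refine or_iff_not_imp_left.2 fun a1 => U_eq_one hb (rtb_adj j) (rtb_ne j).symm ?_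
  rw [show j - 1 = i + 3 by omega]
  exact Pol.nb_centre (by omega) line (hm ▸ H.ball i hi ha) a1 hc.symm.eq 1 (by omega)
    (U_fix hb (by omega) (by omega))

/-- `b ↦ ⁅a,b⁆` is an injective homomorphism `U (i+4) → U (i+2)`; `card_U_even`. -/
theorem onto (hi : i % 2 = 0) (ha : a ∈ M.U i) (h1 : a ≠ 1) (hu : u ∈ M.U (i + 2)) :
    ∃ b ∈ M.U (i + 4), ⁅a, b⁆ = u := by
  have inj : Function.Injective fun b : M.U (i + 4) => (⟨⁅a, b.1⁆, H.comm4 hi ha b.2 rfl⟩ : M.U (i + 2)) :=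
    fun b c e => by
    have e1 : ⁅a, b.1⁆ = ⁅a, c.1⁆ := congrArg Subtype.val e
    refine Subtype.ext (inv_mul_eq_one.1 ((H.nondeg hi ha (mul_mem (inv_mem c.2) b.2) rfl ?_).resolve_left
      h1)).symm
    calc a * (c.1⁻¹ * b.1) = a * c.1⁻¹ * a⁻¹ * ⁅a, b.1⁆ * b.1 * a := by
          rw [commutatorElement_def]; group
      _ = c.1⁻¹ * b.1 * a := by rw [e1, commutatorElement_def]; group
  obtain ⟨b, e⟩ := (inj.bijective_of_nat_card_le (card_U_even (by omega)).le).2 ⟨u, hu⟩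
  exact ⟨b, b.2, congrArg Subtype.val e⟩

/-- every central elation with centre `x (i+3)` is in `U i`: `mem_X_of_K`, `Ball_K` -/
theorem mem_U_of_ball (hg : g ∈ M.Ball 3 (M.x (i + 3))) : g ∈ M.U i := by
  have hn := H.n
  have hm := SP.N6_m (P := M.toSP) hn
  exact ty_ball (by omega) (hm ▸ hg) (by omega)

theorem qm2 (hi : i % 2 = 0) : M.QM i (M.U (i + 2)) (M.U (i + 4)) ⊥ := by
  have hn := H.n
  have nb : ∀ a n : G, n ∈ (⊥ : Subgroup G) → a * n * a⁻¹ ∈ (⊥ : Subgroup G) := fun a n h => by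
    simp [Subgroup.mem_bot.1 h]
  refine ⟨fun a _ => nb a, fun a _ => nb a, fun a _ => nb a, fun a _ => nb a,
    fun a ha b hb => (H.ab _ a ha b hb).commutator_eq,
    fun a ha b hb => (H.comm (by omega) ha hb (by omega) (by omega)).commutator_eq,
    fun a ha b hb => (H.ab _ a ha b hb).commutator_eq,
    fun a ha b hb e => ty_ind (i2 := i + 4) (j2 := i + 4) ha hb (Subgroup.mem_bot.1 e ▸ one_mem _)
      (by omega) (by omega) le_rfl (by omega),
    fun a ha b hb => (H.comm hi ha hb (by omega) (by omega)).commutator_eq,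
    fun a ha b hb => ⟨_, H.comm4 hi ha hb rfl, inv_mul_cancel _⟩,
    fun a ha b hb => (H.comm (by omega) ha hb (by omega) (by omega)).commutator_eq,
    fun a ha b hb => ⟨⁅a, b⁆, ?_, inv_mul_cancel _⟩, fun m hm a ha => ty_rf hm ha (by omega),
    fun m hm a ha => ty_rf hm ha (by omega)⟩
  have := inv_mem (H.comm4 (by omega) hb ha (by omega))
  rwa [commutatorElement_inv, show i + 2 + 2 = i + 4 by ring] at this

/-- `U i` normalises `UU (i+2) (i+4)` by `comm`, `comm4`. -/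
theorem qm1 (hi : i % 2 = 0) : M.QM i (M.U (i + 1)) (M.U (i + 5)) (M.UU (i + 2) (i + 4)) := by
  have hn := H.n
  refine ty_qm rfl rfl (by omega) (by omega) le_rfl
    (fun a ha n h => conj_UU h (by omega) ha (by omega) (by omega))
    (fun a ha n h => conj_UU h (by omega) ha (by omega) (by omega))
    (fun a ha => ty_nor fun k k1 k2 n h => ?_) (fun a ha => ty_nor fun k k1 k2 n h => ?_)
    (fun a ha b hb => (H.ab _ a ha b hb).commutator_eq ▸ one_mem _)
    (fun a ha b hb => (H.ab _ a ha b hb).commutator_eq ▸ one_mem _)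
    fun a ha b hb e => ty_ind ha hb e (by omega) (by omega) (by omega) (by omega) ▸ one_mem _
  · by_cases e : k = i + 4
    · exact U_le_UU le_rfl (by omega) (H.comm4 hi ha h e)
    · exact (H.comm hi ha h (by omega) (by omega)).commutator_eq ▸ one_mem _
  · by_cases e : k = i + 2
    · have := inv_mem (H.comm4 (by omega) h ha (by omega))
      rw [commutatorElement_inv] at this
      exact U_le_UU (by omega) (by omega) this
    · exact (H.comm (by omega) ha h (by omega) (by omega)).commutator_eq ▸ one_mem _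

end Hx

variable (M) in
/-- quadrangle of linear type -/
structure QL : Prop where
  n : M.n = 4
  ab : ∀ i, ∀ a ∈ M.U i, ∀ b ∈ M.U i, Commute a b
  cm : ∀ i, i % 2 = 0 → ∀ a ∈ M.U i, ∀ b ∈ M.U (i + 2), Commute a b

variable (M) in
/-- quadrangle of the other type -/
structure QT : Prop where
  n : M.n = 4
  sg : M.Sg (M.x 1)
  ne : ¬ M.U 1 ≤ M.Zv (M.x 3)

theorem ty_U_le (hn : M.n = 4) (hs : M.Sg (M.x 1)) (hi : i % 2 = 0) : M.U i ≤ M.Vv (M.x (i + 2)) :=
  fun a ha => by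
  have := (SP.N4_odd (P := M.toSP) hn (line.shift (i + 1)) (ty_sg hs (by omega))).1
    (ty_QQ _ ha (by omega) (by omega))
  rwa [show 1 + (i + 1) = i + 2 by ring] at this

theorem ty_q (hn : M.n = 4) (hs : M.Sg (M.x 1)) : M.QT ∨ (M.rev 7).QL := by
  refine or_iff_not_imp_left.2 fun hq => ?_
  have h1 : M.U 1 ≤ M.Zv (M.x 3) := by_contra fun r => hq ⟨hn, hs, r⟩
  have hz : ∀ i, i % 2 = 1 → M.U i ≤ M.Zv (M.x (i + 2)) := fun i hi a ha => by
    obtain ⟨g, hg⟩ := exists_rot (M := M) (c := i - 1) (by omega)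
    have := Pol.Zv_conj g (h1 (hg.inv.conj_U ha (by ring)))
    rw [hg, show 3 + (i - 1) = i + 2 by ring] at this
    simpa [mul_assoc] using this
  refine ⟨hn, fun i a ha b hb => ?_, fun i hi a ha b hb => ?_⟩ <;> rw [U_rev] at ha hb
  · rcases Int.emod_two_eq_zero_or_one (7 - M.n - i) with e | e
    · exact SP.Vv_comm_Vv (ty_U_le hn hs e ha) (ty_U_le hn hs e hb)
    · exact Pol.Zv_comm (hz _ e hb) (line.1 _) (ty_U_A ha (by omega) (by omega))
  · refine Eq.symm (Pol.Zv_comm (hz _ (by omega) ha) (rtb_adj _) ?_)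
    have := ty_U_A (k := 7 - M.n - i + 2 - 1) hb (by omega) (by omega)
    rwa [sub_add_cancel, M.A_symm] at this

/-- No `σ`-vertex: `tau_comm` gives `QL`.  If `Sg (x 1)` and not `QT`, then `U i ≤ Zv (x (i+2))` for
odd `i` (`exists_rot`, `Zv_conj`), the even `U i ≤ Vv (x (i+2))` are abelian (`N4_odd`,
`Vv_comm_Vv`), and `M.rev 7` is `QL` (`Zv_comm`, `UU_le_A`).  If `Sg (x 0)` apply this to `M.rev 7`
(`(M.rev 7).rev 7` has the same `U`, `x`). -/
theorem exists_q (hn : M.n = 4) : (M.QL ∨ M.QT) ∨ ((M.rev 7).QL ∨ (M.rev 7).QT) := by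
  by_cases h1 : M.Sg (M.x 1)
  · exact (ty_q hn h1).elim (fun r => .inl (.inr r)) fun r => .inr (.inl r)
  by_cases h0 : M.Sg (M.x 0)
  · refine (ty_q (M := M.rev 7) hn (ty_sg (j := 7 - 1) h0 (by omega))).elim (fun r => .inr (.inr r))
      fun r => .inl (.inl ⟨hn, fun i => ?_, fun i hi => ?_⟩)
    · have := r.ab i
      rwa [U_rev, U_rev, rev_n, sub_sub_cancel] at this
    · have := r.cm i hi
      rwa [U_rev, U_rev, U_rev, U_rev, rev_n, sub_sub_cancel, sub_sub_cancel] at this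
  exact .inl (.inl ⟨hn, fun i a ha b hb => tau_comm (by omega) h0 h1 ha hb le_rfl (by omega),
    fun i _ a ha b hb => tau_comm (by omega) h0 h1 ha hb (by omega) (by omega)⟩)

theorem QL.qm (H : M.QL) : M.QM 0 (M.U 1) (M.U 3) (M.U 2) := by
  have hn := H.n
  rw [← UU_self 2]
  refine ty_qm (by omega) (by omega) (by omega) (by omega) le_rfl
    (fun a ha n h => conj_UU h (by omega) ha (by omega) (by omega))
    (fun a ha n h => conj_UU h (by omega) ha (by omega) (by omega))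
    (fun a ha => ty_nor fun k k1 k2 n h => ?_) (fun a ha => ty_nor fun k k1 k2 n h => ?_)
    (fun a ha b hb => (H.ab _ a ha b hb).commutator_eq ▸ one_mem _)
    (fun a ha b hb => (H.ab _ a ha b hb).commutator_eq ▸ one_mem _)
    fun a ha b hb e => ty_ind ha hb e (by omega) (by omega) (by omega) (by omega) ▸ one_mem _
  · exact (H.cm 0 rfl a ha n (by rwa [show (0 : ℤ) + 2 = k by omega])).commutator_eq ▸ one_mem _
  · exact (H.cm k (by omega) n h a (by rwa [show k + 2 = 0 + M.n by omega])).symm.commutator_eq ▸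
      one_mem _

namespace QT

variable (H : M.QT)
include H

/-- `N4_ZQ` -/
theorem Z_le (hi : i % 2 = 1) : M.Zv (M.x (i + 2)) ≤ M.U i := by
  have hn := H.n
  have hm : M.m = 2 := by unfold Pol.m; omega
  exact fun z hz => ty_ball (by omega) (Pol.Zv_ball (ty_sg H.sg (by omega)) hz) (by omega)

/-- `N8c_ex`-like: `exists_Z`, `Z_eq_Zv` -/
theorem exists_Z (hi : i % 2 = 1) : ∃ z ∈ M.Zv (M.x i), z ≠ 1 := by
  rw [← Pol.Z_eq_Zv (.inl H.n) (ty_sg H.sg (by omega)) (line.1 i)]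
  exact Pol.exists_Z (line.1 i)

/-- `N4_odd` -/
theorem U_le (hi : i % 2 = 0) : M.U i ≤ M.Vv (M.x (i + 2)) := by
  exact ty_U_le H.n H.sg hi

/-- `N4_comm` -/
theorem comm (hi : i % 2 = 0) (ha : a ∈ M.U i) (hb : b ∈ M.U (i + 2)) :
    ⁅a, b⁆ ∈ M.Zv (M.x (i + 3)) := by
  have hn := H.n
  have := inv_mem (SP.N4_comm (P := M.toSP) hn (line.shift (i + 1)) (ty_sg H.sg (by omega))
    (ty_QQ _ hb (by omega) (by omega)) (ty_QQ _ ha (by omega) (by omega)))
  rwa [commutatorElement_inv, show 2 + (i + 1) = i + 3 by ring] at this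

/-- `c` centralises `U (i-1)`, `U (i+1)`, `U (i+2)`, hence `U i` (`comm_first` for
`U (i-1), U (i+2)`: every element of `U i` is a first component), hence
`A (x (i+2)) (x (i+3)) = UU (i-1) (i+2)`; `Z_eq_Zv`. -/
theorem mem_Z (hi : i % 2 = 1) (ha : a ∈ M.U i) (h : ∀ b ∈ M.U (i + 2), Commute a b) :
    a ∈ M.Zv (M.x (i + 2)) := by
  have hn := H.n
  rw [← Pol.Z_eq_Zv (.inl H.n) (ty_sg H.sg (by omega)) (line.1 _)]
  refine Pol.mem_Z.2 ⟨ty_U_A ha (by omega) (by omega), fun g hg => ?_⟩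
  rw [A_eq] at hg
  refine Subgroup.mem_centralizer_singleton_iff.1 (UU_le (H := Subgroup.centralizer {a})
    (fun k h1 h2 u hu => Subgroup.mem_centralizer_singleton_iff.2 (Eq.symm ?_)) hg)
  rcases (by omega : i = k + 1 ∨ k = i ∨ k = i + 1 ∨ k = i + 2) with e | rfl | e | rfl
  · exact (commute_succ hu ha e).symm
  · obtain ⟨c, hc, c1⟩ := exists_U (M := M) (k - 1)
    obtain ⟨l, hl, r, hr, hm⟩ := exists_mu hc c1
    have hv := ty_rf (k := k + 2) hm.inv hu (by omega)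
    have hw := comm_first hc hl hr hm (by rwa [show k - 1 + M.n - 1 = k + 2 by omega])
    rw [show k - 1 + 2 = k + 1 by ring, show k - 1 + M.n - 2 = k + 1 by omega, UU_self] at hw
    have c2 := (commute_succ hc ha (by ring)).symm
    have c3 := h _ hv
    have := (((c2.mul_right c3).mul_right c2.inv_right).mul_right c3.inv_right).mul_right
      (commute_succ ha hw rfl).inv_right
    rw [← commutatorElement_def] at this
    generalize l * c * r = m at this
    rw [mul_inv_rev, mul_inv_cancel_left] at this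
    simpa [mul_assoc] using this.eq
  · exact commute_succ ha hu e
  · exact h u hu

/-- `N = Vv (x 4)` is normalised by the stabiliser of `x 4`, central in `Q (x 4) = UU 1 3` (`Vv_comm`,
`Vv_le_Q`), contains `U 2` and `Zv (x 3)`, `Zv (x 5)`.  `AA`: `⁅U 1, U 3⁆ ≤ U 2` is central in `Q (x 4)`,
so a commutator of two elements of `U 1` centralises `U 3`; `mem_Z` (and its mirror image, or
conjugate by a reflection).  `ind`: `N4_decomp` and `uniq`. -/
theorem qm : M.QM 0 (M.U 1) (M.U 3) (M.Vv (M.x 4)) := by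
  have hn := H.n
  have hN : M.U 2 ≤ M.Vv (M.x 4) := H.U_le (i := 2) rfl
  have hZ : M.Zv (M.x 3) ≤ M.Vv (M.x 4) := Pol.Zv_le_Vv (line.adj_pred (by omega))
  have AA : ∀ a ∈ M.U 1, ∀ b ∈ M.U 1, ⁅a, b⁆ ∈ M.Vv (M.x 4) := fun a ha b hb => by
    refine hZ (H.mem_Z (i := 1) rfl (mul_mem (mul_mem (mul_mem ha hb) (inv_mem ha)) (inv_mem hb))
      fun c hc => ?_)
    have k : ∀ a ∈ M.U 1, ⁅c, a⁆ ∈ M.Vv (M.x 4) := fun a ha => by
      rw [← commutatorElement_inv]
      exact inv_mem (hN ((UU_self 2).le (UU_mono (by omega) (by omega)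
        (MP.comm ha hc (by omega) (by omega)))))
    have q : ∀ a ∈ M.U 1, a ∈ M.Q (M.x 4) := fun a ha => mem_U.1 ha 4 (by omega) (by omega)
    exact ty_cent rfl rfl (Pol.Vv_comm (k a ha) (q a ha)).symm (Pol.Vv_comm (k a ha) (q b hb)).symm
      (SP.Vv_comm_Vv (k a ha) (k b hb)) (Pol.Vv_comm (k b hb) (q a ha)).symm
      (Pol.Vv_comm (k b hb) (q b hb)).symm
  refine ty_qm (i2 := 2) (j2 := 2) (by omega) (by omega) (by omega) (by omega) ((UU_self 2).le.trans hN)
    (fun a ha n h => Pol.Vv_conj' h (U_fix ha (by omega) (by omega)))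
    (fun a ha n h => Pol.Vv_conj' h (U_fix ha (by omega) (by omega)))
    (fun a ha n h => Pol.Vv_conj' h (U_fix ha (by omega) (by omega)))
    (fun a ha n h => Pol.Vv_conj' h (U_fix ha (by omega) (by omega))) AA (fun a ha b hb => ?_)
    fun a ha b hb e => ?_
  · obtain ⟨m, hm⟩ : ∃ m, M.Rf (2 * 4) m := Pol.exists_refl (P := M.toPol) M.ap rfl
    have k : ∀ a ∈ M.U 3, m * a * m⁻¹ ∈ M.U 1 := fun a ha => hm.conj_U ha (by omega)
    have := Pol.Vv_conj' (AA _ (k a ha) _ (k b hb)) (hm.inv 4)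
    simpa [commutatorElement_def, mul_assoc] using this
  · obtain ⟨z, hz, ξ, hξ, w, hw, -, r⟩ := SP.N4_decomp (P := M.toSP) hn (line.shift 3)
      (ty_sg H.sg (by omega)) e
    exact (uniq (j := 3) ha (H.Z_le (i := 1) rfl hz) (U_le_UU (by omega) le_rfl hb)
      (mul_mem (U_le_UU (k := 2) (by omega) (by omega) (ty_U _ hξ (by omega) (by omega)))
        (U_le_UU (by omega) le_rfl (H.Z_le (i := 3) rfl hw))) (by omega) (r.trans (mul_assoc _ _ _))).1 ▸
      hZ hz

/-- `Vv_comm`, `mem_Z`, `ne` -/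
theorem not_le : ¬ M.U 1 ≤ M.Vv (M.x 4) := by
  have hn := H.n
  exact fun r => H.ne fun a ha => H.mem_Z (i := 1) rfl ha fun b hb =>
    (Pol.Vv_comm (r ha) (mem_U.1 hb 4 (by omega) (by omega))).symm

end QT

end MP

end Cfsg.Agent.BN2
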